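import Mathlib
import Cfsg.Agent.Helper17.TCArr

set_option autoImplicit false

namespace Cfsg.Agent.Helper17.TCD.A5P

open Cfsg.Agent.Helper17.TC

noncomputable def T0 : Arr := (.leaf 0xbeebca651a8da15360b774c5464412)

noncomputable def T1 : Arr := (.leaf 0xb2f0c4a6aa398c59222718de4085a2)

noncomputable def T2 : Arr := (.leaf 0x5aadc4ed079e658291f61d5b25c433)

noncomputable def T3 : Arr := (.leaf 0xbad4a5728899cf9814842584170d82)

noncomputable def T4 : Arr := (.leaf 0)

noncomputable def J0 : Arr := (.leaf 0xa0008020800101208000802000000000500080204000802000000000000000002000802000000000000080200000000)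

noncomputable def J1 : Arr := (.leaf 0x10000000100000001000000010000000100000001000000010000000100000001000000010000000100000001)

noncomputable def J2 : Arr := (.leaf 0x10900080a00000000000000010800100a07004812000000010300080a000000000000080a0000080300000000)

noncomputable def J3 : Arr := (.leaf 0x10000000100000000000000010000000100000000000000010000000100000000000000010000000100000001)

noncomputable def J4 : Arr := (.leaf 0)

noncomputable def Pa : Arr := (.leaf 0xe42902036014040cc230082000000)

noncomputable def F0 : Arr := (.leaf 0xab8954762301)

noncomputable def F1 : Arr := (.leaf 0xab8954762301)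

noncomputable def F2 : Arr := (.leaf 0x9ba687354102)

noncomputable def F3 : Arr := (.leaf 0xa9b768435021)

end Cfsg.Agent.Helper17.TCD.A5P
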