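import Mathlib
import Cfsg.Agent.Helper17.TC
import Cfsg.Agent.Helper17.TCD.A5P_A0

set_option autoImplicit false

namespace Cfsg.Agent.Helper17.TCD.A5P

open Cfsg.Agent.Helper17.TC

def relsL : List (List ℕ) := [[0, 0], [2, 2, 2], [0, 2, 0, 2, 0, 2, 0, 2, 0, 2]]

def subsL : List (List ℕ) := [[0, 2]]

noncomputable def cert : Cert :=
  { ncols := 4, M := 12, N := 12, bt := 4, mt := 15, W := 10, mW := 1023,
    WJ := 32, mJ := 4294967295, bn := 4, mn := 15, fuel := 64, ck := 8, cm := 255,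
    invc := [1, 0, 3, 2], rels := relsL, subs := subsL,
    T := [T0, T1, T2, T3, T4], J := [J0, J1, J2, J3, J4], P := Pa,
    F := [F0, F1, F2, F3] }

end Cfsg.Agent.Helper17.TCD.A5P
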