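import Mathlib
import Cfsg.Agent.Helper17.TCD.A6C_Cert

set_option autoImplicit false

namespace Cfsg.Agent.Helper17.TCD.A6C

open Cfsg.Agent.Helper17.TC

set_option maxHeartbeats 0 in
theorem kT_0 : chkRangeT cert 0 432 = true := by decide +kernel

set_option maxHeartbeats 0 in
theorem kF_0 : chkRangeF cert 0 432 = true := by decide +kernel

set_option maxHeartbeats 0 in
theorem kFin_0 : chkRangeFin cert 0 432 = true := by decide +kernel

end Cfsg.Agent.Helper17.TCD.A6C
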