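import Mathlib
import Cfsg.Agent.Helper17.TC
import Cfsg.Agent.Helper17.TCD.A7C_A0

set_option autoImplicit false

namespace Cfsg.Agent.Helper17.TCD.A7C

open Cfsg.Agent.Helper17.TC

def relsL : List (List ℕ) := [[1, 2, 1, 3, 0, 2, 0, 3, 1, 2, 0, 3, 1], [3, 1, 2, 0, 3, 1, 2, 0, 2, 2, 2, 1, 3, 0, 2, 3, 3, 1, 3, 0, 3], [0, 0, 0], [2, 2, 2, 2, 2], [0, 2, 0, 2, 0, 2, 0, 2, 0, 2, 0, 2, 0, 2, 3, 3, 1, 2, 2, 1, 3, 3, 1, 2, 2, 1, 3, 3, 1, 2, 2, 1, 3, 3, 1, 2, 2, 1, 3, 3, 1, 2, 2, 1, 3, 3, 1, 2, 2, 1, 3, 3, 1, 2, 2, 1, 3, 3, 1, 2, 2, 1], [0, 3, 0, 2, 0, 3, 0, 2, 3, 3, 1, 2, 2, 1, 3, 3, 1, 2, 2, 1, 3, 3, 1, 2, 2, 1, 3, 3, 1, 2, 2, 1, 3, 3, 1, 2, 2, 1, 3, 3, 1, 2, 2, 1], [0, 3, 3, 0, 2, 2, 0, 3, 3, 0, 2, 2, 0, 3, 3, 0, 2, 2, 0, 3,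 3, 0, 2, 2, 0, 3, 3, 0, 2, 2, 0, 3, 3, 0, 2, 2, 0, 3, 3, 0, 2, 2, 0, 3, 3, 0, 2, 2, 0, 3, 3, 0, 2, 2, 0, 3, 3, 0, 2, 2, 0, 3, 3, 0, 2, 2, 0, 3, 3, 0, 2, 2], [0, 3, 3, 0, 2, 2, 0, 3, 3, 0, 2, 2, 0, 3, 3, 1, 2, 2, 1, 3, 3, 1, 2, 2, 1, 1], [0, 3, 3, 0, 2, 2, 0, 3, 3, 0, 2, 2, 2, 3, 3, 1, 2, 2, 1, 3, 3, 1, 2, 2, 1, 3], [0, 2, 0, 2, 0, 2, 0, 2, 0, 2, 0, 2, 0, 2, 0, 2, 0, 2, 0, 2, 0, 2, 0, 2, 0, 2, 0, 2, 0, 2, 0, 2, 0, 2, 0, 2, 0, 2, 0, 2, 0, 2]]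

def subsL : List (List ℕ) := [[0, 2, 0, 2, 0, 2]]

noncomputable def cert : Cert :=
  { ncols := 4, M := 2160, N := 2160, bt := 12, mt := 4095, W := 26, mW := 67108863,
    WJ := 48, mJ := 281474976710655, bn := 12, mn := 4095, fuel := 64, ck := 8, cm := 255,
    invc := [1, 0, 3, 2], rels := relsL, subs := subsL,
    T := [T0, T1, T2, T3, T4], J := [J0, J1, J2, J3, J4], P := Pa,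
    F := [F0, F1, F2, F3] }

end Cfsg.Agent.Helper17.TCD.A7C
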