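import Mathlib
import Cfsg.Agent.Helper17.TCD.A7C_Cert

set_option autoImplicit false

namespace Cfsg.Agent.Helper17.TCD.A7C

open Cfsg.Agent.Helper17.TC

set_option maxHeartbeats 0 in
theorem kT_0 : chkRangeT cert 0 2000 = true := by decide +kernel

set_option maxHeartbeats 0 in
theorem kT_2000 : chkRangeT cert 2000 160 = true := by decide +kernel

set_option maxHeartbeats 0 in
theorem kF_0 : chkRangeF cert 0 454 = true := by decide +kernel

set_option maxHeartbeats 0 in
theorem kF_454 : chkRangeF cert 454 454 = true := by decide +kernel

set_option maxHeartbeats 0 in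
theorem kF_908 : chkRangeF cert 908 454 = true := by decide +kernel

set_option maxHeartbeats 0 in
theorem kF_1362 : chkRangeF cert 1362 454 = true := by decide +kernel

set_option maxHeartbeats 0 in
theorem kF_1816 : chkRangeF cert 1816 344 = true := by decide +kernel

set_option maxHeartbeats 0 in
theorem kFin_0 : chkRangeFin cert 0 2000 = true := by decide +kernel

end Cfsg.Agent.Helper17.TCD.A7C
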