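import Mathlib
import Cfsg.Agent.Helper17.TCIndex
import Cfsg.Agent.Helper17.TCD.A7C_K0
import Cfsg.Agent.Helper17.TCD.A7C_K1

set_option autoImplicit false

namespace Cfsg.Agent.Helper17.TCD.A7C

open Cfsg.Agent.Helper17.TC

set_option maxHeartbeats 1000000 in
theorem small : chkSmall cert = true := by decide +kernel

theorem allT : ∀ v < 2160, chkRow cert v cert.ncols = true := by
  have h0 : ∀ v < 0, chkRow cert v cert.ncols = true := fun v hv => absurd hv (Nat.not_lt_zero v)
  have h1 : ∀ v < 2000, chkRow cert v cert.ncols = true :=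
    cover_step h0 (chkRangeT_spec (c := cert) 0 2000 kT_0) rfl
  have h2 : ∀ v < 2160, chkRow cert v cert.ncols = true :=
    cover_step h1 (chkRangeT_spec (c := cert) 2000 160 kT_2000) rfl
  exact h2

theorem allF : ∀ v < 2160, chkVF cert v = true := by
  have h0 : ∀ v < 0, chkVF cert v = true := fun v hv => absurd hv (Nat.not_lt_zero v)
  have h1 : ∀ v < 454, chkVF cert v = true :=
    cover_step h0 (chkRangeF_spec (c := cert) 0 454 kF_0) rfl
  have h2 : ∀ v < 908, chkVF cert v = true :=
    cover_step h1 (chkRangeF_spec (c := cert) 454 454 kF_454) rfl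
  have h3 : ∀ v < 1362, chkVF cert v = true :=
    cover_step h2 (chkRangeF_spec (c := cert) 908 454 kF_908) rfl
  have h4 : ∀ v < 1816, chkVF cert v = true :=
    cover_step h3 (chkRangeF_spec (c := cert) 1362 454 kF_1362) rfl
  have h5 : ∀ v < 2160, chkVF cert v = true :=
    cover_step h4 (chkRangeF_spec (c := cert) 1816 344 kF_1816) rfl
  exact h5

theorem allFin : ∀ v < 2160, finAt cert v cert.ncols = true := by
  have h0 : ∀ v < 0, finAt cert v cert.ncols = true := fun v hv => absurd hv (Nat.not_lt_zero v)
  have h1 : ∀ v < 2000, finAt cert v cert.ncols = true :=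
    cover_step h0 (chkRangeFin_spec (c := cert) 0 2000 kFin_0) rfl
  have h2 : ∀ v < 2160, finAt cert v cert.ncols = true :=
    cover_step h1 (chkRangeFin_spec (c := cert) 2000 160 kFin_2000) rfl
  exact h2

theorem checked : Checked cert := ⟨small, allT, allF, allFin⟩

end Cfsg.Agent.Helper17.TCD.A7C
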