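import Mathlib
import Cfsg.Agent.Helper17.TC
import Cfsg.Agent.Helper17.TCD.Fi22A_A0

set_option autoImplicit false

namespace Cfsg.Agent.Helper17.TCD.Fi22A

open Cfsg.Agent.Helper17.TC

def relsL : List (List ℕ) := [[0, 0], [0, 1, 0, 1, 0, 1], [0, 2, 0, 2], [0, 3, 0, 3], [0, 4, 0, 4], [0, 5, 0, 5], [0, 7, 0, 7], [0, 6, 0, 6], [0, 8, 0, 8], [1, 1], [1, 2, 1, 2, 1, 2], [1, 3, 1, 3], [1, 4, 1, 4], [1, 5, 1, 5], [1, 7, 1, 7], [1, 6, 1, 6], [1, 8, 1, 8], [2, 2], [2, 3, 2, 3, 2, 3], [2, 4, 2, 4], [2, 5, 2, 5], [2, 7, 2, 7], [2, 6, 2, 6], [2, 8, 2, 8], [3, 3], [3, 4, 3, 4, 3, 4], [3, 5, 3, 5], [3, 7, 3, 7, 3, 7], [3, 6, 3, 6], [3, 8, 3, 8], [4, 4], [4, 5, 4, 5, 4, 5], [4, 7, 4, 7], [4, 6, 4, 6], [4, 8, 4, 8], [5, 5], [5, 7, 5, 7], [5,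 6, 5, 6, 5, 6], [5, 8, 5, 8], [7, 7], [7, 8, 7, 8, 7, 8], [6, 7, 6, 7], [6, 6], [6, 8, 6, 8], [8, 8], [3, 2, 1, 3, 4, 5, 3, 7, 8, 3, 2, 1, 3, 4, 5, 3, 7, 8, 3, 2, 1, 3, 4, 5, 3, 7, 8, 3, 2, 1, 3, 4, 5, 3, 7, 8, 3, 2, 1, 3, 4, 5, 3, 7, 8, 3, 2, 1, 3, 4, 5, 3, 7, 8, 3, 2, 1, 3, 4, 5, 3, 7, 8, 3, 2, 1, 3, 4, 5, 3, 7, 8, 3, 2, 1, 3, 4, 5, 3, 7, 8, 3, 2, 1, 3, 4, 5, 3, 7, 8], [0, 1, 2, 3, 4, 5, 7, 0, 1, 2, 3, 4, 5, 7, 0, 1, 2, 3, 4, 5, 7, 0, 1, 2, 3, 4, 5, 7, 0, 1, 2, 3, 4, 5, 7, 0, 1, 2, 3, 4, 5, 7, 0, 1, 2, 3, 4, 5, 7, 0, 1, 2, 3, 4, 5, 7, 0, 1, 2, 3, 4, 5, 7], [1, 2, 3, 4, 5, 6, 7, 1, 2, 3, 4, 5, 6, 7, 1, 2, 3, 4, 5, 6, 7, 1, 2, 3, 4, 5, 6, 7, 1, 2, 3, 4, 5, 6, 7, 1, 2, 3, 4, 5, 6, 7, 1, 2, 3, 4, 5, 6, 7, 1, 2, 3, 4, 5, 6, 7, 1,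 2, 3, 4, 5, 6, 7]]

def subsL : List (List ℕ) := [[0], [2], [3], [4], [5], [6], [7], [8], [0, 1, 2, 3, 4, 7, 0, 1, 2, 3, 4, 7, 0, 1, 2, 3, 4, 7, 0, 1, 2, 3, 4, 7, 0, 1, 2, 3, 4, 7]]

noncomputable def cert : Cert :=
  { ncols := 9, M := 3510, N := 3510, bt := 12, mt := 4095, W := 27, mW := 134217727,
    WJ := 48, mJ := 281474976710655, bn := 12, mn := 4095, fuel := 64, ck := 8, cm := 255,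
    invc := [0, 1, 2, 3, 4, 5, 6, 7, 8], rels := relsL, subs := subsL,
    T := [T0, T1, T2, T3, T4, T5, T6, T7, T8, T9], J := [J0, J1, J2, J3, J4, J5, J6, J7, J8, J9], P := Pa,
    F := [F0, F1, F2, F3, F4, F5, F6, F7, F8] }

end Cfsg.Agent.Helper17.TCD.Fi22A
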