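import Mathlib
import Cfsg.Agent.Helper17.TCD.Fi22A_Cert

set_option autoImplicit false

namespace Cfsg.Agent.Helper17.TCD.Fi22A

open Cfsg.Agent.Helper17.TC

set_option maxHeartbeats 0 in
theorem kT_0 : chkRangeT cert 0 1567 = true := by decide +kernel

set_option maxHeartbeats 0 in
theorem kT_1567 : chkRangeT cert 1567 1593 = true := by decide +kernel

set_option maxHeartbeats 0 in
theorem kT_3160 : chkRangeT cert 3160 350 = true := by decide +kernel

set_option maxHeartbeats 0 in
theorem kF_0 : chkRangeF cert 0 352 = true := by decide +kernel

set_option maxHeartbeats 0 in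
theorem kF_352 : chkRangeF cert 352 352 = true := by decide +kernel

set_option maxHeartbeats 0 in
theorem kF_704 : chkRangeF cert 704 352 = true := by decide +kernel

set_option maxHeartbeats 0 in
theorem kF_1056 : chkRangeF cert 1056 352 = true := by decide +kernel

set_option maxHeartbeats 0 in
theorem kF_1408 : chkRangeF cert 1408 352 = true := by decide +kernel

end Cfsg.Agent.Helper17.TCD.Fi22A
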