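import Mathlib
import Cfsg.Agent.Helper17.TCD.Fi22A_Cert

set_option autoImplicit false

namespace Cfsg.Agent.Helper17.TCD.Fi22A

open Cfsg.Agent.Helper17.TC

set_option maxHeartbeats 0 in
theorem kF_1760 : chkRangeF cert 1760 352 = true := by decide +kernel

set_option maxHeartbeats 0 in
theorem kF_2112 : chkRangeF cert 2112 352 = true := by decide +kernel

set_option maxHeartbeats 0 in
theorem kF_2464 : chkRangeF cert 2464 352 = true := by decide +kernel

set_option maxHeartbeats 0 in
theorem kF_2816 : chkRangeF cert 2816 352 = true := by decide +kernel

set_option maxHeartbeats 0 in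
theorem kF_3168 : chkRangeF cert 3168 342 = true := by decide +kernel

set_option maxHeartbeats 0 in
theorem kFin_0 : chkRangeFin cert 0 2000 = true := by decide +kernel

set_option maxHeartbeats 0 in
theorem kFin_2000 : chkRangeFin cert 2000 1510 = true := by decide +kernel

end Cfsg.Agent.Helper17.TCD.Fi22A
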