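import Mathlib
import Cfsg.Agent.Helper17.TCD.Fi22A_O

set_option autoImplicit false

namespace Cfsg.Agent.Helper17.TCD.Fi22A

open Cfsg.Agent.Helper17.TC

set_option maxHeartbeats 0 in
theorem kO_0 : chkRangeO cert orb 0 1898 = true := by decide +kernel

set_option maxHeartbeats 0 in
theorem kO_1898 : chkRangeO cert orb 1898 1612 = true := by decide +kernel

set_option maxHeartbeats 0 in
theorem root_1 : rootOK cert orb 1 = true := by decide +kernel

set_option maxHeartbeats 0 in
theorem cnt_1 : cntB cert orb 1 12 0 = 2816 := by decide +kernel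

set_option maxHeartbeats 0 in
theorem root_2 : rootOK cert orb 2 = true := by decide +kernel

set_option maxHeartbeats 0 in
theorem cnt_2 : cntB cert orb 2 12 0 = 693 := by decide +kernel

end Cfsg.Agent.Helper17.TCD.Fi22A
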