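import Mathlib
import Cfsg.Prelude.Def_Spor_Fi22
import Cfsg.Agent.Helper17.TCPres
import Cfsg.Agent.Helper17.TCOrbit
import Cfsg.Agent.Helper17.TCD.Fi22A_K0
import Cfsg.Agent.Helper17.TCD.Fi22A_K1
import Cfsg.Agent.Helper17.TCD.Fi22A_KO0

set_option autoImplicit false

namespace Cfsg.Agent.Helper17.TCD.Fi22A

open Cfsg.Agent.Helper17.TC Cfsg.Spor

set_option maxHeartbeats 1000000 in
theorem small : chkSmall cert = true := by decide +kernel

theorem allT : ∀ v < 3510, chkRow cert v cert.ncols = true := by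
  have h0 : ∀ v < 0, chkRow cert v cert.ncols = true := fun v hv => absurd hv (Nat.not_lt_zero v)
  have h1 : ∀ v < 1567, chkRow cert v cert.ncols = true :=
    cover_step h0 (chkRangeT_spec (c := cert) 0 1567 kT_0) rfl
  have h2 : ∀ v < 3160, chkRow cert v cert.ncols = true :=
    cover_step h1 (chkRangeT_spec (c := cert) 1567 1593 kT_1567) rfl
  have h3 : ∀ v < 3510, chkRow cert v cert.ncols = true :=
    cover_step h2 (chkRangeT_spec (c := cert) 3160 350 kT_3160) rfl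
  exact h3

theorem allF : ∀ v < 3510, chkVF cert v = true := by
  have h0 : ∀ v < 0, chkVF cert v = true := fun v hv => absurd hv (Nat.not_lt_zero v)
  have h1 : ∀ v < 352, chkVF cert v = true :=
    cover_step h0 (chkRangeF_spec (c := cert) 0 352 kF_0) rfl
  have h2 : ∀ v < 704, chkVF cert v = true :=
    cover_step h1 (chkRangeF_spec (c := cert) 352 352 kF_352) rfl
  have h3 : ∀ v < 1056, chkVF cert v = true :=
    cover_step h2 (chkRangeF_spec (c := cert) 704 352 kF_704) rfl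
  have h4 : ∀ v < 1408, chkVF cert v = true :=
    cover_step h3 (chkRangeF_spec (c := cert) 1056 352 kF_1056) rfl
  have h5 : ∀ v < 1760, chkVF cert v = true :=
    cover_step h4 (chkRangeF_spec (c := cert) 1408 352 kF_1408) rfl
  have h6 : ∀ v < 2112, chkVF cert v = true :=
    cover_step h5 (chkRangeF_spec (c := cert) 1760 352 kF_1760) rfl
  have h7 : ∀ v < 2464, chkVF cert v = true :=
    cover_step h6 (chkRangeF_spec (c := cert) 2112 352 kF_2112) rfl
  have h8 : ∀ v < 2816, chkVF cert v = true :=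
    cover_step h7 (chkRangeF_spec (c := cert) 2464 352 kF_2464) rfl
  have h9 : ∀ v < 3168, chkVF cert v = true :=
    cover_step h8 (chkRangeF_spec (c := cert) 2816 352 kF_2816) rfl
  have h10 : ∀ v < 3510, chkVF cert v = true :=
    cover_step h9 (chkRangeF_spec (c := cert) 3168 342 kF_3168) rfl
  exact h10

theorem allFin : ∀ v < 3510, finAt cert v cert.ncols = true := by
  have h0 : ∀ v < 0, finAt cert v cert.ncols = true := fun v hv => absurd hv (Nat.not_lt_zero v)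
  have h1 : ∀ v < 2000, finAt cert v cert.ncols = true :=
    cover_step h0 (chkRangeFin_spec (c := cert) 0 2000 kFin_0) rfl
  have h2 : ∀ v < 3510, finAt cert v cert.ncols = true :=
    cover_step h1 (chkRangeFin_spec (c := cert) 2000 1510 kFin_2000) rfl
  exact h2

theorem checked : Checked cert := ⟨small, allT, allF, allFin⟩

def colOf : Cfsg.Spor.Fi22.Gen → ℕ
  | .a => 0
  | .b => 1
  | .c => 2
  | .d => 3
  | .e => 4
  | .f => 5
  | .g => 6
  | .h => 7
  | .i => 8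

def colGen : ℕ → Cfsg.Spor.Fi22.Gen × Bool
  | 0 => (.a, true)
  | 1 => (.b, true)
  | 2 => (.c, true)
  | 3 => (.d, true)
  | 4 => (.e, true)
  | 5 => (.f, true)
  | 6 => (.g, true)
  | 7 => (.h, true)
  | 8 => (.i, true)
  | _ => (.a, true)

def nodes : List Cfsg.Spor.Fi22.Gen := [.a, .b, .c, .d, .e, .f, .h, .g, .i]

def extraEs : List WE := [(.pow (.mul (.mul (.mul (.mul (.mul (.mul (.mul (.mul (.g 3) (.g 2)) (.g 1)) (.g 3)) (.g 4)) (.g 5)) (.g 3)) (.g 7)) (.g 8)) 10), (.pow (.mul (.mul (.mul (.mul (.mul (.mul (.g 0) (.g 1)) (.g 2)) (.g 3)) (.g 4)) (.g 5)) (.g 7)) 9), (.pow (.mul (.mul (.mul (.mul (.mul (.mul (.g 1) (.g 2)) (.g 3)) (.g 4)) (.g 5)) (.g 6)) (.g 7)) 9)]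

def subEs : List WE := [(.g 0), (.g 2), (.g 3), (.g 4), (.g 5), (.g 6), (.g 7), (.g 8), (.pow (.mul (.mul (.mul (.mul (.mul (.g 0) (.g 1)) (.g 2)) (.g 3)) (.g 4)) (.g 7)) 5)]

set_option maxHeartbeats 1000000 in
theorem link : Link Cfsg.Spor.Fi22.edges Cfsg.Spor.Fi22.extra ({Cfsg.Spor.Fi22.a, Cfsg.Spor.Fi22.c, Cfsg.Spor.Fi22.d, Cfsg.Spor.Fi22.e, Cfsg.Spor.Fi22.f, Cfsg.Spor.Fi22.g, Cfsg.Spor.Fi22.h, Cfsg.Spor.Fi22.i, (Cfsg.Spor.Fi22.a * Cfsg.Spor.Fi22.b * Cfsg.Spor.Fi22.c * Cfsg.Spor.Fi22.d * Cfsg.Spor.Fi22.e * Cfsg.Spor.Fi22.h) ^ 5} : Set (FreeGroup Cfsg.Spor.Fi22.Gen)) cert colOf colGen nodes extraEs subEs where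
  hall := by intro x; cases x <;> exact ⟨by decide, rfl⟩
  hcols := by decide +kernel
  hinvs := by decide +kernel
  hn1 := by decide +kernel
  hn2 := by decide +kernel
  hsym := by decide +kernel
  hrels := by decide +kernel
  hextra := rfl
  hok := by decide +kernel
  hsubs := by decide +kernel
  hS1 := by
    intro s hs
    simp only [Set.mem_insert_iff, Set.mem_singleton_iff] at hs
    rcases hs with rfl | rfl | rfl | rfl | rfl | rfl | rfl | rfl | rfl
    · exact ⟨(.g 0), List.mem_cons_self, rfl⟩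
    · exact ⟨(.g 2), List.mem_cons_of_mem _ (List.mem_cons_self), rfl⟩
    · exact ⟨(.g 3), List.mem_cons_of_mem _ (List.mem_cons_of_mem _ (List.mem_cons_self)), rfl⟩
    · exact ⟨(.g 4), List.mem_cons_of_mem _ (List.mem_cons_of_mem _ (List.mem_cons_of_mem _ (List.mem_cons_self))), rfl⟩
    · exact ⟨(.g 5), List.mem_cons_of_mem _ (List.mem_cons_of_mem _ (List.mem_cons_of_mem _ (List.mem_cons_of_mem _ (List.mem_cons_self)))), rfl⟩
    · exact ⟨(.g 6), List.mem_cons_of_mem _ (List.mem_cons_of_mem _ (List.mem_cons_of_mem _ (List.mem_cons_of_mem _ (List.mem_cons_of_mem _ (List.mem_cons_self))))), rfl⟩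
    · exact ⟨(.g 7), List.mem_cons_of_mem _ (List.mem_cons_of_mem _ (List.mem_cons_of_mem _ (List.mem_cons_of_mem _ (List.mem_cons_of_mem _ (List.mem_cons_of_mem _ (List.mem_cons_self)))))), rfl⟩
    · exact ⟨(.g 8), List.mem_cons_of_mem _ (List.mem_cons_of_mem _ (List.mem_cons_of_mem _ (List.mem_cons_of_mem _ (List.mem_cons_of_mem _ (List.mem_cons_of_mem _ (List.mem_cons_of_mem _ (List.mem_cons_self))))))), rfl⟩
    · exact ⟨(.pow (.mul (.mul (.mul (.mul (.mul (.g 0) (.g 1)) (.g 2)) (.g 3)) (.g 4)) (.g 7)) 5), List.mem_cons_of_mem _ (List.mem_cons_of_mem _ (List.mem_cons_of_mem _ (List.mem_cons_of_mem _ (List.mem_cons_of_mem _ (List.mem_cons_of_mem _ (List.mem_cons_of_mem _ (List.mem_cons_of_mem _ (List.mem_cons_self)))))))), rfl⟩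
  hS2 := by
    intro e he
    simp only [subEs, List.mem_cons, List.not_mem_nil, or_false] at he
    rcases he with rfl | rfl | rfl | rfl | rfl | rfl | rfl | rfl | rfl
    · exact (Or.inl rfl)
    · exact (Or.inr (Or.inl rfl))
    · exact (Or.inr (Or.inr (Or.inl rfl)))
    · exact (Or.inr (Or.inr (Or.inr (Or.inl rfl))))
    · exact (Or.inr (Or.inr (Or.inr (Or.inr (Or.inl rfl)))))
    · exact (Or.inr (Or.inr (Or.inr (Or.inr (Or.inr (Or.inl rfl))))))
    · exact (Or.inr (Or.inr (Or.inr (Or.inr (Or.inr (Or.inr (Or.inl rfl)))))))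
    · exact (Or.inr (Or.inr (Or.inr (Or.inr (Or.inr (Or.inr (Or.inr (Or.inl rfl))))))))
    · exact (Or.inr (Or.inr (Or.inr (Or.inr (Or.inr (Or.inr (Or.inr (Or.inr rfl))))))))

theorem index_eq : (((Subgroup.closure ({Cfsg.Spor.Fi22.a, Cfsg.Spor.Fi22.c, Cfsg.Spor.Fi22.d, Cfsg.Spor.Fi22.e, Cfsg.Spor.Fi22.f, Cfsg.Spor.Fi22.g, Cfsg.Spor.Fi22.h, Cfsg.Spor.Fi22.i, (Cfsg.Spor.Fi22.a * Cfsg.Spor.Fi22.b * Cfsg.Spor.Fi22.c * Cfsg.Spor.Fi22.d * Cfsg.Spor.Fi22.e * Cfsg.Spor.Fi22.h) ^ 5} : Set (FreeGroup Cfsg.Spor.Fi22.Gen))).map (PresentedGroup.mk (coxRelators Cfsg.Spor.Fi22.edges ∪ {r | r ∈ Cfsg.Spor.Fi22.extra})))).index = 3510 := by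
  obtain ⟨ρ, e, -, -, -⟩ := link.main checked
  exact (Nat.card_congr e).trans (Nat.card_fin _)

theorem allO : ∀ v < 3510, orbAt cert orb v = true := by
  have h0 : ∀ v < 0, orbAt cert orb v = true := fun v hv => absurd hv (Nat.not_lt_zero v)
  have h1 : ∀ v < 1898, orbAt cert orb v = true :=
    cover_step h0 (chkRangeO_spec cert orb 0 1898 kO_0) rfl
  have h2 : ∀ v < 3510, orbAt cert orb v = true :=
    cover_step h1 (chkRangeO_spec cert orb 1898 1612 kO_1898) rfl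
  exact h2


end Cfsg.Agent.Helper17.TCD.Fi22A
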