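import Mathlib
import Cfsg.Agent.Helper17.TCD.Fi22B_Cert

set_option autoImplicit false

namespace Cfsg.Agent.Helper17.TCD.Fi22B

open Cfsg.Agent.Helper17.TC

set_option maxHeartbeats 0 in
theorem kT_0 : chkRangeT cert 0 1740 = true := by decide +kernel

set_option maxHeartbeats 0 in
theorem kT_1740 : chkRangeT cert 1740 1733 = true := by decide +kernel

set_option maxHeartbeats 0 in
theorem kT_3473 : chkRangeT cert 3473 1667 = true := by decide +kernel

set_option maxHeartbeats 0 in
theorem kT_5140 : chkRangeT cert 5140 1549 = true := by decide +kernel

set_option maxHeartbeats 0 in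
theorem kT_6689 : chkRangeT cert 6689 1527 = true := by decide +kernel

set_option maxHeartbeats 0 in
theorem kT_8216 : chkRangeT cert 8216 1560 = true := by decide +kernel

set_option maxHeartbeats 0 in
theorem kT_9776 : chkRangeT cert 9776 1598 = true := by decide +kernel

set_option maxHeartbeats 0 in
theorem kT_11374 : chkRangeT cert 11374 1430 = true := by decide +kernel

end Cfsg.Agent.Helper17.TCD.Fi22B
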