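import Mathlib
import Cfsg.Agent.Helper17.TCD.Fi22B_Cert

set_option autoImplicit false

namespace Cfsg.Agent.Helper17.TCD.Fi22B

open Cfsg.Agent.Helper17.TC

set_option maxHeartbeats 0 in
theorem kF_2112 : chkRangeF cert 2112 352 = true := by decide +kernel

set_option maxHeartbeats 0 in
theorem kF_2464 : chkRangeF cert 2464 352 = true := by decide +kernel

set_option maxHeartbeats 0 in
theorem kF_2816 : chkRangeF cert 2816 352 = true := by decide +kernel

set_option maxHeartbeats 0 in
theorem kF_3168 : chkRangeF cert 3168 352 = true := by decide +kernel

set_option maxHeartbeats 0 in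
theorem kF_3520 : chkRangeF cert 3520 352 = true := by decide +kernel

set_option maxHeartbeats 0 in
theorem kF_3872 : chkRangeF cert 3872 352 = true := by decide +kernel

set_option maxHeartbeats 0 in
theorem kF_4224 : chkRangeF cert 4224 352 = true := by decide +kernel

set_option maxHeartbeats 0 in
theorem kF_4576 : chkRangeF cert 4576 352 = true := by decide +kernel

end Cfsg.Agent.Helper17.TCD.Fi22B
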