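import Mathlib
import Cfsg.Agent.Helper17.TCD.Fi22B_Cert

set_option autoImplicit false

namespace Cfsg.Agent.Helper17.TCD.Fi22B

open Cfsg.Agent.Helper17.TC

set_option maxHeartbeats 0 in
theorem kF_4928 : chkRangeF cert 4928 352 = true := by decide +kernel

set_option maxHeartbeats 0 in
theorem kF_5280 : chkRangeF cert 5280 352 = true := by decide +kernel

set_option maxHeartbeats 0 in
theorem kF_5632 : chkRangeF cert 5632 352 = true := by decide +kernel

set_option maxHeartbeats 0 in
theorem kF_5984 : chkRangeF cert 5984 352 = true := by decide +kernel

set_option maxHeartbeats 0 in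
theorem kF_6336 : chkRangeF cert 6336 352 = true := by decide +kernel

set_option maxHeartbeats 0 in
theorem kF_6688 : chkRangeF cert 6688 352 = true := by decide +kernel

set_option maxHeartbeats 0 in
theorem kF_7040 : chkRangeF cert 7040 352 = true := by decide +kernel

set_option maxHeartbeats 0 in
theorem kF_7392 : chkRangeF cert 7392 352 = true := by decide +kernel

end Cfsg.Agent.Helper17.TCD.Fi22B
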