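import Mathlib
import Cfsg.Agent.Helper17.TCD.Fi22B_Cert

set_option autoImplicit false

namespace Cfsg.Agent.Helper17.TCD.Fi22B

open Cfsg.Agent.Helper17.TC

set_option maxHeartbeats 0 in
theorem kF_7744 : chkRangeF cert 7744 352 = true := by decide +kernel

set_option maxHeartbeats 0 in
theorem kF_8096 : chkRangeF cert 8096 352 = true := by decide +kernel

set_option maxHeartbeats 0 in
theorem kF_8448 : chkRangeF cert 8448 352 = true := by decide +kernel

set_option maxHeartbeats 0 in
theorem kF_8800 : chkRangeF cert 8800 352 = true := by decide +kernel

set_option maxHeartbeats 0 in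
theorem kF_9152 : chkRangeF cert 9152 352 = true := by decide +kernel

set_option maxHeartbeats 0 in
theorem kF_9504 : chkRangeF cert 9504 352 = true := by decide +kernel

set_option maxHeartbeats 0 in
theorem kF_9856 : chkRangeF cert 9856 352 = true := by decide +kernel

set_option maxHeartbeats 0 in
theorem kF_10208 : chkRangeF cert 10208 352 = true := by decide +kernel

end Cfsg.Agent.Helper17.TCD.Fi22B
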