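import Mathlib
import Cfsg.Agent.Helper17.TCD.Fi22B_Cert

set_option autoImplicit false

namespace Cfsg.Agent.Helper17.TCD.Fi22B

open Cfsg.Agent.Helper17.TC

set_option maxHeartbeats 0 in
theorem kF_10560 : chkRangeF cert 10560 352 = true := by decide +kernel

set_option maxHeartbeats 0 in
theorem kF_10912 : chkRangeF cert 10912 352 = true := by decide +kernel

set_option maxHeartbeats 0 in
theorem kF_11264 : chkRangeF cert 11264 352 = true := by decide +kernel

set_option maxHeartbeats 0 in
theorem kF_11616 : chkRangeF cert 11616 352 = true := by decide +kernel

set_option maxHeartbeats 0 in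
theorem kF_11968 : chkRangeF cert 11968 352 = true := by decide +kernel

set_option maxHeartbeats 0 in
theorem kF_12320 : chkRangeF cert 12320 352 = true := by decide +kernel

set_option maxHeartbeats 0 in
theorem kF_12672 : chkRangeF cert 12672 352 = true := by decide +kernel

set_option maxHeartbeats 0 in
theorem kF_13024 : chkRangeF cert 13024 352 = true := by decide +kernel

end Cfsg.Agent.Helper17.TCD.Fi22B
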