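import Mathlib
import Cfsg.Agent.Helper17.TCD.Fi22B_Cert

set_option autoImplicit false

namespace Cfsg.Agent.Helper17.TCD.Fi22B

open Cfsg.Agent.Helper17.TC

set_option maxHeartbeats 0 in
theorem kF_13376 : chkRangeF cert 13376 352 = true := by decide +kernel

set_option maxHeartbeats 0 in
theorem kF_13728 : chkRangeF cert 13728 352 = true := by decide +kernel

set_option maxHeartbeats 0 in
theorem kFin_0 : chkRangeFin cert 0 2000 = true := by decide +kernel

set_option maxHeartbeats 0 in
theorem kFin_2000 : chkRangeFin cert 2000 2000 = true := by decide +kernel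

set_option maxHeartbeats 0 in
theorem kFin_4000 : chkRangeFin cert 4000 2000 = true := by decide +kernel

set_option maxHeartbeats 0 in
theorem kFin_6000 : chkRangeFin cert 6000 2000 = true := by decide +kernel

set_option maxHeartbeats 0 in
theorem kFin_8000 : chkRangeFin cert 8000 2000 = true := by decide +kernel

set_option maxHeartbeats 0 in
theorem kFin_10000 : chkRangeFin cert 10000 2000 = true := by decide +kernel

end Cfsg.Agent.Helper17.TCD.Fi22B
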