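import Mathlib
import Cfsg.Agent.Helper17.TCD.Fi22B_Cert

set_option autoImplicit false

namespace Cfsg.Agent.Helper17.TCD.Fi22B

open Cfsg.Agent.Helper17.TC

set_option maxHeartbeats 0 in
theorem kFin_12000 : chkRangeFin cert 12000 2000 = true := by decide +kernel

set_option maxHeartbeats 0 in
theorem kFin_14000 : chkRangeFin cert 14000 80 = true := by decide +kernel

end Cfsg.Agent.Helper17.TCD.Fi22B
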