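import Mathlib
import Cfsg.Prelude.Def_Spor_Fi22
import Cfsg.Agent.Helper17.TCPres
import Cfsg.Agent.Helper17.TCD.Fi22B_K0
import Cfsg.Agent.Helper17.TCD.Fi22B_K1
import Cfsg.Agent.Helper17.TCD.Fi22B_K2
import Cfsg.Agent.Helper17.TCD.Fi22B_K3
import Cfsg.Agent.Helper17.TCD.Fi22B_K4
import Cfsg.Agent.Helper17.TCD.Fi22B_K5
import Cfsg.Agent.Helper17.TCD.Fi22B_K6
import Cfsg.Agent.Helper17.TCD.Fi22B_K7

set_option autoImplicit false

namespace Cfsg.Agent.Helper17.TCD.Fi22B

open Cfsg.Agent.Helper17.TC Cfsg.Spor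

set_option maxHeartbeats 1000000 in
theorem small : chkSmall cert = true := by decide +kernel

theorem allT : ∀ v < 14573, chkRow cert v cert.ncols = true := by
  have h0 : ∀ v < 0, chkRow cert v cert.ncols = true := fun v hv => absurd hv (Nat.not_lt_zero v)
  have h1 : ∀ v < 1740, chkRow cert v cert.ncols = true :=
    cover_step h0 (chkRangeT_spec (c := cert) 0 1740 kT_0) rfl
  have h2 : ∀ v < 3473, chkRow cert v cert.ncols = true :=
    cover_step h1 (chkRangeT_spec (c := cert) 1740 1733 kT_1740) rfl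
  have h3 : ∀ v < 5140, chkRow cert v cert.ncols = true :=
    cover_step h2 (chkRangeT_spec (c := cert) 3473 1667 kT_3473) rfl
  have h4 : ∀ v < 6689, chkRow cert v cert.ncols = true :=
    cover_step h3 (chkRangeT_spec (c := cert) 5140 1549 kT_5140) rfl
  have h5 : ∀ v < 8216, chkRow cert v cert.ncols = true :=
    cover_step h4 (chkRangeT_spec (c := cert) 6689 1527 kT_6689) rfl
  have h6 : ∀ v < 9776, chkRow cert v cert.ncols = true :=
    cover_step h5 (chkRangeT_spec (c := cert) 8216 1560 kT_8216) rfl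
  have h7 : ∀ v < 11374, chkRow cert v cert.ncols = true :=
    cover_step h6 (chkRangeT_spec (c := cert) 9776 1598 kT_9776) rfl
  have h8 : ∀ v < 12804, chkRow cert v cert.ncols = true :=
    cover_step h7 (chkRangeT_spec (c := cert) 11374 1430 kT_11374) rfl
  have h9 : ∀ v < 13896, chkRow cert v cert.ncols = true :=
    cover_step h8 (chkRangeT_spec (c := cert) 12804 1092 kT_12804) rfl
  have h10 : ∀ v < 14573, chkRow cert v cert.ncols = true :=
    cover_step h9 (chkRangeT_spec (c := cert) 13896 677 kT_13896) rfl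
  exact h10

theorem allF : ∀ v < 14080, chkVF cert v = true := by
  have h0 : ∀ v < 0, chkVF cert v = true := fun v hv => absurd hv (Nat.not_lt_zero v)
  have h1 : ∀ v < 352, chkVF cert v = true :=
    cover_step h0 (chkRangeF_spec (c := cert) 0 352 kF_0) rfl
  have h2 : ∀ v < 704, chkVF cert v = true :=
    cover_step h1 (chkRangeF_spec (c := cert) 352 352 kF_352) rfl
  have h3 : ∀ v < 1056, chkVF cert v = true :=
    cover_step h2 (chkRangeF_spec (c := cert) 704 352 kF_704) rfl
  have h4 : ∀ v < 1408, chkVF cert v = true :=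
    cover_step h3 (chkRangeF_spec (c := cert) 1056 352 kF_1056) rfl
  have h5 : ∀ v < 1760, chkVF cert v = true :=
    cover_step h4 (chkRangeF_spec (c := cert) 1408 352 kF_1408) rfl
  have h6 : ∀ v < 2112, chkVF cert v = true :=
    cover_step h5 (chkRangeF_spec (c := cert) 1760 352 kF_1760) rfl
  have h7 : ∀ v < 2464, chkVF cert v = true :=
    cover_step h6 (chkRangeF_spec (c := cert) 2112 352 kF_2112) rfl
  have h8 : ∀ v < 2816, chkVF cert v = true :=
    cover_step h7 (chkRangeF_spec (c := cert) 2464 352 kF_2464) rfl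
  have h9 : ∀ v < 3168, chkVF cert v = true :=
    cover_step h8 (chkRangeF_spec (c := cert) 2816 352 kF_2816) rfl
  have h10 : ∀ v < 3520, chkVF cert v = true :=
    cover_step h9 (chkRangeF_spec (c := cert) 3168 352 kF_3168) rfl
  have h11 : ∀ v < 3872, chkVF cert v = true :=
    cover_step h10 (chkRangeF_spec (c := cert) 3520 352 kF_3520) rfl
  have h12 : ∀ v < 4224, chkVF cert v = true :=
    cover_step h11 (chkRangeF_spec (c := cert) 3872 352 kF_3872) rfl
  have h13 : ∀ v < 4576, chkVF cert v = true :=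
    cover_step h12 (chkRangeF_spec (c := cert) 4224 352 kF_4224) rfl
  have h14 : ∀ v < 4928, chkVF cert v = true :=
    cover_step h13 (chkRangeF_spec (c := cert) 4576 352 kF_4576) rfl
  have h15 : ∀ v < 5280, chkVF cert v = true :=
    cover_step h14 (chkRangeF_spec (c := cert) 4928 352 kF_4928) rfl
  have h16 : ∀ v < 5632, chkVF cert v = true :=
    cover_step h15 (chkRangeF_spec (c := cert) 5280 352 kF_5280) rfl
  have h17 : ∀ v < 5984, chkVF cert v = true :=
    cover_step h16 (chkRangeF_spec (c := cert) 5632 352 kF_5632) rfl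
  have h18 : ∀ v < 6336, chkVF cert v = true :=
    cover_step h17 (chkRangeF_spec (c := cert) 5984 352 kF_5984) rfl
  have h19 : ∀ v < 6688, chkVF cert v = true :=
    cover_step h18 (chkRangeF_spec (c := cert) 6336 352 kF_6336) rfl
  have h20 : ∀ v < 7040, chkVF cert v = true :=
    cover_step h19 (chkRangeF_spec (c := cert) 6688 352 kF_6688) rfl
  have h21 : ∀ v < 7392, chkVF cert v = true :=
    cover_step h20 (chkRangeF_spec (c := cert) 7040 352 kF_7040) rfl
  have h22 : ∀ v < 7744, chkVF cert v = true :=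
    cover_step h21 (chkRangeF_spec (c := cert) 7392 352 kF_7392) rfl
  have h23 : ∀ v < 8096, chkVF cert v = true :=
    cover_step h22 (chkRangeF_spec (c := cert) 7744 352 kF_7744) rfl
  have h24 : ∀ v < 8448, chkVF cert v = true :=
    cover_step h23 (chkRangeF_spec (c := cert) 8096 352 kF_8096) rfl
  have h25 : ∀ v < 8800, chkVF cert v = true :=
    cover_step h24 (chkRangeF_spec (c := cert) 8448 352 kF_8448) rfl
  have h26 : ∀ v < 9152, chkVF cert v = true :=
    cover_step h25 (chkRangeF_spec (c := cert) 8800 352 kF_8800) rfl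
  have h27 : ∀ v < 9504, chkVF cert v = true :=
    cover_step h26 (chkRangeF_spec (c := cert) 9152 352 kF_9152) rfl
  have h28 : ∀ v < 9856, chkVF cert v = true :=
    cover_step h27 (chkRangeF_spec (c := cert) 9504 352 kF_9504) rfl
  have h29 : ∀ v < 10208, chkVF cert v = true :=
    cover_step h28 (chkRangeF_spec (c := cert) 9856 352 kF_9856) rfl
  have h30 : ∀ v < 10560, chkVF cert v = true :=
    cover_step h29 (chkRangeF_spec (c := cert) 10208 352 kF_10208) rfl
  have h31 : ∀ v < 10912, chkVF cert v = true :=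
    cover_step h30 (chkRangeF_spec (c := cert) 10560 352 kF_10560) rfl
  have h32 : ∀ v < 11264, chkVF cert v = true :=
    cover_step h31 (chkRangeF_spec (c := cert) 10912 352 kF_10912) rfl
  have h33 : ∀ v < 11616, chkVF cert v = true :=
    cover_step h32 (chkRangeF_spec (c := cert) 11264 352 kF_11264) rfl
  have h34 : ∀ v < 11968, chkVF cert v = true :=
    cover_step h33 (chkRangeF_spec (c := cert) 11616 352 kF_11616) rfl
  have h35 : ∀ v < 12320, chkVF cert v = true :=
    cover_step h34 (chkRangeF_spec (c := cert) 11968 352 kF_11968) rfl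
  have h36 : ∀ v < 12672, chkVF cert v = true :=
    cover_step h35 (chkRangeF_spec (c := cert) 12320 352 kF_12320) rfl
  have h37 : ∀ v < 13024, chkVF cert v = true :=
    cover_step h36 (chkRangeF_spec (c := cert) 12672 352 kF_12672) rfl
  have h38 : ∀ v < 13376, chkVF cert v = true :=
    cover_step h37 (chkRangeF_spec (c := cert) 13024 352 kF_13024) rfl
  have h39 : ∀ v < 13728, chkVF cert v = true :=
    cover_step h38 (chkRangeF_spec (c := cert) 13376 352 kF_13376) rfl
  have h40 : ∀ v < 14080, chkVF cert v = true :=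
    cover_step h39 (chkRangeF_spec (c := cert) 13728 352 kF_13728) rfl
  exact h40

theorem allFin : ∀ v < 14080, finAt cert v cert.ncols = true := by
  have h0 : ∀ v < 0, finAt cert v cert.ncols = true := fun v hv => absurd hv (Nat.not_lt_zero v)
  have h1 : ∀ v < 2000, finAt cert v cert.ncols = true :=
    cover_step h0 (chkRangeFin_spec (c := cert) 0 2000 kFin_0) rfl
  have h2 : ∀ v < 4000, finAt cert v cert.ncols = true :=
    cover_step h1 (chkRangeFin_spec (c := cert) 2000 2000 kFin_2000) rfl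
  have h3 : ∀ v < 6000, finAt cert v cert.ncols = true :=
    cover_step h2 (chkRangeFin_spec (c := cert) 4000 2000 kFin_4000) rfl
  have h4 : ∀ v < 8000, finAt cert v cert.ncols = true :=
    cover_step h3 (chkRangeFin_spec (c := cert) 6000 2000 kFin_6000) rfl
  have h5 : ∀ v < 10000, finAt cert v cert.ncols = true :=
    cover_step h4 (chkRangeFin_spec (c := cert) 8000 2000 kFin_8000) rfl
  have h6 : ∀ v < 12000, finAt cert v cert.ncols = true :=
    cover_step h5 (chkRangeFin_spec (c := cert) 10000 2000 kFin_10000) rfl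
  have h7 : ∀ v < 14000, finAt cert v cert.ncols = true :=
    cover_step h6 (chkRangeFin_spec (c := cert) 12000 2000 kFin_12000) rfl
  have h8 : ∀ v < 14080, finAt cert v cert.ncols = true :=
    cover_step h7 (chkRangeFin_spec (c := cert) 14000 80 kFin_14000) rfl
  exact h8

theorem checked : Checked cert := ⟨small, allT, allF, allFin⟩

def colOf : Cfsg.Spor.Fi22.Gen → ℕ
  | .a => 0
  | .b => 1
  | .c => 2
  | .d => 3
  | .e => 4
  | .f => 5
  | .g => 6
  | .h => 7
  | .i => 8

def colGen : ℕ → Cfsg.Spor.Fi22.Gen × Bool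
  | 0 => (.a, true)
  | 1 => (.b, true)
  | 2 => (.c, true)
  | 3 => (.d, true)
  | 4 => (.e, true)
  | 5 => (.f, true)
  | 6 => (.g, true)
  | 7 => (.h, true)
  | 8 => (.i, true)
  | _ => (.a, true)

def nodes : List Cfsg.Spor.Fi22.Gen := [.a, .b, .c, .d, .e, .f, .h, .g, .i]

def extraEs : List WE := [(.pow (.mul (.mul (.mul (.mul (.mul (.mul (.mul (.mul (.g 3) (.g 2)) (.g 1)) (.g 3)) (.g 4)) (.g 5)) (.g 3)) (.g 7)) (.g 8)) 10), (.pow (.mul (.mul (.mul (.mul (.mul (.mul (.g 0) (.g 1)) (.g 2)) (.g 3)) (.g 4)) (.g 5)) (.g 7)) 9), (.pow (.mul (.mul (.mul (.mul (.mul (.mul (.g 1) (.g 2)) (.g 3)) (.g 4)) (.g 5)) (.g 6)) (.g 7)) 9)]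

def subEs : List WE := [(.g 1), (.g 2), (.g 3), (.g 4), (.g 5), (.g 6), (.g 7), (.g 8)]

set_option maxHeartbeats 1000000 in
theorem link : Link Cfsg.Spor.Fi22.edges Cfsg.Spor.Fi22.extra ({Cfsg.Spor.Fi22.b, Cfsg.Spor.Fi22.c, Cfsg.Spor.Fi22.d, Cfsg.Spor.Fi22.e, Cfsg.Spor.Fi22.f, Cfsg.Spor.Fi22.g, Cfsg.Spor.Fi22.h, Cfsg.Spor.Fi22.i} : Set (FreeGroup Cfsg.Spor.Fi22.Gen)) cert colOf colGen nodes extraEs subEs where
  hall := by intro x; cases x <;> exact ⟨by decide, rfl⟩
  hcols := by decide +kernel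
  hinvs := by decide +kernel
  hn1 := by decide +kernel
  hn2 := by decide +kernel
  hsym := by decide +kernel
  hrels := by decide +kernel
  hextra := rfl
  hok := by decide +kernel
  hsubs := by decide +kernel
  hS1 := by
    intro s hs
    simp only [Set.mem_insert_iff, Set.mem_singleton_iff] at hs
    rcases hs with rfl | rfl | rfl | rfl | rfl | rfl | rfl | rfl
    · exact ⟨(.g 1), List.mem_cons_self, rfl⟩
    · exact ⟨(.g 2), List.mem_cons_of_mem _ (List.mem_cons_self), rfl⟩
    · exact ⟨(.g 3), List.mem_cons_of_mem _ (List.mem_cons_of_mem _ (List.mem_cons_self)), rfl⟩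
    · exact ⟨(.g 4), List.mem_cons_of_mem _ (List.mem_cons_of_mem _ (List.mem_cons_of_mem _ (List.mem_cons_self))), rfl⟩
    · exact ⟨(.g 5), List.mem_cons_of_mem _ (List.mem_cons_of_mem _ (List.mem_cons_of_mem _ (List.mem_cons_of_mem _ (List.mem_cons_self)))), rfl⟩
    · exact ⟨(.g 6), List.mem_cons_of_mem _ (List.mem_cons_of_mem _ (List.mem_cons_of_mem _ (List.mem_cons_of_mem _ (List.mem_cons_of_mem _ (List.mem_cons_self))))), rfl⟩
    · exact ⟨(.g 7), List.mem_cons_of_mem _ (List.mem_cons_of_mem _ (List.mem_cons_of_mem _ (List.mem_cons_of_mem _ (List.mem_cons_of_mem _ (List.mem_cons_of_mem _ (List.mem_cons_self)))))), rfl⟩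
    · exact ⟨(.g 8), List.mem_cons_of_mem _ (List.mem_cons_of_mem _ (List.mem_cons_of_mem _ (List.mem_cons_of_mem _ (List.mem_cons_of_mem _ (List.mem_cons_of_mem _ (List.mem_cons_of_mem _ (List.mem_cons_self))))))), rfl⟩
  hS2 := by
    intro e he
    simp only [subEs, List.mem_cons, List.not_mem_nil, or_false] at he
    rcases he with rfl | rfl | rfl | rfl | rfl | rfl | rfl | rfl
    · exact (Or.inl rfl)
    · exact (Or.inr (Or.inl rfl))
    · exact (Or.inr (Or.inr (Or.inl rfl)))
    · exact (Or.inr (Or.inr (Or.inr (Or.inl rfl))))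
    · exact (Or.inr (Or.inr (Or.inr (Or.inr (Or.inl rfl)))))
    · exact (Or.inr (Or.inr (Or.inr (Or.inr (Or.inr (Or.inl rfl))))))
    · exact (Or.inr (Or.inr (Or.inr (Or.inr (Or.inr (Or.inr (Or.inl rfl)))))))
    · exact (Or.inr (Or.inr (Or.inr (Or.inr (Or.inr (Or.inr (Or.inr rfl)))))))

theorem index_eq : (((Subgroup.closure ({Cfsg.Spor.Fi22.b, Cfsg.Spor.Fi22.c, Cfsg.Spor.Fi22.d, Cfsg.Spor.Fi22.e, Cfsg.Spor.Fi22.f, Cfsg.Spor.Fi22.g, Cfsg.Spor.Fi22.h, Cfsg.Spor.Fi22.i} : Set (FreeGroup Cfsg.Spor.Fi22.Gen))).map (PresentedGroup.mk (coxRelators Cfsg.Spor.Fi22.edges ∪ {r | r ∈ Cfsg.Spor.Fi22.extra})))).index = 14080 := by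
  obtain ⟨ρ, e, -, -, -⟩ := link.main checked
  exact (Nat.card_congr e).trans (Nat.card_fin _)

end Cfsg.Agent.Helper17.TCD.Fi22B
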