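import Mathlib
import Cfsg.Agent.Helper17.TCD.Fi23A_Cert

set_option autoImplicit false

namespace Cfsg.Agent.Helper17.TCD.Fi23A

open Cfsg.Agent.Helper17.TC

set_option maxHeartbeats 0 in
theorem kT_0 : chkRangeT cert 0 1517 = true := by decide +kernel

set_option maxHeartbeats 0 in
theorem kT_1517 : chkRangeT cert 1517 1560 = true := by decide +kernel

set_option maxHeartbeats 0 in
theorem kT_3077 : chkRangeT cert 3077 1567 = true := by decide +kernel

set_option maxHeartbeats 0 in
theorem kT_4644 : chkRangeT cert 4644 1592 = true := by decide +kernel

set_option maxHeartbeats 0 in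
theorem kT_6236 : chkRangeT cert 6236 1538 = true := by decide +kernel

set_option maxHeartbeats 0 in
theorem kT_7774 : chkRangeT cert 7774 1591 = true := by decide +kernel

set_option maxHeartbeats 0 in
theorem kT_9365 : chkRangeT cert 9365 1532 = true := by decide +kernel

set_option maxHeartbeats 0 in
theorem kT_10897 : chkRangeT cert 10897 1553 = true := by decide +kernel

end Cfsg.Agent.Helper17.TCD.Fi23A
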