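import Mathlib
import Cfsg.Agent.Helper17.TCD.Fi23A_Cert

set_option autoImplicit false

namespace Cfsg.Agent.Helper17.TCD.Fi23A

open Cfsg.Agent.Helper17.TC

set_option maxHeartbeats 0 in
theorem kT_12450 : chkRangeT cert 12450 1541 = true := by decide +kernel

set_option maxHeartbeats 0 in
theorem kT_13991 : chkRangeT cert 13991 1557 = true := by decide +kernel

set_option maxHeartbeats 0 in
theorem kT_15548 : chkRangeT cert 15548 1488 = true := by decide +kernel

set_option maxHeartbeats 0 in
theorem kT_17036 : chkRangeT cert 17036 1489 = true := by decide +kernel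

set_option maxHeartbeats 0 in
theorem kT_18525 : chkRangeT cert 18525 1563 = true := by decide +kernel

set_option maxHeartbeats 0 in
theorem kT_20088 : chkRangeT cert 20088 1520 = true := by decide +kernel

set_option maxHeartbeats 0 in
theorem kT_21608 : chkRangeT cert 21608 1494 = true := by decide +kernel

set_option maxHeartbeats 0 in
theorem kT_23102 : chkRangeT cert 23102 1529 = true := by decide +kernel

end Cfsg.Agent.Helper17.TCD.Fi23A
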