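import Mathlib
import Cfsg.Agent.Helper17.TCD.Fi23A_Cert

set_option autoImplicit false

namespace Cfsg.Agent.Helper17.TCD.Fi23A

open Cfsg.Agent.Helper17.TC

set_option maxHeartbeats 0 in
theorem kF_20720 : chkRangeF cert 20720 370 = true := by decide +kernel

set_option maxHeartbeats 0 in
theorem kF_21090 : chkRangeF cert 21090 370 = true := by decide +kernel

set_option maxHeartbeats 0 in
theorem kF_21460 : chkRangeF cert 21460 370 = true := by decide +kernel

set_option maxHeartbeats 0 in
theorem kF_21830 : chkRangeF cert 21830 370 = true := by decide +kernel

set_option maxHeartbeats 0 in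
theorem kF_22200 : chkRangeF cert 22200 370 = true := by decide +kernel

set_option maxHeartbeats 0 in
theorem kF_22570 : chkRangeF cert 22570 370 = true := by decide +kernel

set_option maxHeartbeats 0 in
theorem kF_22940 : chkRangeF cert 22940 370 = true := by decide +kernel

set_option maxHeartbeats 0 in
theorem kF_23310 : chkRangeF cert 23310 370 = true := by decide +kernel

end Cfsg.Agent.Helper17.TCD.Fi23A
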