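import Mathlib
import Cfsg.Agent.Helper17.TCD.Fi23A_Cert

set_option autoImplicit false

namespace Cfsg.Agent.Helper17.TCD.Fi23A

open Cfsg.Agent.Helper17.TC

set_option maxHeartbeats 0 in
theorem kF_23680 : chkRangeF cert 23680 370 = true := by decide +kernel

set_option maxHeartbeats 0 in
theorem kF_24050 : chkRangeF cert 24050 370 = true := by decide +kernel

set_option maxHeartbeats 0 in
theorem kF_24420 : chkRangeF cert 24420 370 = true := by decide +kernel

set_option maxHeartbeats 0 in
theorem kF_24790 : chkRangeF cert 24790 370 = true := by decide +kernel

set_option maxHeartbeats 0 in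
theorem kF_25160 : chkRangeF cert 25160 370 = true := by decide +kernel

set_option maxHeartbeats 0 in
theorem kF_25530 : chkRangeF cert 25530 370 = true := by decide +kernel

set_option maxHeartbeats 0 in
theorem kF_25900 : chkRangeF cert 25900 370 = true := by decide +kernel

set_option maxHeartbeats 0 in
theorem kF_26270 : chkRangeF cert 26270 370 = true := by decide +kernel

end Cfsg.Agent.Helper17.TCD.Fi23A
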