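import Mathlib
import Cfsg.Agent.Helper17.TCD.Fi23A_Cert

set_option autoImplicit false

namespace Cfsg.Agent.Helper17.TCD.Fi23A

open Cfsg.Agent.Helper17.TC

set_option maxHeartbeats 0 in
theorem kF_26640 : chkRangeF cert 26640 370 = true := by decide +kernel

set_option maxHeartbeats 0 in
theorem kF_27010 : chkRangeF cert 27010 370 = true := by decide +kernel

set_option maxHeartbeats 0 in
theorem kF_27380 : chkRangeF cert 27380 370 = true := by decide +kernel

set_option maxHeartbeats 0 in
theorem kF_27750 : chkRangeF cert 27750 370 = true := by decide +kernel

set_option maxHeartbeats 0 in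
theorem kF_28120 : chkRangeF cert 28120 370 = true := by decide +kernel

set_option maxHeartbeats 0 in
theorem kF_28490 : chkRangeF cert 28490 370 = true := by decide +kernel

set_option maxHeartbeats 0 in
theorem kF_28860 : chkRangeF cert 28860 370 = true := by decide +kernel

set_option maxHeartbeats 0 in
theorem kF_29230 : chkRangeF cert 29230 370 = true := by decide +kernel

end Cfsg.Agent.Helper17.TCD.Fi23A
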