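import Mathlib
import Cfsg.Agent.Helper17.TCD.Fi23A_Cert

set_option autoImplicit false

namespace Cfsg.Agent.Helper17.TCD.Fi23A

open Cfsg.Agent.Helper17.TC

set_option maxHeartbeats 0 in
theorem kF_29600 : chkRangeF cert 29600 370 = true := by decide +kernel

set_option maxHeartbeats 0 in
theorem kF_29970 : chkRangeF cert 29970 370 = true := by decide +kernel

set_option maxHeartbeats 0 in
theorem kF_30340 : chkRangeF cert 30340 370 = true := by decide +kernel

set_option maxHeartbeats 0 in
theorem kF_30710 : chkRangeF cert 30710 370 = true := by decide +kernel

set_option maxHeartbeats 0 in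
theorem kF_31080 : chkRangeF cert 31080 370 = true := by decide +kernel

set_option maxHeartbeats 0 in
theorem kF_31450 : chkRangeF cert 31450 221 = true := by decide +kernel

set_option maxHeartbeats 0 in
theorem kFin_0 : chkRangeFin cert 0 2000 = true := by decide +kernel

set_option maxHeartbeats 0 in
theorem kFin_2000 : chkRangeFin cert 2000 2000 = true := by decide +kernel

end Cfsg.Agent.Helper17.TCD.Fi23A
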