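import Mathlib
import Cfsg.Agent.Helper17.TCD.Fi23A_Cert

set_option autoImplicit false

namespace Cfsg.Agent.Helper17.TCD.Fi23A

open Cfsg.Agent.Helper17.TC

set_option maxHeartbeats 0 in
theorem kT_24631 : chkRangeT cert 24631 1569 = true := by decide +kernel

set_option maxHeartbeats 0 in
theorem kT_26200 : chkRangeT cert 26200 1458 = true := by decide +kernel

set_option maxHeartbeats 0 in
theorem kT_27658 : chkRangeT cert 27658 1345 = true := by decide +kernel

set_option maxHeartbeats 0 in
theorem kT_29003 : chkRangeT cert 29003 1302 = true := by decide +kernel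

set_option maxHeartbeats 0 in
theorem kT_30305 : chkRangeT cert 30305 1090 = true := by decide +kernel

set_option maxHeartbeats 0 in
theorem kT_31395 : chkRangeT cert 31395 2000 = true := by decide +kernel

set_option maxHeartbeats 0 in
theorem kT_33395 : chkRangeT cert 33395 2000 = true := by decide +kernel

set_option maxHeartbeats 0 in
theorem kT_35395 : chkRangeT cert 35395 1509 = true := by decide +kernel

end Cfsg.Agent.Helper17.TCD.Fi23A
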