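import Mathlib
import Cfsg.Agent.Helper17.TCD.Fi23A_Cert

set_option autoImplicit false

namespace Cfsg.Agent.Helper17.TCD.Fi23A

open Cfsg.Agent.Helper17.TC

set_option maxHeartbeats 0 in
theorem kF_0 : chkRangeF cert 0 370 = true := by decide +kernel

set_option maxHeartbeats 0 in
theorem kF_370 : chkRangeF cert 370 370 = true := by decide +kernel

set_option maxHeartbeats 0 in
theorem kF_740 : chkRangeF cert 740 370 = true := by decide +kernel

set_option maxHeartbeats 0 in
theorem kF_1110 : chkRangeF cert 1110 370 = true := by decide +kernel

set_option maxHeartbeats 0 in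
theorem kF_1480 : chkRangeF cert 1480 370 = true := by decide +kernel

set_option maxHeartbeats 0 in
theorem kF_1850 : chkRangeF cert 1850 370 = true := by decide +kernel

set_option maxHeartbeats 0 in
theorem kF_2220 : chkRangeF cert 2220 370 = true := by decide +kernel

set_option maxHeartbeats 0 in
theorem kF_2590 : chkRangeF cert 2590 370 = true := by decide +kernel

end Cfsg.Agent.Helper17.TCD.Fi23A
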