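import Mathlib
import Cfsg.Agent.Helper17.TCD.Fi23A_Cert

set_option autoImplicit false

namespace Cfsg.Agent.Helper17.TCD.Fi23A

open Cfsg.Agent.Helper17.TC

set_option maxHeartbeats 0 in
theorem kF_2960 : chkRangeF cert 2960 370 = true := by decide +kernel

set_option maxHeartbeats 0 in
theorem kF_3330 : chkRangeF cert 3330 370 = true := by decide +kernel

set_option maxHeartbeats 0 in
theorem kF_3700 : chkRangeF cert 3700 370 = true := by decide +kernel

set_option maxHeartbeats 0 in
theorem kF_4070 : chkRangeF cert 4070 370 = true := by decide +kernel

set_option maxHeartbeats 0 in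
theorem kF_4440 : chkRangeF cert 4440 370 = true := by decide +kernel

set_option maxHeartbeats 0 in
theorem kF_4810 : chkRangeF cert 4810 370 = true := by decide +kernel

set_option maxHeartbeats 0 in
theorem kF_5180 : chkRangeF cert 5180 370 = true := by decide +kernel

set_option maxHeartbeats 0 in
theorem kF_5550 : chkRangeF cert 5550 370 = true := by decide +kernel

end Cfsg.Agent.Helper17.TCD.Fi23A
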