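import Mathlib
import Cfsg.Agent.Helper17.TCD.Fi23A_Cert

set_option autoImplicit false

namespace Cfsg.Agent.Helper17.TCD.Fi23A

open Cfsg.Agent.Helper17.TC

set_option maxHeartbeats 0 in
theorem kF_5920 : chkRangeF cert 5920 370 = true := by decide +kernel

set_option maxHeartbeats 0 in
theorem kF_6290 : chkRangeF cert 6290 370 = true := by decide +kernel

set_option maxHeartbeats 0 in
theorem kF_6660 : chkRangeF cert 6660 370 = true := by decide +kernel

set_option maxHeartbeats 0 in
theorem kF_7030 : chkRangeF cert 7030 370 = true := by decide +kernel

set_option maxHeartbeats 0 in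
theorem kF_7400 : chkRangeF cert 7400 370 = true := by decide +kernel

set_option maxHeartbeats 0 in
theorem kF_7770 : chkRangeF cert 7770 370 = true := by decide +kernel

set_option maxHeartbeats 0 in
theorem kF_8140 : chkRangeF cert 8140 370 = true := by decide +kernel

set_option maxHeartbeats 0 in
theorem kF_8510 : chkRangeF cert 8510 370 = true := by decide +kernel

end Cfsg.Agent.Helper17.TCD.Fi23A
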