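import Mathlib
import Cfsg.Agent.Helper17.TCD.Fi23A_Cert

set_option autoImplicit false

namespace Cfsg.Agent.Helper17.TCD.Fi23A

open Cfsg.Agent.Helper17.TC

set_option maxHeartbeats 0 in
theorem kF_8880 : chkRangeF cert 8880 370 = true := by decide +kernel

set_option maxHeartbeats 0 in
theorem kF_9250 : chkRangeF cert 9250 370 = true := by decide +kernel

set_option maxHeartbeats 0 in
theorem kF_9620 : chkRangeF cert 9620 370 = true := by decide +kernel

set_option maxHeartbeats 0 in
theorem kF_9990 : chkRangeF cert 9990 370 = true := by decide +kernel

set_option maxHeartbeats 0 in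
theorem kF_10360 : chkRangeF cert 10360 370 = true := by decide +kernel

set_option maxHeartbeats 0 in
theorem kF_10730 : chkRangeF cert 10730 370 = true := by decide +kernel

set_option maxHeartbeats 0 in
theorem kF_11100 : chkRangeF cert 11100 370 = true := by decide +kernel

set_option maxHeartbeats 0 in
theorem kF_11470 : chkRangeF cert 11470 370 = true := by decide +kernel

end Cfsg.Agent.Helper17.TCD.Fi23A
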