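import Mathlib
import Cfsg.Agent.Helper17.TCD.Fi23A_Cert

set_option autoImplicit false

namespace Cfsg.Agent.Helper17.TCD.Fi23A

open Cfsg.Agent.Helper17.TC

set_option maxHeartbeats 0 in
theorem kF_11840 : chkRangeF cert 11840 370 = true := by decide +kernel

set_option maxHeartbeats 0 in
theorem kF_12210 : chkRangeF cert 12210 370 = true := by decide +kernel

set_option maxHeartbeats 0 in
theorem kF_12580 : chkRangeF cert 12580 370 = true := by decide +kernel

set_option maxHeartbeats 0 in
theorem kF_12950 : chkRangeF cert 12950 370 = true := by decide +kernel

set_option maxHeartbeats 0 in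
theorem kF_13320 : chkRangeF cert 13320 370 = true := by decide +kernel

set_option maxHeartbeats 0 in
theorem kF_13690 : chkRangeF cert 13690 370 = true := by decide +kernel

set_option maxHeartbeats 0 in
theorem kF_14060 : chkRangeF cert 14060 370 = true := by decide +kernel

set_option maxHeartbeats 0 in
theorem kF_14430 : chkRangeF cert 14430 370 = true := by decide +kernel

end Cfsg.Agent.Helper17.TCD.Fi23A
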