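import Mathlib
import Cfsg.Agent.Helper17.TCD.Fi23A_Cert

set_option autoImplicit false

namespace Cfsg.Agent.Helper17.TCD.Fi23A

open Cfsg.Agent.Helper17.TC

set_option maxHeartbeats 0 in
theorem kF_14800 : chkRangeF cert 14800 370 = true := by decide +kernel

set_option maxHeartbeats 0 in
theorem kF_15170 : chkRangeF cert 15170 370 = true := by decide +kernel

set_option maxHeartbeats 0 in
theorem kF_15540 : chkRangeF cert 15540 370 = true := by decide +kernel

set_option maxHeartbeats 0 in
theorem kF_15910 : chkRangeF cert 15910 370 = true := by decide +kernel

set_option maxHeartbeats 0 in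
theorem kF_16280 : chkRangeF cert 16280 370 = true := by decide +kernel

set_option maxHeartbeats 0 in
theorem kF_16650 : chkRangeF cert 16650 370 = true := by decide +kernel

set_option maxHeartbeats 0 in
theorem kF_17020 : chkRangeF cert 17020 370 = true := by decide +kernel

set_option maxHeartbeats 0 in
theorem kF_17390 : chkRangeF cert 17390 370 = true := by decide +kernel

end Cfsg.Agent.Helper17.TCD.Fi23A
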