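import Mathlib
import Cfsg.Agent.Helper17.TCD.Fi23A_Cert

set_option autoImplicit false

namespace Cfsg.Agent.Helper17.TCD.Fi23A

open Cfsg.Agent.Helper17.TC

set_option maxHeartbeats 0 in
theorem kF_17760 : chkRangeF cert 17760 370 = true := by decide +kernel

set_option maxHeartbeats 0 in
theorem kF_18130 : chkRangeF cert 18130 370 = true := by decide +kernel

set_option maxHeartbeats 0 in
theorem kF_18500 : chkRangeF cert 18500 370 = true := by decide +kernel

set_option maxHeartbeats 0 in
theorem kF_18870 : chkRangeF cert 18870 370 = true := by decide +kernel

set_option maxHeartbeats 0 in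
theorem kF_19240 : chkRangeF cert 19240 370 = true := by decide +kernel

set_option maxHeartbeats 0 in
theorem kF_19610 : chkRangeF cert 19610 370 = true := by decide +kernel

set_option maxHeartbeats 0 in
theorem kF_19980 : chkRangeF cert 19980 370 = true := by decide +kernel

set_option maxHeartbeats 0 in
theorem kF_20350 : chkRangeF cert 20350 370 = true := by decide +kernel

end Cfsg.Agent.Helper17.TCD.Fi23A
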