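import Mathlib
import Cfsg.Agent.Helper17.TCD.Fi23A_O

set_option autoImplicit false

namespace Cfsg.Agent.Helper17.TCD.Fi23A

open Cfsg.Agent.Helper17.TC

set_option maxHeartbeats 0 in
theorem kO_0 : chkRangeO cert orb 0 2000 = true := by decide +kernel

set_option maxHeartbeats 0 in
theorem kO_2000 : chkRangeO cert orb 2000 2000 = true := by decide +kernel

set_option maxHeartbeats 0 in
theorem kO_4000 : chkRangeO cert orb 4000 2000 = true := by decide +kernel

set_option maxHeartbeats 0 in
theorem kO_6000 : chkRangeO cert orb 6000 2000 = true := by decide +kernel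

set_option maxHeartbeats 0 in
theorem kO_8000 : chkRangeO cert orb 8000 2000 = true := by decide +kernel

set_option maxHeartbeats 0 in
theorem kO_10000 : chkRangeO cert orb 10000 2000 = true := by decide +kernel

set_option maxHeartbeats 0 in
theorem kO_12000 : chkRangeO cert orb 12000 2000 = true := by decide +kernel

set_option maxHeartbeats 0 in
theorem kO_14000 : chkRangeO cert orb 14000 2000 = true := by decide +kernel

set_option maxHeartbeats 0 in
theorem root_1 : rootOK cert orb 1 = true := by decide +kernel

set_option maxHeartbeats 0 in
theorem cnt_1 : cntB cert orb 1 15 0 = 28160 := by decide +kernel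

set_option maxHeartbeats 0 in
theorem root_2 : rootOK cert orb 2 = true := by decide +kernel

set_option maxHeartbeats 0 in
theorem cnt_2 : cntB cert orb 2 15 0 = 3510 := by decide +kernel

end Cfsg.Agent.Helper17.TCD.Fi23A
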