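import Mathlib
import Cfsg.Agent.Helper17.TCD.Fi23A_O

set_option autoImplicit false

namespace Cfsg.Agent.Helper17.TCD.Fi23A

open Cfsg.Agent.Helper17.TC

set_option maxHeartbeats 0 in
theorem kO_16000 : chkRangeO cert orb 16000 2000 = true := by decide +kernel

set_option maxHeartbeats 0 in
theorem kO_18000 : chkRangeO cert orb 18000 2000 = true := by decide +kernel

set_option maxHeartbeats 0 in
theorem kO_20000 : chkRangeO cert orb 20000 2000 = true := by decide +kernel

set_option maxHeartbeats 0 in
theorem kO_22000 : chkRangeO cert orb 22000 2000 = true := by decide +kernel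

set_option maxHeartbeats 0 in
theorem kO_24000 : chkRangeO cert orb 24000 2000 = true := by decide +kernel

set_option maxHeartbeats 0 in
theorem kO_26000 : chkRangeO cert orb 26000 2000 = true := by decide +kernel

set_option maxHeartbeats 0 in
theorem kO_28000 : chkRangeO cert orb 28000 2000 = true := by decide +kernel

set_option maxHeartbeats 0 in
theorem kO_30000 : chkRangeO cert orb 30000 1671 = true := by decide +kernel

end Cfsg.Agent.Helper17.TCD.Fi23A
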