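import Mathlib
import Cfsg.Prelude.Def_Spor_Fi23
import Cfsg.Agent.Helper17.TCPres
import Cfsg.Agent.Helper17.TCOrbit
import Cfsg.Agent.Helper17.TCD.Fi23A_K0
import Cfsg.Agent.Helper17.TCD.Fi23A_K1
import Cfsg.Agent.Helper17.TCD.Fi23A_K2
import Cfsg.Agent.Helper17.TCD.Fi23A_K3
import Cfsg.Agent.Helper17.TCD.Fi23A_K4
import Cfsg.Agent.Helper17.TCD.Fi23A_K5
import Cfsg.Agent.Helper17.TCD.Fi23A_K6
import Cfsg.Agent.Helper17.TCD.Fi23A_K7
import Cfsg.Agent.Helper17.TCD.Fi23A_K8
import Cfsg.Agent.Helper17.TCD.Fi23A_K9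
import Cfsg.Agent.Helper17.TCD.Fi23A_K10
import Cfsg.Agent.Helper17.TCD.Fi23A_K11
import Cfsg.Agent.Helper17.TCD.Fi23A_K12
import Cfsg.Agent.Helper17.TCD.Fi23A_K13
import Cfsg.Agent.Helper17.TCD.Fi23A_K14
import Cfsg.Agent.Helper17.TCD.Fi23A_K15
import Cfsg.Agent.Helper17.TCD.Fi23A_KO0
import Cfsg.Agent.Helper17.TCD.Fi23A_KO1

set_option autoImplicit false

namespace Cfsg.Agent.Helper17.TCD.Fi23A

open Cfsg.Agent.Helper17.TC Cfsg.Spor

set_option maxHeartbeats 1000000 in
theorem small : chkSmall cert = true := by decide +kernel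

theorem allT : ∀ v < 36904, chkRow cert v cert.ncols = true := by
  have h0 : ∀ v < 0, chkRow cert v cert.ncols = true := fun v hv => absurd hv (Nat.not_lt_zero v)
  have h1 : ∀ v < 1517, chkRow cert v cert.ncols = true :=
    cover_step h0 (chkRangeT_spec (c := cert) 0 1517 kT_0) rfl
  have h2 : ∀ v < 3077, chkRow cert v cert.ncols = true :=
    cover_step h1 (chkRangeT_spec (c := cert) 1517 1560 kT_1517) rfl
  have h3 : ∀ v < 4644, chkRow cert v cert.ncols = true :=
    cover_step h2 (chkRangeT_spec (c := cert) 3077 1567 kT_3077) rfl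
  have h4 : ∀ v < 6236, chkRow cert v cert.ncols = true :=
    cover_step h3 (chkRangeT_spec (c := cert) 4644 1592 kT_4644) rfl
  have h5 : ∀ v < 7774, chkRow cert v cert.ncols = true :=
    cover_step h4 (chkRangeT_spec (c := cert) 6236 1538 kT_6236) rfl
  have h6 : ∀ v < 9365, chkRow cert v cert.ncols = true :=
    cover_step h5 (chkRangeT_spec (c := cert) 7774 1591 kT_7774) rfl
  have h7 : ∀ v < 10897, chkRow cert v cert.ncols = true :=
    cover_step h6 (chkRangeT_spec (c := cert) 9365 1532 kT_9365) rfl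
  have h8 : ∀ v < 12450, chkRow cert v cert.ncols = true :=
    cover_step h7 (chkRangeT_spec (c := cert) 10897 1553 kT_10897) rfl
  have h9 : ∀ v < 13991, chkRow cert v cert.ncols = true :=
    cover_step h8 (chkRangeT_spec (c := cert) 12450 1541 kT_12450) rfl
  have h10 : ∀ v < 15548, chkRow cert v cert.ncols = true :=
    cover_step h9 (chkRangeT_spec (c := cert) 13991 1557 kT_13991) rfl
  have h11 : ∀ v < 17036, chkRow cert v cert.ncols = true :=
    cover_step h10 (chkRangeT_spec (c := cert) 15548 1488 kT_15548) rfl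
  have h12 : ∀ v < 18525, chkRow cert v cert.ncols = true :=
    cover_step h11 (chkRangeT_spec (c := cert) 17036 1489 kT_17036) rfl
  have h13 : ∀ v < 20088, chkRow cert v cert.ncols = true :=
    cover_step h12 (chkRangeT_spec (c := cert) 18525 1563 kT_18525) rfl
  have h14 : ∀ v < 21608, chkRow cert v cert.ncols = true :=
    cover_step h13 (chkRangeT_spec (c := cert) 20088 1520 kT_20088) rfl
  have h15 : ∀ v < 23102, chkRow cert v cert.ncols = true :=
    cover_step h14 (chkRangeT_spec (c := cert) 21608 1494 kT_21608) rfl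
  have h16 : ∀ v < 24631, chkRow cert v cert.ncols = true :=
    cover_step h15 (chkRangeT_spec (c := cert) 23102 1529 kT_23102) rfl
  have h17 : ∀ v < 26200, chkRow cert v cert.ncols = true :=
    cover_step h16 (chkRangeT_spec (c := cert) 24631 1569 kT_24631) rfl
  have h18 : ∀ v < 27658, chkRow cert v cert.ncols = true :=
    cover_step h17 (chkRangeT_spec (c := cert) 26200 1458 kT_26200) rfl
  have h19 : ∀ v < 29003, chkRow cert v cert.ncols = true :=
    cover_step h18 (chkRangeT_spec (c := cert) 27658 1345 kT_27658) rfl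
  have h20 : ∀ v < 30305, chkRow cert v cert.ncols = true :=
    cover_step h19 (chkRangeT_spec (c := cert) 29003 1302 kT_29003) rfl
  have h21 : ∀ v < 31395, chkRow cert v cert.ncols = true :=
    cover_step h20 (chkRangeT_spec (c := cert) 30305 1090 kT_30305) rfl
  have h22 : ∀ v < 33395, chkRow cert v cert.ncols = true :=
    cover_step h21 (chkRangeT_spec (c := cert) 31395 2000 kT_31395) rfl
  have h23 : ∀ v < 35395, chkRow cert v cert.ncols = true :=
    cover_step h22 (chkRangeT_spec (c := cert) 33395 2000 kT_33395) rfl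
  have h24 : ∀ v < 36904, chkRow cert v cert.ncols = true :=
    cover_step h23 (chkRangeT_spec (c := cert) 35395 1509 kT_35395) rfl
  exact h24

theorem allF : ∀ v < 31671, chkVF cert v = true := by
  have h0 : ∀ v < 0, chkVF cert v = true := fun v hv => absurd hv (Nat.not_lt_zero v)
  have h1 : ∀ v < 370, chkVF cert v = true :=
    cover_step h0 (chkRangeF_spec (c := cert) 0 370 kF_0) rfl
  have h2 : ∀ v < 740, chkVF cert v = true :=
    cover_step h1 (chkRangeF_spec (c := cert) 370 370 kF_370) rfl
  have h3 : ∀ v < 1110, chkVF cert v = true :=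
    cover_step h2 (chkRangeF_spec (c := cert) 740 370 kF_740) rfl
  have h4 : ∀ v < 1480, chkVF cert v = true :=
    cover_step h3 (chkRangeF_spec (c := cert) 1110 370 kF_1110) rfl
  have h5 : ∀ v < 1850, chkVF cert v = true :=
    cover_step h4 (chkRangeF_spec (c := cert) 1480 370 kF_1480) rfl
  have h6 : ∀ v < 2220, chkVF cert v = true :=
    cover_step h5 (chkRangeF_spec (c := cert) 1850 370 kF_1850) rfl
  have h7 : ∀ v < 2590, chkVF cert v = true :=
    cover_step h6 (chkRangeF_spec (c := cert) 2220 370 kF_2220) rfl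
  have h8 : ∀ v < 2960, chkVF cert v = true :=
    cover_step h7 (chkRangeF_spec (c := cert) 2590 370 kF_2590) rfl
  have h9 : ∀ v < 3330, chkVF cert v = true :=
    cover_step h8 (chkRangeF_spec (c := cert) 2960 370 kF_2960) rfl
  have h10 : ∀ v < 3700, chkVF cert v = true :=
    cover_step h9 (chkRangeF_spec (c := cert) 3330 370 kF_3330) rfl
  have h11 : ∀ v < 4070, chkVF cert v = true :=
    cover_step h10 (chkRangeF_spec (c := cert) 3700 370 kF_3700) rfl
  have h12 : ∀ v < 4440, chkVF cert v = true :=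
    cover_step h11 (chkRangeF_spec (c := cert) 4070 370 kF_4070) rfl
  have h13 : ∀ v < 4810, chkVF cert v = true :=
    cover_step h12 (chkRangeF_spec (c := cert) 4440 370 kF_4440) rfl
  have h14 : ∀ v < 5180, chkVF cert v = true :=
    cover_step h13 (chkRangeF_spec (c := cert) 4810 370 kF_4810) rfl
  have h15 : ∀ v < 5550, chkVF cert v = true :=
    cover_step h14 (chkRangeF_spec (c := cert) 5180 370 kF_5180) rfl
  have h16 : ∀ v < 5920, chkVF cert v = true :=
    cover_step h15 (chkRangeF_spec (c := cert) 5550 370 kF_5550) rfl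
  have h17 : ∀ v < 6290, chkVF cert v = true :=
    cover_step h16 (chkRangeF_spec (c := cert) 5920 370 kF_5920) rfl
  have h18 : ∀ v < 6660, chkVF cert v = true :=
    cover_step h17 (chkRangeF_spec (c := cert) 6290 370 kF_6290) rfl
  have h19 : ∀ v < 7030, chkVF cert v = true :=
    cover_step h18 (chkRangeF_spec (c := cert) 6660 370 kF_6660) rfl
  have h20 : ∀ v < 7400, chkVF cert v = true :=
    cover_step h19 (chkRangeF_spec (c := cert) 7030 370 kF_7030) rfl
  have h21 : ∀ v < 7770, chkVF cert v = true :=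
    cover_step h20 (chkRangeF_spec (c := cert) 7400 370 kF_7400) rfl
  have h22 : ∀ v < 8140, chkVF cert v = true :=
    cover_step h21 (chkRangeF_spec (c := cert) 7770 370 kF_7770) rfl
  have h23 : ∀ v < 8510, chkVF cert v = true :=
    cover_step h22 (chkRangeF_spec (c := cert) 8140 370 kF_8140) rfl
  have h24 : ∀ v < 8880, chkVF cert v = true :=
    cover_step h23 (chkRangeF_spec (c := cert) 8510 370 kF_8510) rfl
  have h25 : ∀ v < 9250, chkVF cert v = true :=
    cover_step h24 (chkRangeF_spec (c := cert) 8880 370 kF_8880) rfl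
  have h26 : ∀ v < 9620, chkVF cert v = true :=
    cover_step h25 (chkRangeF_spec (c := cert) 9250 370 kF_9250) rfl
  have h27 : ∀ v < 9990, chkVF cert v = true :=
    cover_step h26 (chkRangeF_spec (c := cert) 9620 370 kF_9620) rfl
  have h28 : ∀ v < 10360, chkVF cert v = true :=
    cover_step h27 (chkRangeF_spec (c := cert) 9990 370 kF_9990) rfl
  have h29 : ∀ v < 10730, chkVF cert v = true :=
    cover_step h28 (chkRangeF_spec (c := cert) 10360 370 kF_10360) rfl
  have h30 : ∀ v < 11100, chkVF cert v = true :=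
    cover_step h29 (chkRangeF_spec (c := cert) 10730 370 kF_10730) rfl
  have h31 : ∀ v < 11470, chkVF cert v = true :=
    cover_step h30 (chkRangeF_spec (c := cert) 11100 370 kF_11100) rfl
  have h32 : ∀ v < 11840, chkVF cert v = true :=
    cover_step h31 (chkRangeF_spec (c := cert) 11470 370 kF_11470) rfl
  have h33 : ∀ v < 12210, chkVF cert v = true :=
    cover_step h32 (chkRangeF_spec (c := cert) 11840 370 kF_11840) rfl
  have h34 : ∀ v < 12580, chkVF cert v = true :=
    cover_step h33 (chkRangeF_spec (c := cert) 12210 370 kF_12210) rfl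
  have h35 : ∀ v < 12950, chkVF cert v = true :=
    cover_step h34 (chkRangeF_spec (c := cert) 12580 370 kF_12580) rfl
  have h36 : ∀ v < 13320, chkVF cert v = true :=
    cover_step h35 (chkRangeF_spec (c := cert) 12950 370 kF_12950) rfl
  have h37 : ∀ v < 13690, chkVF cert v = true :=
    cover_step h36 (chkRangeF_spec (c := cert) 13320 370 kF_13320) rfl
  have h38 : ∀ v < 14060, chkVF cert v = true :=
    cover_step h37 (chkRangeF_spec (c := cert) 13690 370 kF_13690) rfl
  have h39 : ∀ v < 14430, chkVF cert v = true :=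
    cover_step h38 (chkRangeF_spec (c := cert) 14060 370 kF_14060) rfl
  have h40 : ∀ v < 14800, chkVF cert v = true :=
    cover_step h39 (chkRangeF_spec (c := cert) 14430 370 kF_14430) rfl
  have h41 : ∀ v < 15170, chkVF cert v = true :=
    cover_step h40 (chkRangeF_spec (c := cert) 14800 370 kF_14800) rfl
  have h42 : ∀ v < 15540, chkVF cert v = true :=
    cover_step h41 (chkRangeF_spec (c := cert) 15170 370 kF_15170) rfl
  have h43 : ∀ v < 15910, chkVF cert v = true :=
    cover_step h42 (chkRangeF_spec (c := cert) 15540 370 kF_15540) rfl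
  have h44 : ∀ v < 16280, chkVF cert v = true :=
    cover_step h43 (chkRangeF_spec (c := cert) 15910 370 kF_15910) rfl
  have h45 : ∀ v < 16650, chkVF cert v = true :=
    cover_step h44 (chkRangeF_spec (c := cert) 16280 370 kF_16280) rfl
  have h46 : ∀ v < 17020, chkVF cert v = true :=
    cover_step h45 (chkRangeF_spec (c := cert) 16650 370 kF_16650) rfl
  have h47 : ∀ v < 17390, chkVF cert v = true :=
    cover_step h46 (chkRangeF_spec (c := cert) 17020 370 kF_17020) rfl
  have h48 : ∀ v < 17760, chkVF cert v = true :=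
    cover_step h47 (chkRangeF_spec (c := cert) 17390 370 kF_17390) rfl
  have h49 : ∀ v < 18130, chkVF cert v = true :=
    cover_step h48 (chkRangeF_spec (c := cert) 17760 370 kF_17760) rfl
  have h50 : ∀ v < 18500, chkVF cert v = true :=
    cover_step h49 (chkRangeF_spec (c := cert) 18130 370 kF_18130) rfl
  have h51 : ∀ v < 18870, chkVF cert v = true :=
    cover_step h50 (chkRangeF_spec (c := cert) 18500 370 kF_18500) rfl
  have h52 : ∀ v < 19240, chkVF cert v = true :=
    cover_step h51 (chkRangeF_spec (c := cert) 18870 370 kF_18870) rfl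
  have h53 : ∀ v < 19610, chkVF cert v = true :=
    cover_step h52 (chkRangeF_spec (c := cert) 19240 370 kF_19240) rfl
  have h54 : ∀ v < 19980, chkVF cert v = true :=
    cover_step h53 (chkRangeF_spec (c := cert) 19610 370 kF_19610) rfl
  have h55 : ∀ v < 20350, chkVF cert v = true :=
    cover_step h54 (chkRangeF_spec (c := cert) 19980 370 kF_19980) rfl
  have h56 : ∀ v < 20720, chkVF cert v = true :=
    cover_step h55 (chkRangeF_spec (c := cert) 20350 370 kF_20350) rfl
  have h57 : ∀ v < 21090, chkVF cert v = true :=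
    cover_step h56 (chkRangeF_spec (c := cert) 20720 370 kF_20720) rfl
  have h58 : ∀ v < 21460, chkVF cert v = true :=
    cover_step h57 (chkRangeF_spec (c := cert) 21090 370 kF_21090) rfl
  have h59 : ∀ v < 21830, chkVF cert v = true :=
    cover_step h58 (chkRangeF_spec (c := cert) 21460 370 kF_21460) rfl
  have h60 : ∀ v < 22200, chkVF cert v = true :=
    cover_step h59 (chkRangeF_spec (c := cert) 21830 370 kF_21830) rfl
  have h61 : ∀ v < 22570, chkVF cert v = true :=
    cover_step h60 (chkRangeF_spec (c := cert) 22200 370 kF_22200) rfl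
  have h62 : ∀ v < 22940, chkVF cert v = true :=
    cover_step h61 (chkRangeF_spec (c := cert) 22570 370 kF_22570) rfl
  have h63 : ∀ v < 23310, chkVF cert v = true :=
    cover_step h62 (chkRangeF_spec (c := cert) 22940 370 kF_22940) rfl
  have h64 : ∀ v < 23680, chkVF cert v = true :=
    cover_step h63 (chkRangeF_spec (c := cert) 23310 370 kF_23310) rfl
  have h65 : ∀ v < 24050, chkVF cert v = true :=
    cover_step h64 (chkRangeF_spec (c := cert) 23680 370 kF_23680) rfl
  have h66 : ∀ v < 24420, chkVF cert v = true :=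
    cover_step h65 (chkRangeF_spec (c := cert) 24050 370 kF_24050) rfl
  have h67 : ∀ v < 24790, chkVF cert v = true :=
    cover_step h66 (chkRangeF_spec (c := cert) 24420 370 kF_24420) rfl
  have h68 : ∀ v < 25160, chkVF cert v = true :=
    cover_step h67 (chkRangeF_spec (c := cert) 24790 370 kF_24790) rfl
  have h69 : ∀ v < 25530, chkVF cert v = true :=
    cover_step h68 (chkRangeF_spec (c := cert) 25160 370 kF_25160) rfl
  have h70 : ∀ v < 25900, chkVF cert v = true :=
    cover_step h69 (chkRangeF_spec (c := cert) 25530 370 kF_25530) rfl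
  have h71 : ∀ v < 26270, chkVF cert v = true :=
    cover_step h70 (chkRangeF_spec (c := cert) 25900 370 kF_25900) rfl
  have h72 : ∀ v < 26640, chkVF cert v = true :=
    cover_step h71 (chkRangeF_spec (c := cert) 26270 370 kF_26270) rfl
  have h73 : ∀ v < 27010, chkVF cert v = true :=
    cover_step h72 (chkRangeF_spec (c := cert) 26640 370 kF_26640) rfl
  have h74 : ∀ v < 27380, chkVF cert v = true :=
    cover_step h73 (chkRangeF_spec (c := cert) 27010 370 kF_27010) rfl
  have h75 : ∀ v < 27750, chkVF cert v = true :=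
    cover_step h74 (chkRangeF_spec (c := cert) 27380 370 kF_27380) rfl
  have h76 : ∀ v < 28120, chkVF cert v = true :=
    cover_step h75 (chkRangeF_spec (c := cert) 27750 370 kF_27750) rfl
  have h77 : ∀ v < 28490, chkVF cert v = true :=
    cover_step h76 (chkRangeF_spec (c := cert) 28120 370 kF_28120) rfl
  have h78 : ∀ v < 28860, chkVF cert v = true :=
    cover_step h77 (chkRangeF_spec (c := cert) 28490 370 kF_28490) rfl
  have h79 : ∀ v < 29230, chkVF cert v = true :=
    cover_step h78 (chkRangeF_spec (c := cert) 28860 370 kF_28860) rfl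
  have h80 : ∀ v < 29600, chkVF cert v = true :=
    cover_step h79 (chkRangeF_spec (c := cert) 29230 370 kF_29230) rfl
  have h81 : ∀ v < 29970, chkVF cert v = true :=
    cover_step h80 (chkRangeF_spec (c := cert) 29600 370 kF_29600) rfl
  have h82 : ∀ v < 30340, chkVF cert v = true :=
    cover_step h81 (chkRangeF_spec (c := cert) 29970 370 kF_29970) rfl
  have h83 : ∀ v < 30710, chkVF cert v = true :=
    cover_step h82 (chkRangeF_spec (c := cert) 30340 370 kF_30340) rfl
  have h84 : ∀ v < 31080, chkVF cert v = true :=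
    cover_step h83 (chkRangeF_spec (c := cert) 30710 370 kF_30710) rfl
  have h85 : ∀ v < 31450, chkVF cert v = true :=
    cover_step h84 (chkRangeF_spec (c := cert) 31080 370 kF_31080) rfl
  have h86 : ∀ v < 31671, chkVF cert v = true :=
    cover_step h85 (chkRangeF_spec (c := cert) 31450 221 kF_31450) rfl
  exact h86

theorem allFin : ∀ v < 31671, finAt cert v cert.ncols = true := by
  have h0 : ∀ v < 0, finAt cert v cert.ncols = true := fun v hv => absurd hv (Nat.not_lt_zero v)
  have h1 : ∀ v < 2000, finAt cert v cert.ncols = true :=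
    cover_step h0 (chkRangeFin_spec (c := cert) 0 2000 kFin_0) rfl
  have h2 : ∀ v < 4000, finAt cert v cert.ncols = true :=
    cover_step h1 (chkRangeFin_spec (c := cert) 2000 2000 kFin_2000) rfl
  have h3 : ∀ v < 6000, finAt cert v cert.ncols = true :=
    cover_step h2 (chkRangeFin_spec (c := cert) 4000 2000 kFin_4000) rfl
  have h4 : ∀ v < 8000, finAt cert v cert.ncols = true :=
    cover_step h3 (chkRangeFin_spec (c := cert) 6000 2000 kFin_6000) rfl
  have h5 : ∀ v < 10000, finAt cert v cert.ncols = true :=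
    cover_step h4 (chkRangeFin_spec (c := cert) 8000 2000 kFin_8000) rfl
  have h6 : ∀ v < 12000, finAt cert v cert.ncols = true :=
    cover_step h5 (chkRangeFin_spec (c := cert) 10000 2000 kFin_10000) rfl
  have h7 : ∀ v < 14000, finAt cert v cert.ncols = true :=
    cover_step h6 (chkRangeFin_spec (c := cert) 12000 2000 kFin_12000) rfl
  have h8 : ∀ v < 16000, finAt cert v cert.ncols = true :=
    cover_step h7 (chkRangeFin_spec (c := cert) 14000 2000 kFin_14000) rfl
  have h9 : ∀ v < 18000, finAt cert v cert.ncols = true :=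
    cover_step h8 (chkRangeFin_spec (c := cert) 16000 2000 kFin_16000) rfl
  have h10 : ∀ v < 20000, finAt cert v cert.ncols = true :=
    cover_step h9 (chkRangeFin_spec (c := cert) 18000 2000 kFin_18000) rfl
  have h11 : ∀ v < 22000, finAt cert v cert.ncols = true :=
    cover_step h10 (chkRangeFin_spec (c := cert) 20000 2000 kFin_20000) rfl
  have h12 : ∀ v < 24000, finAt cert v cert.ncols = true :=
    cover_step h11 (chkRangeFin_spec (c := cert) 22000 2000 kFin_22000) rfl
  have h13 : ∀ v < 26000, finAt cert v cert.ncols = true :=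
    cover_step h12 (chkRangeFin_spec (c := cert) 24000 2000 kFin_24000) rfl
  have h14 : ∀ v < 28000, finAt cert v cert.ncols = true :=
    cover_step h13 (chkRangeFin_spec (c := cert) 26000 2000 kFin_26000) rfl
  have h15 : ∀ v < 30000, finAt cert v cert.ncols = true :=
    cover_step h14 (chkRangeFin_spec (c := cert) 28000 2000 kFin_28000) rfl
  have h16 : ∀ v < 31671, finAt cert v cert.ncols = true :=
    cover_step h15 (chkRangeFin_spec (c := cert) 30000 1671 kFin_30000) rfl
  exact h16

theorem checked : Checked cert := ⟨small, allT, allF, allFin⟩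

def colOf : Cfsg.Spor.Fi23.Gen → ℕ
  | .a => 0
  | .b => 1
  | .c => 2
  | .d => 3
  | .e => 4
  | .f => 5
  | .g => 6
  | .j => 7
  | .h => 8
  | .i => 9

def colGen : ℕ → Cfsg.Spor.Fi23.Gen × Bool
  | 0 => (.a, true)
  | 1 => (.b, true)
  | 2 => (.c, true)
  | 3 => (.d, true)
  | 4 => (.e, true)
  | 5 => (.f, true)
  | 6 => (.g, true)
  | 7 => (.j, true)
  | 8 => (.h, true)
  | 9 => (.i, true)
  | _ => (.a, true)

def nodes : List Cfsg.Spor.Fi23.Gen := [.a, .b, .c, .d, .e, .f, .g, .h, .j, .i]

def extraEs : List WE := [(.pow (.mul (.mul (.mul (.mul (.mul (.mul (.mul (.mul (.g 3) (.g 2)) (.g 1)) (.g 3)) (.g 4)) (.g 5)) (.g 3)) (.g 8)) (.g 9)) 10), (.pow (.mul (.mul (.mul (.mul (.mul (.mul (.g 0) (.g 1)) (.g 2)) (.g 3)) (.g 4)) (.g 5)) (.g 8)) 9)]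

def subEs : List WE := [(.g 0), (.g 1), (.g 2), (.g 3), (.g 4), (.g 5), (.g 6), (.g 8), (.g 9)]

set_option maxHeartbeats 1000000 in
theorem link : Link Cfsg.Spor.Fi23.edges Cfsg.Spor.Fi23.extra ({Cfsg.Spor.Fi23.a, Cfsg.Spor.Fi23.b, Cfsg.Spor.Fi23.c, Cfsg.Spor.Fi23.d, Cfsg.Spor.Fi23.e, Cfsg.Spor.Fi23.f, Cfsg.Spor.Fi23.g, Cfsg.Spor.Fi23.h, Cfsg.Spor.Fi23.i} : Set (FreeGroup Cfsg.Spor.Fi23.Gen)) cert colOf colGen nodes extraEs subEs where
  hall := by intro x; cases x <;> exact ⟨by decide, rfl⟩
  hcols := by decide +kernel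
  hinvs := by decide +kernel
  hn1 := by decide +kernel
  hn2 := by decide +kernel
  hsym := by decide +kernel
  hrels := by decide +kernel
  hextra := rfl
  hok := by decide +kernel
  hsubs := by decide +kernel
  hS1 := by
    intro s hs
    simp only [Set.mem_insert_iff, Set.mem_singleton_iff] at hs
    rcases hs with rfl | rfl | rfl | rfl | rfl | rfl | rfl | rfl | rfl
    · exact ⟨(.g 0), List.mem_cons_self, rfl⟩
    · exact ⟨(.g 1), List.mem_cons_of_mem _ (List.mem_cons_self), rfl⟩
    · exact ⟨(.g 2), List.mem_cons_of_mem _ (List.mem_cons_of_mem _ (List.mem_cons_self)), rfl⟩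
    · exact ⟨(.g 3), List.mem_cons_of_mem _ (List.mem_cons_of_mem _ (List.mem_cons_of_mem _ (List.mem_cons_self))), rfl⟩
    · exact ⟨(.g 4), List.mem_cons_of_mem _ (List.mem_cons_of_mem _ (List.mem_cons_of_mem _ (List.mem_cons_of_mem _ (List.mem_cons_self)))), rfl⟩
    · exact ⟨(.g 5), List.mem_cons_of_mem _ (List.mem_cons_of_mem _ (List.mem_cons_of_mem _ (List.mem_cons_of_mem _ (List.mem_cons_of_mem _ (List.mem_cons_self))))), rfl⟩
    · exact ⟨(.g 6), List.mem_cons_of_mem _ (List.mem_cons_of_mem _ (List.mem_cons_of_mem _ (List.mem_cons_of_mem _ (List.mem_cons_of_mem _ (List.mem_cons_of_mem _ (List.mem_cons_self)))))), rfl⟩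
    · exact ⟨(.g 8), List.mem_cons_of_mem _ (List.mem_cons_of_mem _ (List.mem_cons_of_mem _ (List.mem_cons_of_mem _ (List.mem_cons_of_mem _ (List.mem_cons_of_mem _ (List.mem_cons_of_mem _ (List.mem_cons_self))))))), rfl⟩
    · exact ⟨(.g 9), List.mem_cons_of_mem _ (List.mem_cons_of_mem _ (List.mem_cons_of_mem _ (List.mem_cons_of_mem _ (List.mem_cons_of_mem _ (List.mem_cons_of_mem _ (List.mem_cons_of_mem _ (List.mem_cons_of_mem _ (List.mem_cons_self)))))))), rfl⟩
  hS2 := by
    intro e he
    simp only [subEs, List.mem_cons, List.not_mem_nil, or_false] at he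
    rcases he with rfl | rfl | rfl | rfl | rfl | rfl | rfl | rfl | rfl
    · exact (Or.inl rfl)
    · exact (Or.inr (Or.inl rfl))
    · exact (Or.inr (Or.inr (Or.inl rfl)))
    · exact (Or.inr (Or.inr (Or.inr (Or.inl rfl))))
    · exact (Or.inr (Or.inr (Or.inr (Or.inr (Or.inl rfl)))))
    · exact (Or.inr (Or.inr (Or.inr (Or.inr (Or.inr (Or.inl rfl))))))
    · exact (Or.inr (Or.inr (Or.inr (Or.inr (Or.inr (Or.inr (Or.inl rfl)))))))
    · exact (Or.inr (Or.inr (Or.inr (Or.inr (Or.inr (Or.inr (Or.inr (Or.inl rfl))))))))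
    · exact (Or.inr (Or.inr (Or.inr (Or.inr (Or.inr (Or.inr (Or.inr (Or.inr rfl))))))))

theorem index_eq : (((Subgroup.closure ({Cfsg.Spor.Fi23.a, Cfsg.Spor.Fi23.b, Cfsg.Spor.Fi23.c, Cfsg.Spor.Fi23.d, Cfsg.Spor.Fi23.e, Cfsg.Spor.Fi23.f, Cfsg.Spor.Fi23.g, Cfsg.Spor.Fi23.h, Cfsg.Spor.Fi23.i} : Set (FreeGroup Cfsg.Spor.Fi23.Gen))).map (PresentedGroup.mk (coxRelators Cfsg.Spor.Fi23.edges ∪ {r | r ∈ Cfsg.Spor.Fi23.extra})))).index = 31671 := by
  obtain ⟨ρ, e, -, -, -⟩ := link.main checked
  exact (Nat.card_congr e).trans (Nat.card_fin _)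

theorem allO : ∀ v < 31671, orbAt cert orb v = true := by
  have h0 : ∀ v < 0, orbAt cert orb v = true := fun v hv => absurd hv (Nat.not_lt_zero v)
  have h1 : ∀ v < 2000, orbAt cert orb v = true :=
    cover_step h0 (chkRangeO_spec cert orb 0 2000 kO_0) rfl
  have h2 : ∀ v < 4000, orbAt cert orb v = true :=
    cover_step h1 (chkRangeO_spec cert orb 2000 2000 kO_2000) rfl
  have h3 : ∀ v < 6000, orbAt cert orb v = true :=
    cover_step h2 (chkRangeO_spec cert orb 4000 2000 kO_4000) rfl
  have h4 : ∀ v < 8000, orbAt cert orb v = true :=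
    cover_step h3 (chkRangeO_spec cert orb 6000 2000 kO_6000) rfl
  have h5 : ∀ v < 10000, orbAt cert orb v = true :=
    cover_step h4 (chkRangeO_spec cert orb 8000 2000 kO_8000) rfl
  have h6 : ∀ v < 12000, orbAt cert orb v = true :=
    cover_step h5 (chkRangeO_spec cert orb 10000 2000 kO_10000) rfl
  have h7 : ∀ v < 14000, orbAt cert orb v = true :=
    cover_step h6 (chkRangeO_spec cert orb 12000 2000 kO_12000) rfl
  have h8 : ∀ v < 16000, orbAt cert orb v = true :=
    cover_step h7 (chkRangeO_spec cert orb 14000 2000 kO_14000) rfl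
  have h9 : ∀ v < 18000, orbAt cert orb v = true :=
    cover_step h8 (chkRangeO_spec cert orb 16000 2000 kO_16000) rfl
  have h10 : ∀ v < 20000, orbAt cert orb v = true :=
    cover_step h9 (chkRangeO_spec cert orb 18000 2000 kO_18000) rfl
  have h11 : ∀ v < 22000, orbAt cert orb v = true :=
    cover_step h10 (chkRangeO_spec cert orb 20000 2000 kO_20000) rfl
  have h12 : ∀ v < 24000, orbAt cert orb v = true :=
    cover_step h11 (chkRangeO_spec cert orb 22000 2000 kO_22000) rfl
  have h13 : ∀ v < 26000, orbAt cert orb v = true :=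
    cover_step h12 (chkRangeO_spec cert orb 24000 2000 kO_24000) rfl
  have h14 : ∀ v < 28000, orbAt cert orb v = true :=
    cover_step h13 (chkRangeO_spec cert orb 26000 2000 kO_26000) rfl
  have h15 : ∀ v < 30000, orbAt cert orb v = true :=
    cover_step h14 (chkRangeO_spec cert orb 28000 2000 kO_28000) rfl
  have h16 : ∀ v < 31671, orbAt cert orb v = true :=
    cover_step h15 (chkRangeO_spec cert orb 30000 1671 kO_30000) rfl
  exact h16


end Cfsg.Agent.Helper17.TCD.Fi23A
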