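import Mathlib
import Cfsg.Agent.Helper17.TCD.Fi24A_Cert

set_option autoImplicit false

namespace Cfsg.Agent.Helper17.TCD.Fi24A

open Cfsg.Agent.Helper17.TC

set_option maxHeartbeats 0 in
theorem kT_0 : chkRangeT cert 0 1173 = true := by decide +kernel

set_option maxHeartbeats 0 in
theorem kT_1173 : chkRangeT cert 1173 1216 = true := by decide +kernel

set_option maxHeartbeats 0 in
theorem kT_2389 : chkRangeT cert 2389 1225 = true := by decide +kernel

set_option maxHeartbeats 0 in
theorem kT_3614 : chkRangeT cert 3614 1262 = true := by decide +kernel

set_option maxHeartbeats 0 in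
theorem kT_4876 : chkRangeT cert 4876 1279 = true := by decide +kernel

set_option maxHeartbeats 0 in
theorem kT_6155 : chkRangeT cert 6155 1325 = true := by decide +kernel

set_option maxHeartbeats 0 in
theorem kT_7480 : chkRangeT cert 7480 1301 = true := by decide +kernel

set_option maxHeartbeats 0 in
theorem kT_8781 : chkRangeT cert 8781 1317 = true := by decide +kernel

set_option maxHeartbeats 0 in
theorem kT_10098 : chkRangeT cert 10098 1339 = true := by decide +kernel

set_option maxHeartbeats 0 in
theorem kT_11437 : chkRangeT cert 11437 1334 = true := by decide +kernel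

set_option maxHeartbeats 0 in
theorem kT_12771 : chkRangeT cert 12771 1291 = true := by decide +kernel

set_option maxHeartbeats 0 in
theorem kT_14062 : chkRangeT cert 14062 1383 = true := by decide +kernel

set_option maxHeartbeats 0 in
theorem kT_15445 : chkRangeT cert 15445 1307 = true := by decide +kernel

set_option maxHeartbeats 0 in
theorem kT_16752 : chkRangeT cert 16752 1280 = true := by decide +kernel

set_option maxHeartbeats 0 in
theorem kT_18032 : chkRangeT cert 18032 1395 = true := by decide +kernel

set_option maxHeartbeats 0 in
theorem kT_19427 : chkRangeT cert 19427 1323 = true := by decide +kernel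

end Cfsg.Agent.Helper17.TCD.Fi24A
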