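import Mathlib
import Cfsg.Agent.Helper17.TCD.Fi24A_Cert

set_option autoImplicit false

namespace Cfsg.Agent.Helper17.TCD.Fi24A

open Cfsg.Agent.Helper17.TC

set_option maxHeartbeats 0 in
theorem kT_20750 : chkRangeT cert 20750 1277 = true := by decide +kernel

set_option maxHeartbeats 0 in
theorem kT_22027 : chkRangeT cert 22027 1305 = true := by decide +kernel

set_option maxHeartbeats 0 in
theorem kT_23332 : chkRangeT cert 23332 1412 = true := by decide +kernel

set_option maxHeartbeats 0 in
theorem kT_24744 : chkRangeT cert 24744 1307 = true := by decide +kernel

set_option maxHeartbeats 0 in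
theorem kT_26051 : chkRangeT cert 26051 1329 = true := by decide +kernel

set_option maxHeartbeats 0 in
theorem kT_27380 : chkRangeT cert 27380 1268 = true := by decide +kernel

set_option maxHeartbeats 0 in
theorem kT_28648 : chkRangeT cert 28648 1319 = true := by decide +kernel

set_option maxHeartbeats 0 in
theorem kT_29967 : chkRangeT cert 29967 1426 = true := by decide +kernel

set_option maxHeartbeats 0 in
theorem kT_31393 : chkRangeT cert 31393 1299 = true := by decide +kernel

set_option maxHeartbeats 0 in
theorem kT_32692 : chkRangeT cert 32692 1336 = true := by decide +kernel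

set_option maxHeartbeats 0 in
theorem kT_34028 : chkRangeT cert 34028 1308 = true := by decide +kernel

set_option maxHeartbeats 0 in
theorem kT_35336 : chkRangeT cert 35336 1265 = true := by decide +kernel

set_option maxHeartbeats 0 in
theorem kT_36601 : chkRangeT cert 36601 1314 = true := by decide +kernel

set_option maxHeartbeats 0 in
theorem kT_37915 : chkRangeT cert 37915 1425 = true := by decide +kernel

set_option maxHeartbeats 0 in
theorem kT_39340 : chkRangeT cert 39340 1356 = true := by decide +kernel

set_option maxHeartbeats 0 in
theorem kT_40696 : chkRangeT cert 40696 1315 = true := by decide +kernel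

end Cfsg.Agent.Helper17.TCD.Fi24A
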