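import Mathlib
import Cfsg.Agent.Helper17.TCD.Fi24A_Cert

set_option autoImplicit false

namespace Cfsg.Agent.Helper17.TCD.Fi24A

open Cfsg.Agent.Helper17.TC

set_option maxHeartbeats 0 in
theorem kT_207719 : chkRangeT cert 207719 1169 = true := by decide +kernel

set_option maxHeartbeats 0 in
theorem kT_208888 : chkRangeT cert 208888 1205 = true := by decide +kernel

set_option maxHeartbeats 0 in
theorem kT_210093 : chkRangeT cert 210093 1111 = true := by decide +kernel

set_option maxHeartbeats 0 in
theorem kT_211204 : chkRangeT cert 211204 1315 = true := by decide +kernel

set_option maxHeartbeats 0 in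
theorem kT_212519 : chkRangeT cert 212519 1192 = true := by decide +kernel

set_option maxHeartbeats 0 in
theorem kT_213711 : chkRangeT cert 213711 1301 = true := by decide +kernel

set_option maxHeartbeats 0 in
theorem kT_215012 : chkRangeT cert 215012 1135 = true := by decide +kernel

set_option maxHeartbeats 0 in
theorem kT_216147 : chkRangeT cert 216147 1018 = true := by decide +kernel

set_option maxHeartbeats 0 in
theorem kT_217165 : chkRangeT cert 217165 1085 = true := by decide +kernel

set_option maxHeartbeats 0 in
theorem kT_218250 : chkRangeT cert 218250 1091 = true := by decide +kernel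

set_option maxHeartbeats 0 in
theorem kT_219341 : chkRangeT cert 219341 1098 = true := by decide +kernel

set_option maxHeartbeats 0 in
theorem kT_220439 : chkRangeT cert 220439 1176 = true := by decide +kernel

set_option maxHeartbeats 0 in
theorem kT_221615 : chkRangeT cert 221615 1320 = true := by decide +kernel

set_option maxHeartbeats 0 in
theorem kT_222935 : chkRangeT cert 222935 1198 = true := by decide +kernel

set_option maxHeartbeats 0 in
theorem kT_224133 : chkRangeT cert 224133 1336 = true := by decide +kernel

set_option maxHeartbeats 0 in
theorem kT_225469 : chkRangeT cert 225469 1196 = true := by decide +kernel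

end Cfsg.Agent.Helper17.TCD.Fi24A
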