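import Mathlib
import Cfsg.Agent.Helper17.TCD.Fi24A_Cert

set_option autoImplicit false

namespace Cfsg.Agent.Helper17.TCD.Fi24A

open Cfsg.Agent.Helper17.TC

set_option maxHeartbeats 0 in
theorem kF_285200 : chkRangeF cert 285200 230 = true := by decide +kernel

set_option maxHeartbeats 0 in
theorem kF_285430 : chkRangeF cert 285430 230 = true := by decide +kernel

set_option maxHeartbeats 0 in
theorem kF_285660 : chkRangeF cert 285660 230 = true := by decide +kernel

set_option maxHeartbeats 0 in
theorem kF_285890 : chkRangeF cert 285890 230 = true := by decide +kernel

set_option maxHeartbeats 0 in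
theorem kF_286120 : chkRangeF cert 286120 230 = true := by decide +kernel

set_option maxHeartbeats 0 in
theorem kF_286350 : chkRangeF cert 286350 230 = true := by decide +kernel

set_option maxHeartbeats 0 in
theorem kF_286580 : chkRangeF cert 286580 230 = true := by decide +kernel

set_option maxHeartbeats 0 in
theorem kF_286810 : chkRangeF cert 286810 230 = true := by decide +kernel

set_option maxHeartbeats 0 in
theorem kF_287040 : chkRangeF cert 287040 230 = true := by decide +kernel

set_option maxHeartbeats 0 in
theorem kF_287270 : chkRangeF cert 287270 230 = true := by decide +kernel

set_option maxHeartbeats 0 in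
theorem kF_287500 : chkRangeF cert 287500 230 = true := by decide +kernel

set_option maxHeartbeats 0 in
theorem kF_287730 : chkRangeF cert 287730 230 = true := by decide +kernel

set_option maxHeartbeats 0 in
theorem kF_287960 : chkRangeF cert 287960 230 = true := by decide +kernel

set_option maxHeartbeats 0 in
theorem kF_288190 : chkRangeF cert 288190 230 = true := by decide +kernel

set_option maxHeartbeats 0 in
theorem kF_288420 : chkRangeF cert 288420 230 = true := by decide +kernel

set_option maxHeartbeats 0 in
theorem kF_288650 : chkRangeF cert 288650 230 = true := by decide +kernel

end Cfsg.Agent.Helper17.TCD.Fi24A
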