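import Mathlib
import Cfsg.Agent.Helper17.TCD.Fi24A_Cert

set_option autoImplicit false

namespace Cfsg.Agent.Helper17.TCD.Fi24A

open Cfsg.Agent.Helper17.TC

set_option maxHeartbeats 0 in
theorem kF_288880 : chkRangeF cert 288880 230 = true := by decide +kernel

set_option maxHeartbeats 0 in
theorem kF_289110 : chkRangeF cert 289110 230 = true := by decide +kernel

set_option maxHeartbeats 0 in
theorem kF_289340 : chkRangeF cert 289340 230 = true := by decide +kernel

set_option maxHeartbeats 0 in
theorem kF_289570 : chkRangeF cert 289570 230 = true := by decide +kernel

set_option maxHeartbeats 0 in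
theorem kF_289800 : chkRangeF cert 289800 230 = true := by decide +kernel

set_option maxHeartbeats 0 in
theorem kF_290030 : chkRangeF cert 290030 230 = true := by decide +kernel

set_option maxHeartbeats 0 in
theorem kF_290260 : chkRangeF cert 290260 230 = true := by decide +kernel

set_option maxHeartbeats 0 in
theorem kF_290490 : chkRangeF cert 290490 230 = true := by decide +kernel

set_option maxHeartbeats 0 in
theorem kF_290720 : chkRangeF cert 290720 230 = true := by decide +kernel

set_option maxHeartbeats 0 in
theorem kF_290950 : chkRangeF cert 290950 230 = true := by decide +kernel

set_option maxHeartbeats 0 in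
theorem kF_291180 : chkRangeF cert 291180 230 = true := by decide +kernel

set_option maxHeartbeats 0 in
theorem kF_291410 : chkRangeF cert 291410 230 = true := by decide +kernel

set_option maxHeartbeats 0 in
theorem kF_291640 : chkRangeF cert 291640 230 = true := by decide +kernel

set_option maxHeartbeats 0 in
theorem kF_291870 : chkRangeF cert 291870 230 = true := by decide +kernel

set_option maxHeartbeats 0 in
theorem kF_292100 : chkRangeF cert 292100 230 = true := by decide +kernel

set_option maxHeartbeats 0 in
theorem kF_292330 : chkRangeF cert 292330 230 = true := by decide +kernel

end Cfsg.Agent.Helper17.TCD.Fi24A
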