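import Mathlib
import Cfsg.Agent.Helper17.TCD.Fi24A_Cert

set_option autoImplicit false

namespace Cfsg.Agent.Helper17.TCD.Fi24A

open Cfsg.Agent.Helper17.TC

set_option maxHeartbeats 0 in
theorem kF_292560 : chkRangeF cert 292560 230 = true := by decide +kernel

set_option maxHeartbeats 0 in
theorem kF_292790 : chkRangeF cert 292790 230 = true := by decide +kernel

set_option maxHeartbeats 0 in
theorem kF_293020 : chkRangeF cert 293020 230 = true := by decide +kernel

set_option maxHeartbeats 0 in
theorem kF_293250 : chkRangeF cert 293250 230 = true := by decide +kernel

set_option maxHeartbeats 0 in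
theorem kF_293480 : chkRangeF cert 293480 230 = true := by decide +kernel

set_option maxHeartbeats 0 in
theorem kF_293710 : chkRangeF cert 293710 230 = true := by decide +kernel

set_option maxHeartbeats 0 in
theorem kF_293940 : chkRangeF cert 293940 230 = true := by decide +kernel

set_option maxHeartbeats 0 in
theorem kF_294170 : chkRangeF cert 294170 230 = true := by decide +kernel

set_option maxHeartbeats 0 in
theorem kF_294400 : chkRangeF cert 294400 230 = true := by decide +kernel

set_option maxHeartbeats 0 in
theorem kF_294630 : chkRangeF cert 294630 230 = true := by decide +kernel

set_option maxHeartbeats 0 in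
theorem kF_294860 : chkRangeF cert 294860 230 = true := by decide +kernel

set_option maxHeartbeats 0 in
theorem kF_295090 : chkRangeF cert 295090 230 = true := by decide +kernel

set_option maxHeartbeats 0 in
theorem kF_295320 : chkRangeF cert 295320 230 = true := by decide +kernel

set_option maxHeartbeats 0 in
theorem kF_295550 : chkRangeF cert 295550 230 = true := by decide +kernel

set_option maxHeartbeats 0 in
theorem kF_295780 : chkRangeF cert 295780 230 = true := by decide +kernel

set_option maxHeartbeats 0 in
theorem kF_296010 : chkRangeF cert 296010 230 = true := by decide +kernel

end Cfsg.Agent.Helper17.TCD.Fi24A
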