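import Mathlib
import Cfsg.Agent.Helper17.TCD.Fi24A_Cert

set_option autoImplicit false

namespace Cfsg.Agent.Helper17.TCD.Fi24A

open Cfsg.Agent.Helper17.TC

set_option maxHeartbeats 0 in
theorem kF_296240 : chkRangeF cert 296240 230 = true := by decide +kernel

set_option maxHeartbeats 0 in
theorem kF_296470 : chkRangeF cert 296470 230 = true := by decide +kernel

set_option maxHeartbeats 0 in
theorem kF_296700 : chkRangeF cert 296700 230 = true := by decide +kernel

set_option maxHeartbeats 0 in
theorem kF_296930 : chkRangeF cert 296930 230 = true := by decide +kernel

set_option maxHeartbeats 0 in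
theorem kF_297160 : chkRangeF cert 297160 230 = true := by decide +kernel

set_option maxHeartbeats 0 in
theorem kF_297390 : chkRangeF cert 297390 230 = true := by decide +kernel

set_option maxHeartbeats 0 in
theorem kF_297620 : chkRangeF cert 297620 230 = true := by decide +kernel

set_option maxHeartbeats 0 in
theorem kF_297850 : chkRangeF cert 297850 230 = true := by decide +kernel

set_option maxHeartbeats 0 in
theorem kF_298080 : chkRangeF cert 298080 230 = true := by decide +kernel

set_option maxHeartbeats 0 in
theorem kF_298310 : chkRangeF cert 298310 230 = true := by decide +kernel

set_option maxHeartbeats 0 in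
theorem kF_298540 : chkRangeF cert 298540 230 = true := by decide +kernel

set_option maxHeartbeats 0 in
theorem kF_298770 : chkRangeF cert 298770 230 = true := by decide +kernel

set_option maxHeartbeats 0 in
theorem kF_299000 : chkRangeF cert 299000 230 = true := by decide +kernel

set_option maxHeartbeats 0 in
theorem kF_299230 : chkRangeF cert 299230 230 = true := by decide +kernel

set_option maxHeartbeats 0 in
theorem kF_299460 : chkRangeF cert 299460 230 = true := by decide +kernel

set_option maxHeartbeats 0 in
theorem kF_299690 : chkRangeF cert 299690 230 = true := by decide +kernel

end Cfsg.Agent.Helper17.TCD.Fi24A
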