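import Mathlib
import Cfsg.Agent.Helper17.TCD.Fi24A_Cert

set_option autoImplicit false

namespace Cfsg.Agent.Helper17.TCD.Fi24A

open Cfsg.Agent.Helper17.TC

set_option maxHeartbeats 0 in
theorem kF_299920 : chkRangeF cert 299920 230 = true := by decide +kernel

set_option maxHeartbeats 0 in
theorem kF_300150 : chkRangeF cert 300150 230 = true := by decide +kernel

set_option maxHeartbeats 0 in
theorem kF_300380 : chkRangeF cert 300380 230 = true := by decide +kernel

set_option maxHeartbeats 0 in
theorem kF_300610 : chkRangeF cert 300610 230 = true := by decide +kernel

set_option maxHeartbeats 0 in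
theorem kF_300840 : chkRangeF cert 300840 230 = true := by decide +kernel

set_option maxHeartbeats 0 in
theorem kF_301070 : chkRangeF cert 301070 230 = true := by decide +kernel

set_option maxHeartbeats 0 in
theorem kF_301300 : chkRangeF cert 301300 230 = true := by decide +kernel

set_option maxHeartbeats 0 in
theorem kF_301530 : chkRangeF cert 301530 230 = true := by decide +kernel

set_option maxHeartbeats 0 in
theorem kF_301760 : chkRangeF cert 301760 230 = true := by decide +kernel

set_option maxHeartbeats 0 in
theorem kF_301990 : chkRangeF cert 301990 230 = true := by decide +kernel

set_option maxHeartbeats 0 in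
theorem kF_302220 : chkRangeF cert 302220 230 = true := by decide +kernel

set_option maxHeartbeats 0 in
theorem kF_302450 : chkRangeF cert 302450 230 = true := by decide +kernel

set_option maxHeartbeats 0 in
theorem kF_302680 : chkRangeF cert 302680 230 = true := by decide +kernel

set_option maxHeartbeats 0 in
theorem kF_302910 : chkRangeF cert 302910 230 = true := by decide +kernel

set_option maxHeartbeats 0 in
theorem kF_303140 : chkRangeF cert 303140 230 = true := by decide +kernel

set_option maxHeartbeats 0 in
theorem kF_303370 : chkRangeF cert 303370 230 = true := by decide +kernel

end Cfsg.Agent.Helper17.TCD.Fi24A
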