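import Mathlib
import Cfsg.Agent.Helper17.TCD.Fi24A_Cert

set_option autoImplicit false

namespace Cfsg.Agent.Helper17.TCD.Fi24A

open Cfsg.Agent.Helper17.TC

set_option maxHeartbeats 0 in
theorem kF_303600 : chkRangeF cert 303600 230 = true := by decide +kernel

set_option maxHeartbeats 0 in
theorem kF_303830 : chkRangeF cert 303830 230 = true := by decide +kernel

set_option maxHeartbeats 0 in
theorem kF_304060 : chkRangeF cert 304060 230 = true := by decide +kernel

set_option maxHeartbeats 0 in
theorem kF_304290 : chkRangeF cert 304290 230 = true := by decide +kernel

set_option maxHeartbeats 0 in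
theorem kF_304520 : chkRangeF cert 304520 230 = true := by decide +kernel

set_option maxHeartbeats 0 in
theorem kF_304750 : chkRangeF cert 304750 230 = true := by decide +kernel

set_option maxHeartbeats 0 in
theorem kF_304980 : chkRangeF cert 304980 230 = true := by decide +kernel

set_option maxHeartbeats 0 in
theorem kF_305210 : chkRangeF cert 305210 230 = true := by decide +kernel

set_option maxHeartbeats 0 in
theorem kF_305440 : chkRangeF cert 305440 230 = true := by decide +kernel

set_option maxHeartbeats 0 in
theorem kF_305670 : chkRangeF cert 305670 230 = true := by decide +kernel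

set_option maxHeartbeats 0 in
theorem kF_305900 : chkRangeF cert 305900 230 = true := by decide +kernel

set_option maxHeartbeats 0 in
theorem kF_306130 : chkRangeF cert 306130 230 = true := by decide +kernel

set_option maxHeartbeats 0 in
theorem kF_306360 : chkRangeF cert 306360 230 = true := by decide +kernel

set_option maxHeartbeats 0 in
theorem kF_306590 : chkRangeF cert 306590 230 = true := by decide +kernel

set_option maxHeartbeats 0 in
theorem kF_306820 : chkRangeF cert 306820 116 = true := by decide +kernel

set_option maxHeartbeats 0 in
theorem kFin_0 : chkRangeFin cert 0 2000 = true := by decide +kernel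

end Cfsg.Agent.Helper17.TCD.Fi24A
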