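import Mathlib
import Cfsg.Agent.Helper17.TCD.Fi24A_Cert

set_option autoImplicit false

namespace Cfsg.Agent.Helper17.TCD.Fi24A

open Cfsg.Agent.Helper17.TC

set_option maxHeartbeats 0 in
theorem kFin_34000 : chkRangeFin cert 34000 2000 = true := by decide +kernel

set_option maxHeartbeats 0 in
theorem kFin_36000 : chkRangeFin cert 36000 2000 = true := by decide +kernel

set_option maxHeartbeats 0 in
theorem kFin_38000 : chkRangeFin cert 38000 2000 = true := by decide +kernel

set_option maxHeartbeats 0 in
theorem kFin_40000 : chkRangeFin cert 40000 2000 = true := by decide +kernel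

set_option maxHeartbeats 0 in
theorem kFin_42000 : chkRangeFin cert 42000 2000 = true := by decide +kernel

set_option maxHeartbeats 0 in
theorem kFin_44000 : chkRangeFin cert 44000 2000 = true := by decide +kernel

set_option maxHeartbeats 0 in
theorem kFin_46000 : chkRangeFin cert 46000 2000 = true := by decide +kernel

set_option maxHeartbeats 0 in
theorem kFin_48000 : chkRangeFin cert 48000 2000 = true := by decide +kernel

set_option maxHeartbeats 0 in
theorem kFin_50000 : chkRangeFin cert 50000 2000 = true := by decide +kernel

set_option maxHeartbeats 0 in
theorem kFin_52000 : chkRangeFin cert 52000 2000 = true := by decide +kernel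

set_option maxHeartbeats 0 in
theorem kFin_54000 : chkRangeFin cert 54000 2000 = true := by decide +kernel

set_option maxHeartbeats 0 in
theorem kFin_56000 : chkRangeFin cert 56000 2000 = true := by decide +kernel

set_option maxHeartbeats 0 in
theorem kFin_58000 : chkRangeFin cert 58000 2000 = true := by decide +kernel

set_option maxHeartbeats 0 in
theorem kFin_60000 : chkRangeFin cert 60000 2000 = true := by decide +kernel

set_option maxHeartbeats 0 in
theorem kFin_62000 : chkRangeFin cert 62000 2000 = true := by decide +kernel

set_option maxHeartbeats 0 in
theorem kFin_64000 : chkRangeFin cert 64000 2000 = true := by decide +kernel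

end Cfsg.Agent.Helper17.TCD.Fi24A
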