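import Mathlib
import Cfsg.Agent.Helper17.TCD.Fi24A_Cert

set_option autoImplicit false

namespace Cfsg.Agent.Helper17.TCD.Fi24A

open Cfsg.Agent.Helper17.TC

set_option maxHeartbeats 0 in
theorem kFin_66000 : chkRangeFin cert 66000 2000 = true := by decide +kernel

set_option maxHeartbeats 0 in
theorem kFin_68000 : chkRangeFin cert 68000 2000 = true := by decide +kernel

set_option maxHeartbeats 0 in
theorem kFin_70000 : chkRangeFin cert 70000 2000 = true := by decide +kernel

set_option maxHeartbeats 0 in
theorem kFin_72000 : chkRangeFin cert 72000 2000 = true := by decide +kernel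

set_option maxHeartbeats 0 in
theorem kFin_74000 : chkRangeFin cert 74000 2000 = true := by decide +kernel

set_option maxHeartbeats 0 in
theorem kFin_76000 : chkRangeFin cert 76000 2000 = true := by decide +kernel

set_option maxHeartbeats 0 in
theorem kFin_78000 : chkRangeFin cert 78000 2000 = true := by decide +kernel

set_option maxHeartbeats 0 in
theorem kFin_80000 : chkRangeFin cert 80000 2000 = true := by decide +kernel

set_option maxHeartbeats 0 in
theorem kFin_82000 : chkRangeFin cert 82000 2000 = true := by decide +kernel

set_option maxHeartbeats 0 in
theorem kFin_84000 : chkRangeFin cert 84000 2000 = true := by decide +kernel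

set_option maxHeartbeats 0 in
theorem kFin_86000 : chkRangeFin cert 86000 2000 = true := by decide +kernel

set_option maxHeartbeats 0 in
theorem kFin_88000 : chkRangeFin cert 88000 2000 = true := by decide +kernel

set_option maxHeartbeats 0 in
theorem kFin_90000 : chkRangeFin cert 90000 2000 = true := by decide +kernel

set_option maxHeartbeats 0 in
theorem kFin_92000 : chkRangeFin cert 92000 2000 = true := by decide +kernel

set_option maxHeartbeats 0 in
theorem kFin_94000 : chkRangeFin cert 94000 2000 = true := by decide +kernel

set_option maxHeartbeats 0 in
theorem kFin_96000 : chkRangeFin cert 96000 2000 = true := by decide +kernel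

end Cfsg.Agent.Helper17.TCD.Fi24A
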