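import Mathlib
import Cfsg.Agent.Helper17.TCD.Fi24A_Cert

set_option autoImplicit false

namespace Cfsg.Agent.Helper17.TCD.Fi24A

open Cfsg.Agent.Helper17.TC

set_option maxHeartbeats 0 in
theorem kFin_98000 : chkRangeFin cert 98000 2000 = true := by decide +kernel

set_option maxHeartbeats 0 in
theorem kFin_100000 : chkRangeFin cert 100000 2000 = true := by decide +kernel

set_option maxHeartbeats 0 in
theorem kFin_102000 : chkRangeFin cert 102000 2000 = true := by decide +kernel

set_option maxHeartbeats 0 in
theorem kFin_104000 : chkRangeFin cert 104000 2000 = true := by decide +kernel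

set_option maxHeartbeats 0 in
theorem kFin_106000 : chkRangeFin cert 106000 2000 = true := by decide +kernel

set_option maxHeartbeats 0 in
theorem kFin_108000 : chkRangeFin cert 108000 2000 = true := by decide +kernel

set_option maxHeartbeats 0 in
theorem kFin_110000 : chkRangeFin cert 110000 2000 = true := by decide +kernel

set_option maxHeartbeats 0 in
theorem kFin_112000 : chkRangeFin cert 112000 2000 = true := by decide +kernel

set_option maxHeartbeats 0 in
theorem kFin_114000 : chkRangeFin cert 114000 2000 = true := by decide +kernel

set_option maxHeartbeats 0 in
theorem kFin_116000 : chkRangeFin cert 116000 2000 = true := by decide +kernel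

set_option maxHeartbeats 0 in
theorem kFin_118000 : chkRangeFin cert 118000 2000 = true := by decide +kernel

set_option maxHeartbeats 0 in
theorem kFin_120000 : chkRangeFin cert 120000 2000 = true := by decide +kernel

set_option maxHeartbeats 0 in
theorem kFin_122000 : chkRangeFin cert 122000 2000 = true := by decide +kernel

set_option maxHeartbeats 0 in
theorem kFin_124000 : chkRangeFin cert 124000 2000 = true := by decide +kernel

set_option maxHeartbeats 0 in
theorem kFin_126000 : chkRangeFin cert 126000 2000 = true := by decide +kernel

set_option maxHeartbeats 0 in
theorem kFin_128000 : chkRangeFin cert 128000 2000 = true := by decide +kernel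

end Cfsg.Agent.Helper17.TCD.Fi24A
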