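import Mathlib
import Cfsg.Agent.Helper17.TCD.Fi24A_Cert

set_option autoImplicit false

namespace Cfsg.Agent.Helper17.TCD.Fi24A

open Cfsg.Agent.Helper17.TC

set_option maxHeartbeats 0 in
theorem kT_226665 : chkRangeT cert 226665 1247 = true := by decide +kernel

set_option maxHeartbeats 0 in
theorem kT_227912 : chkRangeT cert 227912 1149 = true := by decide +kernel

set_option maxHeartbeats 0 in
theorem kT_229061 : chkRangeT cert 229061 1050 = true := by decide +kernel

set_option maxHeartbeats 0 in
theorem kT_230111 : chkRangeT cert 230111 1228 = true := by decide +kernel

set_option maxHeartbeats 0 in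
theorem kT_231339 : chkRangeT cert 231339 1115 = true := by decide +kernel

set_option maxHeartbeats 0 in
theorem kT_232454 : chkRangeT cert 232454 1078 = true := by decide +kernel

set_option maxHeartbeats 0 in
theorem kT_233532 : chkRangeT cert 233532 1062 = true := by decide +kernel

set_option maxHeartbeats 0 in
theorem kT_234594 : chkRangeT cert 234594 1124 = true := by decide +kernel

set_option maxHeartbeats 0 in
theorem kT_235718 : chkRangeT cert 235718 958 = true := by decide +kernel

set_option maxHeartbeats 0 in
theorem kT_236676 : chkRangeT cert 236676 1191 = true := by decide +kernel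

set_option maxHeartbeats 0 in
theorem kT_237867 : chkRangeT cert 237867 1100 = true := by decide +kernel

set_option maxHeartbeats 0 in
theorem kT_238967 : chkRangeT cert 238967 1166 = true := by decide +kernel

set_option maxHeartbeats 0 in
theorem kT_240133 : chkRangeT cert 240133 1067 = true := by decide +kernel

set_option maxHeartbeats 0 in
theorem kT_241200 : chkRangeT cert 241200 918 = true := by decide +kernel

set_option maxHeartbeats 0 in
theorem kT_242118 : chkRangeT cert 242118 756 = true := by decide +kernel

set_option maxHeartbeats 0 in
theorem kT_242874 : chkRangeT cert 242874 996 = true := by decide +kernel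

end Cfsg.Agent.Helper17.TCD.Fi24A
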