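import Mathlib
import Cfsg.Agent.Helper17.TCD.Fi24A_Cert

set_option autoImplicit false

namespace Cfsg.Agent.Helper17.TCD.Fi24A

open Cfsg.Agent.Helper17.TC

set_option maxHeartbeats 0 in
theorem kFin_130000 : chkRangeFin cert 130000 2000 = true := by decide +kernel

set_option maxHeartbeats 0 in
theorem kFin_132000 : chkRangeFin cert 132000 2000 = true := by decide +kernel

set_option maxHeartbeats 0 in
theorem kFin_134000 : chkRangeFin cert 134000 2000 = true := by decide +kernel

set_option maxHeartbeats 0 in
theorem kFin_136000 : chkRangeFin cert 136000 2000 = true := by decide +kernel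

set_option maxHeartbeats 0 in
theorem kFin_138000 : chkRangeFin cert 138000 2000 = true := by decide +kernel

set_option maxHeartbeats 0 in
theorem kFin_140000 : chkRangeFin cert 140000 2000 = true := by decide +kernel

set_option maxHeartbeats 0 in
theorem kFin_142000 : chkRangeFin cert 142000 2000 = true := by decide +kernel

set_option maxHeartbeats 0 in
theorem kFin_144000 : chkRangeFin cert 144000 2000 = true := by decide +kernel

set_option maxHeartbeats 0 in
theorem kFin_146000 : chkRangeFin cert 146000 2000 = true := by decide +kernel

set_option maxHeartbeats 0 in
theorem kFin_148000 : chkRangeFin cert 148000 2000 = true := by decide +kernel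

set_option maxHeartbeats 0 in
theorem kFin_150000 : chkRangeFin cert 150000 2000 = true := by decide +kernel

set_option maxHeartbeats 0 in
theorem kFin_152000 : chkRangeFin cert 152000 2000 = true := by decide +kernel

set_option maxHeartbeats 0 in
theorem kFin_154000 : chkRangeFin cert 154000 2000 = true := by decide +kernel

set_option maxHeartbeats 0 in
theorem kFin_156000 : chkRangeFin cert 156000 2000 = true := by decide +kernel

set_option maxHeartbeats 0 in
theorem kFin_158000 : chkRangeFin cert 158000 2000 = true := by decide +kernel

set_option maxHeartbeats 0 in
theorem kFin_160000 : chkRangeFin cert 160000 2000 = true := by decide +kernel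

end Cfsg.Agent.Helper17.TCD.Fi24A
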