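import Mathlib
import Cfsg.Agent.Helper17.TCD.Fi24A_Cert

set_option autoImplicit false

namespace Cfsg.Agent.Helper17.TCD.Fi24A

open Cfsg.Agent.Helper17.TC

set_option maxHeartbeats 0 in
theorem kFin_162000 : chkRangeFin cert 162000 2000 = true := by decide +kernel

set_option maxHeartbeats 0 in
theorem kFin_164000 : chkRangeFin cert 164000 2000 = true := by decide +kernel

set_option maxHeartbeats 0 in
theorem kFin_166000 : chkRangeFin cert 166000 2000 = true := by decide +kernel

set_option maxHeartbeats 0 in
theorem kFin_168000 : chkRangeFin cert 168000 2000 = true := by decide +kernel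

set_option maxHeartbeats 0 in
theorem kFin_170000 : chkRangeFin cert 170000 2000 = true := by decide +kernel

set_option maxHeartbeats 0 in
theorem kFin_172000 : chkRangeFin cert 172000 2000 = true := by decide +kernel

set_option maxHeartbeats 0 in
theorem kFin_174000 : chkRangeFin cert 174000 2000 = true := by decide +kernel

set_option maxHeartbeats 0 in
theorem kFin_176000 : chkRangeFin cert 176000 2000 = true := by decide +kernel

set_option maxHeartbeats 0 in
theorem kFin_178000 : chkRangeFin cert 178000 2000 = true := by decide +kernel

set_option maxHeartbeats 0 in
theorem kFin_180000 : chkRangeFin cert 180000 2000 = true := by decide +kernel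

set_option maxHeartbeats 0 in
theorem kFin_182000 : chkRangeFin cert 182000 2000 = true := by decide +kernel

set_option maxHeartbeats 0 in
theorem kFin_184000 : chkRangeFin cert 184000 2000 = true := by decide +kernel

set_option maxHeartbeats 0 in
theorem kFin_186000 : chkRangeFin cert 186000 2000 = true := by decide +kernel

set_option maxHeartbeats 0 in
theorem kFin_188000 : chkRangeFin cert 188000 2000 = true := by decide +kernel

set_option maxHeartbeats 0 in
theorem kFin_190000 : chkRangeFin cert 190000 2000 = true := by decide +kernel

set_option maxHeartbeats 0 in
theorem kFin_192000 : chkRangeFin cert 192000 2000 = true := by decide +kernel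

end Cfsg.Agent.Helper17.TCD.Fi24A
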