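import Mathlib
import Cfsg.Agent.Helper17.TCD.Fi24A_Cert

set_option autoImplicit false

namespace Cfsg.Agent.Helper17.TCD.Fi24A

open Cfsg.Agent.Helper17.TC

set_option maxHeartbeats 0 in
theorem kFin_194000 : chkRangeFin cert 194000 2000 = true := by decide +kernel

set_option maxHeartbeats 0 in
theorem kFin_196000 : chkRangeFin cert 196000 2000 = true := by decide +kernel

set_option maxHeartbeats 0 in
theorem kFin_198000 : chkRangeFin cert 198000 2000 = true := by decide +kernel

set_option maxHeartbeats 0 in
theorem kFin_200000 : chkRangeFin cert 200000 2000 = true := by decide +kernel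

set_option maxHeartbeats 0 in
theorem kFin_202000 : chkRangeFin cert 202000 2000 = true := by decide +kernel

set_option maxHeartbeats 0 in
theorem kFin_204000 : chkRangeFin cert 204000 2000 = true := by decide +kernel

set_option maxHeartbeats 0 in
theorem kFin_206000 : chkRangeFin cert 206000 2000 = true := by decide +kernel

set_option maxHeartbeats 0 in
theorem kFin_208000 : chkRangeFin cert 208000 2000 = true := by decide +kernel

set_option maxHeartbeats 0 in
theorem kFin_210000 : chkRangeFin cert 210000 2000 = true := by decide +kernel

set_option maxHeartbeats 0 in
theorem kFin_212000 : chkRangeFin cert 212000 2000 = true := by decide +kernel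

set_option maxHeartbeats 0 in
theorem kFin_214000 : chkRangeFin cert 214000 2000 = true := by decide +kernel

set_option maxHeartbeats 0 in
theorem kFin_216000 : chkRangeFin cert 216000 2000 = true := by decide +kernel

set_option maxHeartbeats 0 in
theorem kFin_218000 : chkRangeFin cert 218000 2000 = true := by decide +kernel

set_option maxHeartbeats 0 in
theorem kFin_220000 : chkRangeFin cert 220000 2000 = true := by decide +kernel

set_option maxHeartbeats 0 in
theorem kFin_222000 : chkRangeFin cert 222000 2000 = true := by decide +kernel

set_option maxHeartbeats 0 in
theorem kFin_224000 : chkRangeFin cert 224000 2000 = true := by decide +kernel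

end Cfsg.Agent.Helper17.TCD.Fi24A
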