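import Mathlib
import Cfsg.Agent.Helper17.TCD.Fi24A_Cert

set_option autoImplicit false

namespace Cfsg.Agent.Helper17.TCD.Fi24A

open Cfsg.Agent.Helper17.TC

set_option maxHeartbeats 0 in
theorem kFin_226000 : chkRangeFin cert 226000 2000 = true := by decide +kernel

set_option maxHeartbeats 0 in
theorem kFin_228000 : chkRangeFin cert 228000 2000 = true := by decide +kernel

set_option maxHeartbeats 0 in
theorem kFin_230000 : chkRangeFin cert 230000 2000 = true := by decide +kernel

set_option maxHeartbeats 0 in
theorem kFin_232000 : chkRangeFin cert 232000 2000 = true := by decide +kernel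

set_option maxHeartbeats 0 in
theorem kFin_234000 : chkRangeFin cert 234000 2000 = true := by decide +kernel

set_option maxHeartbeats 0 in
theorem kFin_236000 : chkRangeFin cert 236000 2000 = true := by decide +kernel

set_option maxHeartbeats 0 in
theorem kFin_238000 : chkRangeFin cert 238000 2000 = true := by decide +kernel

set_option maxHeartbeats 0 in
theorem kFin_240000 : chkRangeFin cert 240000 2000 = true := by decide +kernel

set_option maxHeartbeats 0 in
theorem kFin_242000 : chkRangeFin cert 242000 2000 = true := by decide +kernel

set_option maxHeartbeats 0 in
theorem kFin_244000 : chkRangeFin cert 244000 2000 = true := by decide +kernel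

set_option maxHeartbeats 0 in
theorem kFin_246000 : chkRangeFin cert 246000 2000 = true := by decide +kernel

set_option maxHeartbeats 0 in
theorem kFin_248000 : chkRangeFin cert 248000 2000 = true := by decide +kernel

set_option maxHeartbeats 0 in
theorem kFin_250000 : chkRangeFin cert 250000 2000 = true := by decide +kernel

set_option maxHeartbeats 0 in
theorem kFin_252000 : chkRangeFin cert 252000 2000 = true := by decide +kernel

set_option maxHeartbeats 0 in
theorem kFin_254000 : chkRangeFin cert 254000 2000 = true := by decide +kernel

set_option maxHeartbeats 0 in
theorem kFin_256000 : chkRangeFin cert 256000 2000 = true := by decide +kernel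

end Cfsg.Agent.Helper17.TCD.Fi24A
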