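import Mathlib
import Cfsg.Agent.Helper17.TCD.Fi24A_Cert

set_option autoImplicit false

namespace Cfsg.Agent.Helper17.TCD.Fi24A

open Cfsg.Agent.Helper17.TC

set_option maxHeartbeats 0 in
theorem kFin_258000 : chkRangeFin cert 258000 2000 = true := by decide +kernel

set_option maxHeartbeats 0 in
theorem kFin_260000 : chkRangeFin cert 260000 2000 = true := by decide +kernel

set_option maxHeartbeats 0 in
theorem kFin_262000 : chkRangeFin cert 262000 2000 = true := by decide +kernel

set_option maxHeartbeats 0 in
theorem kFin_264000 : chkRangeFin cert 264000 2000 = true := by decide +kernel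

set_option maxHeartbeats 0 in
theorem kFin_266000 : chkRangeFin cert 266000 2000 = true := by decide +kernel

set_option maxHeartbeats 0 in
theorem kFin_268000 : chkRangeFin cert 268000 2000 = true := by decide +kernel

set_option maxHeartbeats 0 in
theorem kFin_270000 : chkRangeFin cert 270000 2000 = true := by decide +kernel

set_option maxHeartbeats 0 in
theorem kFin_272000 : chkRangeFin cert 272000 2000 = true := by decide +kernel

set_option maxHeartbeats 0 in
theorem kFin_274000 : chkRangeFin cert 274000 2000 = true := by decide +kernel

set_option maxHeartbeats 0 in
theorem kFin_276000 : chkRangeFin cert 276000 2000 = true := by decide +kernel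

set_option maxHeartbeats 0 in
theorem kFin_278000 : chkRangeFin cert 278000 2000 = true := by decide +kernel

set_option maxHeartbeats 0 in
theorem kFin_280000 : chkRangeFin cert 280000 2000 = true := by decide +kernel

set_option maxHeartbeats 0 in
theorem kFin_282000 : chkRangeFin cert 282000 2000 = true := by decide +kernel

set_option maxHeartbeats 0 in
theorem kFin_284000 : chkRangeFin cert 284000 2000 = true := by decide +kernel

set_option maxHeartbeats 0 in
theorem kFin_286000 : chkRangeFin cert 286000 2000 = true := by decide +kernel

set_option maxHeartbeats 0 in
theorem kFin_288000 : chkRangeFin cert 288000 2000 = true := by decide +kernel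

end Cfsg.Agent.Helper17.TCD.Fi24A
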