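import Mathlib
import Cfsg.Agent.Helper17.TCD.Fi24A_Cert

set_option autoImplicit false

namespace Cfsg.Agent.Helper17.TCD.Fi24A

open Cfsg.Agent.Helper17.TC

set_option maxHeartbeats 0 in
theorem kFin_290000 : chkRangeFin cert 290000 2000 = true := by decide +kernel

set_option maxHeartbeats 0 in
theorem kFin_292000 : chkRangeFin cert 292000 2000 = true := by decide +kernel

set_option maxHeartbeats 0 in
theorem kFin_294000 : chkRangeFin cert 294000 2000 = true := by decide +kernel

set_option maxHeartbeats 0 in
theorem kFin_296000 : chkRangeFin cert 296000 2000 = true := by decide +kernel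

set_option maxHeartbeats 0 in
theorem kFin_298000 : chkRangeFin cert 298000 2000 = true := by decide +kernel

set_option maxHeartbeats 0 in
theorem kFin_300000 : chkRangeFin cert 300000 2000 = true := by decide +kernel

set_option maxHeartbeats 0 in
theorem kFin_302000 : chkRangeFin cert 302000 2000 = true := by decide +kernel

set_option maxHeartbeats 0 in
theorem kFin_304000 : chkRangeFin cert 304000 2000 = true := by decide +kernel

set_option maxHeartbeats 0 in
theorem kFin_306000 : chkRangeFin cert 306000 936 = true := by decide +kernel

end Cfsg.Agent.Helper17.TCD.Fi24A
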