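import Mathlib
import Cfsg.Agent.Helper17.TCD.Fi24A_Cert

set_option autoImplicit false

namespace Cfsg.Agent.Helper17.TCD.Fi24A

open Cfsg.Agent.Helper17.TC

set_option maxHeartbeats 0 in
theorem kT_243870 : chkRangeT cert 243870 951 = true := by decide +kernel

set_option maxHeartbeats 0 in
theorem kT_244821 : chkRangeT cert 244821 1097 = true := by decide +kernel

set_option maxHeartbeats 0 in
theorem kT_245918 : chkRangeT cert 245918 1132 = true := by decide +kernel

set_option maxHeartbeats 0 in
theorem kT_247050 : chkRangeT cert 247050 1213 = true := by decide +kernel

set_option maxHeartbeats 0 in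
theorem kT_248263 : chkRangeT cert 248263 1045 = true := by decide +kernel

set_option maxHeartbeats 0 in
theorem kT_249308 : chkRangeT cert 249308 1232 = true := by decide +kernel

set_option maxHeartbeats 0 in
theorem kT_250540 : chkRangeT cert 250540 1031 = true := by decide +kernel

set_option maxHeartbeats 0 in
theorem kT_251571 : chkRangeT cert 251571 1149 = true := by decide +kernel

set_option maxHeartbeats 0 in
theorem kT_252720 : chkRangeT cert 252720 1064 = true := by decide +kernel

set_option maxHeartbeats 0 in
theorem kT_253784 : chkRangeT cert 253784 878 = true := by decide +kernel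

set_option maxHeartbeats 0 in
theorem kT_254662 : chkRangeT cert 254662 1053 = true := by decide +kernel

set_option maxHeartbeats 0 in
theorem kT_255715 : chkRangeT cert 255715 996 = true := by decide +kernel

set_option maxHeartbeats 0 in
theorem kT_256711 : chkRangeT cert 256711 983 = true := by decide +kernel

set_option maxHeartbeats 0 in
theorem kT_257694 : chkRangeT cert 257694 832 = true := by decide +kernel

set_option maxHeartbeats 0 in
theorem kT_258526 : chkRangeT cert 258526 1053 = true := by decide +kernel

set_option maxHeartbeats 0 in
theorem kT_259579 : chkRangeT cert 259579 802 = true := by decide +kernel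

end Cfsg.Agent.Helper17.TCD.Fi24A
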