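import Mathlib
import Cfsg.Agent.Helper17.TCD.Fi24A_Cert

set_option autoImplicit false

namespace Cfsg.Agent.Helper17.TCD.Fi24A

open Cfsg.Agent.Helper17.TC

set_option maxHeartbeats 0 in
theorem kT_260381 : chkRangeT cert 260381 851 = true := by decide +kernel

set_option maxHeartbeats 0 in
theorem kT_261232 : chkRangeT cert 261232 1055 = true := by decide +kernel

set_option maxHeartbeats 0 in
theorem kT_262287 : chkRangeT cert 262287 987 = true := by decide +kernel

set_option maxHeartbeats 0 in
theorem kT_263274 : chkRangeT cert 263274 975 = true := by decide +kernel

set_option maxHeartbeats 0 in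
theorem kT_264249 : chkRangeT cert 264249 747 = true := by decide +kernel

set_option maxHeartbeats 0 in
theorem kT_264996 : chkRangeT cert 264996 645 = true := by decide +kernel

set_option maxHeartbeats 0 in
theorem kT_265641 : chkRangeT cert 265641 683 = true := by decide +kernel

set_option maxHeartbeats 0 in
theorem kT_266324 : chkRangeT cert 266324 802 = true := by decide +kernel

set_option maxHeartbeats 0 in
theorem kT_267126 : chkRangeT cert 267126 928 = true := by decide +kernel

set_option maxHeartbeats 0 in
theorem kT_268054 : chkRangeT cert 268054 990 = true := by decide +kernel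

set_option maxHeartbeats 0 in
theorem kT_269044 : chkRangeT cert 269044 1113 = true := by decide +kernel

set_option maxHeartbeats 0 in
theorem kT_270157 : chkRangeT cert 270157 805 = true := by decide +kernel

set_option maxHeartbeats 0 in
theorem kT_270962 : chkRangeT cert 270962 1060 = true := by decide +kernel

set_option maxHeartbeats 0 in
theorem kT_272022 : chkRangeT cert 272022 951 = true := by decide +kernel

set_option maxHeartbeats 0 in
theorem kT_272973 : chkRangeT cert 272973 903 = true := by decide +kernel

set_option maxHeartbeats 0 in
theorem kT_273876 : chkRangeT cert 273876 868 = true := by decide +kernel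

end Cfsg.Agent.Helper17.TCD.Fi24A
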