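import Mathlib
import Cfsg.Agent.Helper17.TCD.Fi24A_Cert

set_option autoImplicit false

namespace Cfsg.Agent.Helper17.TCD.Fi24A

open Cfsg.Agent.Helper17.TC

set_option maxHeartbeats 0 in
theorem kT_274744 : chkRangeT cert 274744 735 = true := by decide +kernel

set_option maxHeartbeats 0 in
theorem kT_275479 : chkRangeT cert 275479 824 = true := by decide +kernel

set_option maxHeartbeats 0 in
theorem kT_276303 : chkRangeT cert 276303 790 = true := by decide +kernel

set_option maxHeartbeats 0 in
theorem kT_277093 : chkRangeT cert 277093 849 = true := by decide +kernel

set_option maxHeartbeats 0 in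
theorem kT_277942 : chkRangeT cert 277942 710 = true := by decide +kernel

set_option maxHeartbeats 0 in
theorem kT_278652 : chkRangeT cert 278652 766 = true := by decide +kernel

set_option maxHeartbeats 0 in
theorem kT_279418 : chkRangeT cert 279418 679 = true := by decide +kernel

set_option maxHeartbeats 0 in
theorem kT_280097 : chkRangeT cert 280097 801 = true := by decide +kernel

set_option maxHeartbeats 0 in
theorem kT_280898 : chkRangeT cert 280898 740 = true := by decide +kernel

set_option maxHeartbeats 0 in
theorem kT_281638 : chkRangeT cert 281638 760 = true := by decide +kernel

set_option maxHeartbeats 0 in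
theorem kT_282398 : chkRangeT cert 282398 637 = true := by decide +kernel

set_option maxHeartbeats 0 in
theorem kT_283035 : chkRangeT cert 283035 530 = true := by decide +kernel

set_option maxHeartbeats 0 in
theorem kT_283565 : chkRangeT cert 283565 572 = true := by decide +kernel

set_option maxHeartbeats 0 in
theorem kT_284137 : chkRangeT cert 284137 698 = true := by decide +kernel

set_option maxHeartbeats 0 in
theorem kT_284835 : chkRangeT cert 284835 812 = true := by decide +kernel

set_option maxHeartbeats 0 in
theorem kT_285647 : chkRangeT cert 285647 836 = true := by decide +kernel

end Cfsg.Agent.Helper17.TCD.Fi24A
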