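import Mathlib
import Cfsg.Agent.Helper17.TCD.Fi24A_Cert

set_option autoImplicit false

namespace Cfsg.Agent.Helper17.TCD.Fi24A

open Cfsg.Agent.Helper17.TC

set_option maxHeartbeats 0 in
theorem kT_286483 : chkRangeT cert 286483 743 = true := by decide +kernel

set_option maxHeartbeats 0 in
theorem kT_287226 : chkRangeT cert 287226 739 = true := by decide +kernel

set_option maxHeartbeats 0 in
theorem kT_287965 : chkRangeT cert 287965 721 = true := by decide +kernel

set_option maxHeartbeats 0 in
theorem kT_288686 : chkRangeT cert 288686 703 = true := by decide +kernel

set_option maxHeartbeats 0 in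
theorem kT_289389 : chkRangeT cert 289389 672 = true := by decide +kernel

set_option maxHeartbeats 0 in
theorem kT_290061 : chkRangeT cert 290061 675 = true := by decide +kernel

set_option maxHeartbeats 0 in
theorem kT_290736 : chkRangeT cert 290736 749 = true := by decide +kernel

set_option maxHeartbeats 0 in
theorem kT_291485 : chkRangeT cert 291485 553 = true := by decide +kernel

set_option maxHeartbeats 0 in
theorem kT_292038 : chkRangeT cert 292038 598 = true := by decide +kernel

set_option maxHeartbeats 0 in
theorem kT_292636 : chkRangeT cert 292636 477 = true := by decide +kernel

set_option maxHeartbeats 0 in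
theorem kT_293113 : chkRangeT cert 293113 498 = true := by decide +kernel

set_option maxHeartbeats 0 in
theorem kT_293611 : chkRangeT cert 293611 591 = true := by decide +kernel

set_option maxHeartbeats 0 in
theorem kT_294202 : chkRangeT cert 294202 522 = true := by decide +kernel

set_option maxHeartbeats 0 in
theorem kT_294724 : chkRangeT cert 294724 380 = true := by decide +kernel

set_option maxHeartbeats 0 in
theorem kT_295104 : chkRangeT cert 295104 453 = true := by decide +kernel

set_option maxHeartbeats 0 in
theorem kT_295557 : chkRangeT cert 295557 643 = true := by decide +kernel

end Cfsg.Agent.Helper17.TCD.Fi24A
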