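import Mathlib
import Cfsg.Agent.Helper17.TCD.Fi24A_Cert

set_option autoImplicit false

namespace Cfsg.Agent.Helper17.TCD.Fi24A

open Cfsg.Agent.Helper17.TC

set_option maxHeartbeats 0 in
theorem kT_296200 : chkRangeT cert 296200 595 = true := by decide +kernel

set_option maxHeartbeats 0 in
theorem kT_296795 : chkRangeT cert 296795 638 = true := by decide +kernel

set_option maxHeartbeats 0 in
theorem kT_297433 : chkRangeT cert 297433 526 = true := by decide +kernel

set_option maxHeartbeats 0 in
theorem kT_297959 : chkRangeT cert 297959 536 = true := by decide +kernel

set_option maxHeartbeats 0 in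
theorem kT_298495 : chkRangeT cert 298495 536 = true := by decide +kernel

set_option maxHeartbeats 0 in
theorem kT_299031 : chkRangeT cert 299031 492 = true := by decide +kernel

set_option maxHeartbeats 0 in
theorem kT_299523 : chkRangeT cert 299523 542 = true := by decide +kernel

set_option maxHeartbeats 0 in
theorem kT_300065 : chkRangeT cert 300065 464 = true := by decide +kernel

set_option maxHeartbeats 0 in
theorem kT_300529 : chkRangeT cert 300529 352 = true := by decide +kernel

set_option maxHeartbeats 0 in
theorem kT_300881 : chkRangeT cert 300881 454 = true := by decide +kernel

set_option maxHeartbeats 0 in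
theorem kT_301335 : chkRangeT cert 301335 379 = true := by decide +kernel

set_option maxHeartbeats 0 in
theorem kT_301714 : chkRangeT cert 301714 448 = true := by decide +kernel

set_option maxHeartbeats 0 in
theorem kT_302162 : chkRangeT cert 302162 595 = true := by decide +kernel

set_option maxHeartbeats 0 in
theorem kT_302757 : chkRangeT cert 302757 400 = true := by decide +kernel

set_option maxHeartbeats 0 in
theorem kT_303157 : chkRangeT cert 303157 384 = true := by decide +kernel

set_option maxHeartbeats 0 in
theorem kT_303541 : chkRangeT cert 303541 397 = true := by decide +kernel

end Cfsg.Agent.Helper17.TCD.Fi24A
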