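import Mathlib
import Cfsg.Agent.Helper17.TCD.Fi24A_Cert

set_option autoImplicit false

namespace Cfsg.Agent.Helper17.TCD.Fi24A

open Cfsg.Agent.Helper17.TC

set_option maxHeartbeats 0 in
theorem kT_303938 : chkRangeT cert 303938 416 = true := by decide +kernel

set_option maxHeartbeats 0 in
theorem kT_304354 : chkRangeT cert 304354 363 = true := by decide +kernel

set_option maxHeartbeats 0 in
theorem kT_304717 : chkRangeT cert 304717 343 = true := by decide +kernel

set_option maxHeartbeats 0 in
theorem kT_305060 : chkRangeT cert 305060 461 = true := by decide +kernel

set_option maxHeartbeats 0 in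
theorem kT_305521 : chkRangeT cert 305521 338 = true := by decide +kernel

set_option maxHeartbeats 0 in
theorem kT_305859 : chkRangeT cert 305859 305 = true := by decide +kernel

set_option maxHeartbeats 0 in
theorem kT_306164 : chkRangeT cert 306164 345 = true := by decide +kernel

set_option maxHeartbeats 0 in
theorem kT_306509 : chkRangeT cert 306509 284 = true := by decide +kernel

set_option maxHeartbeats 0 in
theorem kT_306793 : chkRangeT cert 306793 1678 = true := by decide +kernel

set_option maxHeartbeats 0 in
theorem kT_308471 : chkRangeT cert 308471 2000 = true := by decide +kernel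

set_option maxHeartbeats 0 in
theorem kT_310471 : chkRangeT cert 310471 2000 = true := by decide +kernel

set_option maxHeartbeats 0 in
theorem kT_312471 : chkRangeT cert 312471 2000 = true := by decide +kernel

set_option maxHeartbeats 0 in
theorem kT_314471 : chkRangeT cert 314471 2000 = true := by decide +kernel

set_option maxHeartbeats 0 in
theorem kT_316471 : chkRangeT cert 316471 2000 = true := by decide +kernel

set_option maxHeartbeats 0 in
theorem kT_318471 : chkRangeT cert 318471 2000 = true := by decide +kernel

set_option maxHeartbeats 0 in
theorem kT_320471 : chkRangeT cert 320471 2000 = true := by decide +kernel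

end Cfsg.Agent.Helper17.TCD.Fi24A
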