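import Mathlib
import Cfsg.Agent.Helper17.TCD.Fi24A_Cert

set_option autoImplicit false

namespace Cfsg.Agent.Helper17.TCD.Fi24A

open Cfsg.Agent.Helper17.TC

set_option maxHeartbeats 0 in
theorem kT_322471 : chkRangeT cert 322471 2000 = true := by decide +kernel

set_option maxHeartbeats 0 in
theorem kT_324471 : chkRangeT cert 324471 2000 = true := by decide +kernel

set_option maxHeartbeats 0 in
theorem kT_326471 : chkRangeT cert 326471 2000 = true := by decide +kernel

set_option maxHeartbeats 0 in
theorem kT_328471 : chkRangeT cert 328471 2000 = true := by decide +kernel

set_option maxHeartbeats 0 in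
theorem kT_330471 : chkRangeT cert 330471 2000 = true := by decide +kernel

set_option maxHeartbeats 0 in
theorem kT_332471 : chkRangeT cert 332471 2000 = true := by decide +kernel

set_option maxHeartbeats 0 in
theorem kT_334471 : chkRangeT cert 334471 2000 = true := by decide +kernel

set_option maxHeartbeats 0 in
theorem kT_336471 : chkRangeT cert 336471 2000 = true := by decide +kernel

set_option maxHeartbeats 0 in
theorem kT_338471 : chkRangeT cert 338471 2000 = true := by decide +kernel

set_option maxHeartbeats 0 in
theorem kT_340471 : chkRangeT cert 340471 2000 = true := by decide +kernel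

set_option maxHeartbeats 0 in
theorem kT_342471 : chkRangeT cert 342471 2000 = true := by decide +kernel

set_option maxHeartbeats 0 in
theorem kT_344471 : chkRangeT cert 344471 2000 = true := by decide +kernel

set_option maxHeartbeats 0 in
theorem kT_346471 : chkRangeT cert 346471 2000 = true := by decide +kernel

set_option maxHeartbeats 0 in
theorem kT_348471 : chkRangeT cert 348471 2000 = true := by decide +kernel

set_option maxHeartbeats 0 in
theorem kT_350471 : chkRangeT cert 350471 2000 = true := by decide +kernel

set_option maxHeartbeats 0 in
theorem kT_352471 : chkRangeT cert 352471 2000 = true := by decide +kernel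

end Cfsg.Agent.Helper17.TCD.Fi24A
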