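import Mathlib
import Cfsg.Agent.Helper17.TCD.Fi24A_Cert

set_option autoImplicit false

namespace Cfsg.Agent.Helper17.TCD.Fi24A

open Cfsg.Agent.Helper17.TC

set_option maxHeartbeats 0 in
theorem kT_354471 : chkRangeT cert 354471 2000 = true := by decide +kernel

set_option maxHeartbeats 0 in
theorem kT_356471 : chkRangeT cert 356471 2000 = true := by decide +kernel

set_option maxHeartbeats 0 in
theorem kT_358471 : chkRangeT cert 358471 2000 = true := by decide +kernel

set_option maxHeartbeats 0 in
theorem kT_360471 : chkRangeT cert 360471 2000 = true := by decide +kernel

set_option maxHeartbeats 0 in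
theorem kT_362471 : chkRangeT cert 362471 2000 = true := by decide +kernel

set_option maxHeartbeats 0 in
theorem kT_364471 : chkRangeT cert 364471 2000 = true := by decide +kernel

set_option maxHeartbeats 0 in
theorem kT_366471 : chkRangeT cert 366471 2000 = true := by decide +kernel

set_option maxHeartbeats 0 in
theorem kT_368471 : chkRangeT cert 368471 2000 = true := by decide +kernel

set_option maxHeartbeats 0 in
theorem kT_370471 : chkRangeT cert 370471 2000 = true := by decide +kernel

set_option maxHeartbeats 0 in
theorem kT_372471 : chkRangeT cert 372471 2000 = true := by decide +kernel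

set_option maxHeartbeats 0 in
theorem kT_374471 : chkRangeT cert 374471 2000 = true := by decide +kernel

set_option maxHeartbeats 0 in
theorem kT_376471 : chkRangeT cert 376471 2000 = true := by decide +kernel

set_option maxHeartbeats 0 in
theorem kT_378471 : chkRangeT cert 378471 2000 = true := by decide +kernel

set_option maxHeartbeats 0 in
theorem kT_380471 : chkRangeT cert 380471 2000 = true := by decide +kernel

set_option maxHeartbeats 0 in
theorem kT_382471 : chkRangeT cert 382471 2000 = true := by decide +kernel

set_option maxHeartbeats 0 in
theorem kT_384471 : chkRangeT cert 384471 2000 = true := by decide +kernel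

end Cfsg.Agent.Helper17.TCD.Fi24A
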