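import Mathlib
import Cfsg.Agent.Helper17.TCD.Fi24A_Cert

set_option autoImplicit false

namespace Cfsg.Agent.Helper17.TCD.Fi24A

open Cfsg.Agent.Helper17.TC

set_option maxHeartbeats 0 in
theorem kT_42011 : chkRangeT cert 42011 1340 = true := by decide +kernel

set_option maxHeartbeats 0 in
theorem kT_43351 : chkRangeT cert 43351 1315 = true := by decide +kernel

set_option maxHeartbeats 0 in
theorem kT_44666 : chkRangeT cert 44666 1241 = true := by decide +kernel

set_option maxHeartbeats 0 in
theorem kT_45907 : chkRangeT cert 45907 1290 = true := by decide +kernel

set_option maxHeartbeats 0 in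
theorem kT_47197 : chkRangeT cert 47197 1375 = true := by decide +kernel

set_option maxHeartbeats 0 in
theorem kT_48572 : chkRangeT cert 48572 1455 = true := by decide +kernel

set_option maxHeartbeats 0 in
theorem kT_50027 : chkRangeT cert 50027 1332 = true := by decide +kernel

set_option maxHeartbeats 0 in
theorem kT_51359 : chkRangeT cert 51359 1320 = true := by decide +kernel

set_option maxHeartbeats 0 in
theorem kT_52679 : chkRangeT cert 52679 1325 = true := by decide +kernel

set_option maxHeartbeats 0 in
theorem kT_54004 : chkRangeT cert 54004 1387 = true := by decide +kernel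

set_option maxHeartbeats 0 in
theorem kT_55391 : chkRangeT cert 55391 1267 = true := by decide +kernel

set_option maxHeartbeats 0 in
theorem kT_56658 : chkRangeT cert 56658 1197 = true := by decide +kernel

set_option maxHeartbeats 0 in
theorem kT_57855 : chkRangeT cert 57855 1324 = true := by decide +kernel

set_option maxHeartbeats 0 in
theorem kT_59179 : chkRangeT cert 59179 1373 = true := by decide +kernel

set_option maxHeartbeats 0 in
theorem kT_60552 : chkRangeT cert 60552 1418 = true := by decide +kernel

set_option maxHeartbeats 0 in
theorem kT_61970 : chkRangeT cert 61970 1428 = true := by decide +kernel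

end Cfsg.Agent.Helper17.TCD.Fi24A
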