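import Mathlib
import Cfsg.Agent.Helper17.TCD.Fi24A_Cert

set_option autoImplicit false

namespace Cfsg.Agent.Helper17.TCD.Fi24A

open Cfsg.Agent.Helper17.TC

set_option maxHeartbeats 0 in
theorem kT_386471 : chkRangeT cert 386471 2000 = true := by decide +kernel

set_option maxHeartbeats 0 in
theorem kT_388471 : chkRangeT cert 388471 2000 = true := by decide +kernel

set_option maxHeartbeats 0 in
theorem kT_390471 : chkRangeT cert 390471 2000 = true := by decide +kernel

set_option maxHeartbeats 0 in
theorem kT_392471 : chkRangeT cert 392471 2000 = true := by decide +kernel

set_option maxHeartbeats 0 in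
theorem kT_394471 : chkRangeT cert 394471 2000 = true := by decide +kernel

set_option maxHeartbeats 0 in
theorem kT_396471 : chkRangeT cert 396471 2000 = true := by decide +kernel

set_option maxHeartbeats 0 in
theorem kT_398471 : chkRangeT cert 398471 2000 = true := by decide +kernel

set_option maxHeartbeats 0 in
theorem kT_400471 : chkRangeT cert 400471 2000 = true := by decide +kernel

set_option maxHeartbeats 0 in
theorem kT_402471 : chkRangeT cert 402471 2000 = true := by decide +kernel

set_option maxHeartbeats 0 in
theorem kT_404471 : chkRangeT cert 404471 2000 = true := by decide +kernel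

set_option maxHeartbeats 0 in
theorem kT_406471 : chkRangeT cert 406471 2000 = true := by decide +kernel

set_option maxHeartbeats 0 in
theorem kT_408471 : chkRangeT cert 408471 2000 = true := by decide +kernel

set_option maxHeartbeats 0 in
theorem kT_410471 : chkRangeT cert 410471 2000 = true := by decide +kernel

set_option maxHeartbeats 0 in
theorem kT_412471 : chkRangeT cert 412471 2000 = true := by decide +kernel

set_option maxHeartbeats 0 in
theorem kT_414471 : chkRangeT cert 414471 2000 = true := by decide +kernel

set_option maxHeartbeats 0 in
theorem kT_416471 : chkRangeT cert 416471 2000 = true := by decide +kernel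

end Cfsg.Agent.Helper17.TCD.Fi24A
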