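import Mathlib
import Cfsg.Agent.Helper17.TCD.Fi24A_Cert

set_option autoImplicit false

namespace Cfsg.Agent.Helper17.TCD.Fi24A

open Cfsg.Agent.Helper17.TC

set_option maxHeartbeats 0 in
theorem kT_418471 : chkRangeT cert 418471 2000 = true := by decide +kernel

set_option maxHeartbeats 0 in
theorem kT_420471 : chkRangeT cert 420471 2000 = true := by decide +kernel

set_option maxHeartbeats 0 in
theorem kT_422471 : chkRangeT cert 422471 2000 = true := by decide +kernel

set_option maxHeartbeats 0 in
theorem kT_424471 : chkRangeT cert 424471 2000 = true := by decide +kernel

set_option maxHeartbeats 0 in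
theorem kT_426471 : chkRangeT cert 426471 2000 = true := by decide +kernel

set_option maxHeartbeats 0 in
theorem kT_428471 : chkRangeT cert 428471 2000 = true := by decide +kernel

set_option maxHeartbeats 0 in
theorem kT_430471 : chkRangeT cert 430471 2000 = true := by decide +kernel

set_option maxHeartbeats 0 in
theorem kT_432471 : chkRangeT cert 432471 2000 = true := by decide +kernel

set_option maxHeartbeats 0 in
theorem kT_434471 : chkRangeT cert 434471 2000 = true := by decide +kernel

set_option maxHeartbeats 0 in
theorem kT_436471 : chkRangeT cert 436471 2000 = true := by decide +kernel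

set_option maxHeartbeats 0 in
theorem kT_438471 : chkRangeT cert 438471 2000 = true := by decide +kernel

set_option maxHeartbeats 0 in
theorem kT_440471 : chkRangeT cert 440471 2000 = true := by decide +kernel

set_option maxHeartbeats 0 in
theorem kT_442471 : chkRangeT cert 442471 2000 = true := by decide +kernel

set_option maxHeartbeats 0 in
theorem kT_444471 : chkRangeT cert 444471 2000 = true := by decide +kernel

set_option maxHeartbeats 0 in
theorem kT_446471 : chkRangeT cert 446471 2000 = true := by decide +kernel

set_option maxHeartbeats 0 in
theorem kT_448471 : chkRangeT cert 448471 2000 = true := by decide +kernel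

end Cfsg.Agent.Helper17.TCD.Fi24A
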