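import Mathlib
import Cfsg.Agent.Helper17.TCD.Fi24A_Cert

set_option autoImplicit false

namespace Cfsg.Agent.Helper17.TCD.Fi24A

open Cfsg.Agent.Helper17.TC

set_option maxHeartbeats 0 in
theorem kT_450471 : chkRangeT cert 450471 2000 = true := by decide +kernel

set_option maxHeartbeats 0 in
theorem kT_452471 : chkRangeT cert 452471 2000 = true := by decide +kernel

set_option maxHeartbeats 0 in
theorem kT_454471 : chkRangeT cert 454471 2000 = true := by decide +kernel

set_option maxHeartbeats 0 in
theorem kT_456471 : chkRangeT cert 456471 2000 = true := by decide +kernel

set_option maxHeartbeats 0 in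
theorem kT_458471 : chkRangeT cert 458471 2000 = true := by decide +kernel

set_option maxHeartbeats 0 in
theorem kT_460471 : chkRangeT cert 460471 2000 = true := by decide +kernel

set_option maxHeartbeats 0 in
theorem kT_462471 : chkRangeT cert 462471 2000 = true := by decide +kernel

set_option maxHeartbeats 0 in
theorem kT_464471 : chkRangeT cert 464471 1981 = true := by decide +kernel

set_option maxHeartbeats 0 in
theorem kF_0 : chkRangeF cert 0 230 = true := by decide +kernel

set_option maxHeartbeats 0 in
theorem kF_230 : chkRangeF cert 230 230 = true := by decide +kernel

set_option maxHeartbeats 0 in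
theorem kF_460 : chkRangeF cert 460 230 = true := by decide +kernel

set_option maxHeartbeats 0 in
theorem kF_690 : chkRangeF cert 690 230 = true := by decide +kernel

set_option maxHeartbeats 0 in
theorem kF_920 : chkRangeF cert 920 230 = true := by decide +kernel

set_option maxHeartbeats 0 in
theorem kF_1150 : chkRangeF cert 1150 230 = true := by decide +kernel

set_option maxHeartbeats 0 in
theorem kF_1380 : chkRangeF cert 1380 230 = true := by decide +kernel

set_option maxHeartbeats 0 in
theorem kF_1610 : chkRangeF cert 1610 230 = true := by decide +kernel

end Cfsg.Agent.Helper17.TCD.Fi24A
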