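import Mathlib
import Cfsg.Agent.Helper17.TCD.Fi24A_Cert

set_option autoImplicit false

namespace Cfsg.Agent.Helper17.TCD.Fi24A

open Cfsg.Agent.Helper17.TC

set_option maxHeartbeats 0 in
theorem kF_1840 : chkRangeF cert 1840 230 = true := by decide +kernel

set_option maxHeartbeats 0 in
theorem kF_2070 : chkRangeF cert 2070 230 = true := by decide +kernel

set_option maxHeartbeats 0 in
theorem kF_2300 : chkRangeF cert 2300 230 = true := by decide +kernel

set_option maxHeartbeats 0 in
theorem kF_2530 : chkRangeF cert 2530 230 = true := by decide +kernel

set_option maxHeartbeats 0 in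
theorem kF_2760 : chkRangeF cert 2760 230 = true := by decide +kernel

set_option maxHeartbeats 0 in
theorem kF_2990 : chkRangeF cert 2990 230 = true := by decide +kernel

set_option maxHeartbeats 0 in
theorem kF_3220 : chkRangeF cert 3220 230 = true := by decide +kernel

set_option maxHeartbeats 0 in
theorem kF_3450 : chkRangeF cert 3450 230 = true := by decide +kernel

set_option maxHeartbeats 0 in
theorem kF_3680 : chkRangeF cert 3680 230 = true := by decide +kernel

set_option maxHeartbeats 0 in
theorem kF_3910 : chkRangeF cert 3910 230 = true := by decide +kernel

set_option maxHeartbeats 0 in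
theorem kF_4140 : chkRangeF cert 4140 230 = true := by decide +kernel

set_option maxHeartbeats 0 in
theorem kF_4370 : chkRangeF cert 4370 230 = true := by decide +kernel

set_option maxHeartbeats 0 in
theorem kF_4600 : chkRangeF cert 4600 230 = true := by decide +kernel

set_option maxHeartbeats 0 in
theorem kF_4830 : chkRangeF cert 4830 230 = true := by decide +kernel

set_option maxHeartbeats 0 in
theorem kF_5060 : chkRangeF cert 5060 230 = true := by decide +kernel

set_option maxHeartbeats 0 in
theorem kF_5290 : chkRangeF cert 5290 230 = true := by decide +kernel

end Cfsg.Agent.Helper17.TCD.Fi24A
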