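import Mathlib
import Cfsg.Agent.Helper17.TCD.Fi24A_Cert

set_option autoImplicit false

namespace Cfsg.Agent.Helper17.TCD.Fi24A

open Cfsg.Agent.Helper17.TC

set_option maxHeartbeats 0 in
theorem kF_5520 : chkRangeF cert 5520 230 = true := by decide +kernel

set_option maxHeartbeats 0 in
theorem kF_5750 : chkRangeF cert 5750 230 = true := by decide +kernel

set_option maxHeartbeats 0 in
theorem kF_5980 : chkRangeF cert 5980 230 = true := by decide +kernel

set_option maxHeartbeats 0 in
theorem kF_6210 : chkRangeF cert 6210 230 = true := by decide +kernel

set_option maxHeartbeats 0 in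
theorem kF_6440 : chkRangeF cert 6440 230 = true := by decide +kernel

set_option maxHeartbeats 0 in
theorem kF_6670 : chkRangeF cert 6670 230 = true := by decide +kernel

set_option maxHeartbeats 0 in
theorem kF_6900 : chkRangeF cert 6900 230 = true := by decide +kernel

set_option maxHeartbeats 0 in
theorem kF_7130 : chkRangeF cert 7130 230 = true := by decide +kernel

set_option maxHeartbeats 0 in
theorem kF_7360 : chkRangeF cert 7360 230 = true := by decide +kernel

set_option maxHeartbeats 0 in
theorem kF_7590 : chkRangeF cert 7590 230 = true := by decide +kernel

set_option maxHeartbeats 0 in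
theorem kF_7820 : chkRangeF cert 7820 230 = true := by decide +kernel

set_option maxHeartbeats 0 in
theorem kF_8050 : chkRangeF cert 8050 230 = true := by decide +kernel

set_option maxHeartbeats 0 in
theorem kF_8280 : chkRangeF cert 8280 230 = true := by decide +kernel

set_option maxHeartbeats 0 in
theorem kF_8510 : chkRangeF cert 8510 230 = true := by decide +kernel

set_option maxHeartbeats 0 in
theorem kF_8740 : chkRangeF cert 8740 230 = true := by decide +kernel

set_option maxHeartbeats 0 in
theorem kF_8970 : chkRangeF cert 8970 230 = true := by decide +kernel

end Cfsg.Agent.Helper17.TCD.Fi24A
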