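import Mathlib
import Cfsg.Agent.Helper17.TCD.Fi24A_Cert

set_option autoImplicit false

namespace Cfsg.Agent.Helper17.TCD.Fi24A

open Cfsg.Agent.Helper17.TC

set_option maxHeartbeats 0 in
theorem kF_9200 : chkRangeF cert 9200 230 = true := by decide +kernel

set_option maxHeartbeats 0 in
theorem kF_9430 : chkRangeF cert 9430 230 = true := by decide +kernel

set_option maxHeartbeats 0 in
theorem kF_9660 : chkRangeF cert 9660 230 = true := by decide +kernel

set_option maxHeartbeats 0 in
theorem kF_9890 : chkRangeF cert 9890 230 = true := by decide +kernel

set_option maxHeartbeats 0 in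
theorem kF_10120 : chkRangeF cert 10120 230 = true := by decide +kernel

set_option maxHeartbeats 0 in
theorem kF_10350 : chkRangeF cert 10350 230 = true := by decide +kernel

set_option maxHeartbeats 0 in
theorem kF_10580 : chkRangeF cert 10580 230 = true := by decide +kernel

set_option maxHeartbeats 0 in
theorem kF_10810 : chkRangeF cert 10810 230 = true := by decide +kernel

set_option maxHeartbeats 0 in
theorem kF_11040 : chkRangeF cert 11040 230 = true := by decide +kernel

set_option maxHeartbeats 0 in
theorem kF_11270 : chkRangeF cert 11270 230 = true := by decide +kernel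

set_option maxHeartbeats 0 in
theorem kF_11500 : chkRangeF cert 11500 230 = true := by decide +kernel

set_option maxHeartbeats 0 in
theorem kF_11730 : chkRangeF cert 11730 230 = true := by decide +kernel

set_option maxHeartbeats 0 in
theorem kF_11960 : chkRangeF cert 11960 230 = true := by decide +kernel

set_option maxHeartbeats 0 in
theorem kF_12190 : chkRangeF cert 12190 230 = true := by decide +kernel

set_option maxHeartbeats 0 in
theorem kF_12420 : chkRangeF cert 12420 230 = true := by decide +kernel

set_option maxHeartbeats 0 in
theorem kF_12650 : chkRangeF cert 12650 230 = true := by decide +kernel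

end Cfsg.Agent.Helper17.TCD.Fi24A
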