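import Mathlib
import Cfsg.Agent.Helper17.TCD.Fi24A_Cert

set_option autoImplicit false

namespace Cfsg.Agent.Helper17.TCD.Fi24A

open Cfsg.Agent.Helper17.TC

set_option maxHeartbeats 0 in
theorem kF_12880 : chkRangeF cert 12880 230 = true := by decide +kernel

set_option maxHeartbeats 0 in
theorem kF_13110 : chkRangeF cert 13110 230 = true := by decide +kernel

set_option maxHeartbeats 0 in
theorem kF_13340 : chkRangeF cert 13340 230 = true := by decide +kernel

set_option maxHeartbeats 0 in
theorem kF_13570 : chkRangeF cert 13570 230 = true := by decide +kernel

set_option maxHeartbeats 0 in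
theorem kF_13800 : chkRangeF cert 13800 230 = true := by decide +kernel

set_option maxHeartbeats 0 in
theorem kF_14030 : chkRangeF cert 14030 230 = true := by decide +kernel

set_option maxHeartbeats 0 in
theorem kF_14260 : chkRangeF cert 14260 230 = true := by decide +kernel

set_option maxHeartbeats 0 in
theorem kF_14490 : chkRangeF cert 14490 230 = true := by decide +kernel

set_option maxHeartbeats 0 in
theorem kF_14720 : chkRangeF cert 14720 230 = true := by decide +kernel

set_option maxHeartbeats 0 in
theorem kF_14950 : chkRangeF cert 14950 230 = true := by decide +kernel

set_option maxHeartbeats 0 in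
theorem kF_15180 : chkRangeF cert 15180 230 = true := by decide +kernel

set_option maxHeartbeats 0 in
theorem kF_15410 : chkRangeF cert 15410 230 = true := by decide +kernel

set_option maxHeartbeats 0 in
theorem kF_15640 : chkRangeF cert 15640 230 = true := by decide +kernel

set_option maxHeartbeats 0 in
theorem kF_15870 : chkRangeF cert 15870 230 = true := by decide +kernel

set_option maxHeartbeats 0 in
theorem kF_16100 : chkRangeF cert 16100 230 = true := by decide +kernel

set_option maxHeartbeats 0 in
theorem kF_16330 : chkRangeF cert 16330 230 = true := by decide +kernel

end Cfsg.Agent.Helper17.TCD.Fi24A
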