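import Mathlib
import Cfsg.Agent.Helper17.TCD.Fi24A_Cert

set_option autoImplicit false

namespace Cfsg.Agent.Helper17.TCD.Fi24A

open Cfsg.Agent.Helper17.TC

set_option maxHeartbeats 0 in
theorem kF_16560 : chkRangeF cert 16560 230 = true := by decide +kernel

set_option maxHeartbeats 0 in
theorem kF_16790 : chkRangeF cert 16790 230 = true := by decide +kernel

set_option maxHeartbeats 0 in
theorem kF_17020 : chkRangeF cert 17020 230 = true := by decide +kernel

set_option maxHeartbeats 0 in
theorem kF_17250 : chkRangeF cert 17250 230 = true := by decide +kernel

set_option maxHeartbeats 0 in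
theorem kF_17480 : chkRangeF cert 17480 230 = true := by decide +kernel

set_option maxHeartbeats 0 in
theorem kF_17710 : chkRangeF cert 17710 230 = true := by decide +kernel

set_option maxHeartbeats 0 in
theorem kF_17940 : chkRangeF cert 17940 230 = true := by decide +kernel

set_option maxHeartbeats 0 in
theorem kF_18170 : chkRangeF cert 18170 230 = true := by decide +kernel

set_option maxHeartbeats 0 in
theorem kF_18400 : chkRangeF cert 18400 230 = true := by decide +kernel

set_option maxHeartbeats 0 in
theorem kF_18630 : chkRangeF cert 18630 230 = true := by decide +kernel

set_option maxHeartbeats 0 in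
theorem kF_18860 : chkRangeF cert 18860 230 = true := by decide +kernel

set_option maxHeartbeats 0 in
theorem kF_19090 : chkRangeF cert 19090 230 = true := by decide +kernel

set_option maxHeartbeats 0 in
theorem kF_19320 : chkRangeF cert 19320 230 = true := by decide +kernel

set_option maxHeartbeats 0 in
theorem kF_19550 : chkRangeF cert 19550 230 = true := by decide +kernel

set_option maxHeartbeats 0 in
theorem kF_19780 : chkRangeF cert 19780 230 = true := by decide +kernel

set_option maxHeartbeats 0 in
theorem kF_20010 : chkRangeF cert 20010 230 = true := by decide +kernel

end Cfsg.Agent.Helper17.TCD.Fi24A
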