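import Mathlib
import Cfsg.Agent.Helper17.TCD.Fi24A_Cert

set_option autoImplicit false

namespace Cfsg.Agent.Helper17.TCD.Fi24A

open Cfsg.Agent.Helper17.TC

set_option maxHeartbeats 0 in
theorem kF_20240 : chkRangeF cert 20240 230 = true := by decide +kernel

set_option maxHeartbeats 0 in
theorem kF_20470 : chkRangeF cert 20470 230 = true := by decide +kernel

set_option maxHeartbeats 0 in
theorem kF_20700 : chkRangeF cert 20700 230 = true := by decide +kernel

set_option maxHeartbeats 0 in
theorem kF_20930 : chkRangeF cert 20930 230 = true := by decide +kernel

set_option maxHeartbeats 0 in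
theorem kF_21160 : chkRangeF cert 21160 230 = true := by decide +kernel

set_option maxHeartbeats 0 in
theorem kF_21390 : chkRangeF cert 21390 230 = true := by decide +kernel

set_option maxHeartbeats 0 in
theorem kF_21620 : chkRangeF cert 21620 230 = true := by decide +kernel

set_option maxHeartbeats 0 in
theorem kF_21850 : chkRangeF cert 21850 230 = true := by decide +kernel

set_option maxHeartbeats 0 in
theorem kF_22080 : chkRangeF cert 22080 230 = true := by decide +kernel

set_option maxHeartbeats 0 in
theorem kF_22310 : chkRangeF cert 22310 230 = true := by decide +kernel

set_option maxHeartbeats 0 in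
theorem kF_22540 : chkRangeF cert 22540 230 = true := by decide +kernel

set_option maxHeartbeats 0 in
theorem kF_22770 : chkRangeF cert 22770 230 = true := by decide +kernel

set_option maxHeartbeats 0 in
theorem kF_23000 : chkRangeF cert 23000 230 = true := by decide +kernel

set_option maxHeartbeats 0 in
theorem kF_23230 : chkRangeF cert 23230 230 = true := by decide +kernel

set_option maxHeartbeats 0 in
theorem kF_23460 : chkRangeF cert 23460 230 = true := by decide +kernel

set_option maxHeartbeats 0 in
theorem kF_23690 : chkRangeF cert 23690 230 = true := by decide +kernel

end Cfsg.Agent.Helper17.TCD.Fi24A
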