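import Mathlib
import Cfsg.Agent.Helper17.TCD.Fi24A_Cert

set_option autoImplicit false

namespace Cfsg.Agent.Helper17.TCD.Fi24A

open Cfsg.Agent.Helper17.TC

set_option maxHeartbeats 0 in
theorem kF_23920 : chkRangeF cert 23920 230 = true := by decide +kernel

set_option maxHeartbeats 0 in
theorem kF_24150 : chkRangeF cert 24150 230 = true := by decide +kernel

set_option maxHeartbeats 0 in
theorem kF_24380 : chkRangeF cert 24380 230 = true := by decide +kernel

set_option maxHeartbeats 0 in
theorem kF_24610 : chkRangeF cert 24610 230 = true := by decide +kernel

set_option maxHeartbeats 0 in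
theorem kF_24840 : chkRangeF cert 24840 230 = true := by decide +kernel

set_option maxHeartbeats 0 in
theorem kF_25070 : chkRangeF cert 25070 230 = true := by decide +kernel

set_option maxHeartbeats 0 in
theorem kF_25300 : chkRangeF cert 25300 230 = true := by decide +kernel

set_option maxHeartbeats 0 in
theorem kF_25530 : chkRangeF cert 25530 230 = true := by decide +kernel

set_option maxHeartbeats 0 in
theorem kF_25760 : chkRangeF cert 25760 230 = true := by decide +kernel

set_option maxHeartbeats 0 in
theorem kF_25990 : chkRangeF cert 25990 230 = true := by decide +kernel

set_option maxHeartbeats 0 in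
theorem kF_26220 : chkRangeF cert 26220 230 = true := by decide +kernel

set_option maxHeartbeats 0 in
theorem kF_26450 : chkRangeF cert 26450 230 = true := by decide +kernel

set_option maxHeartbeats 0 in
theorem kF_26680 : chkRangeF cert 26680 230 = true := by decide +kernel

set_option maxHeartbeats 0 in
theorem kF_26910 : chkRangeF cert 26910 230 = true := by decide +kernel

set_option maxHeartbeats 0 in
theorem kF_27140 : chkRangeF cert 27140 230 = true := by decide +kernel

set_option maxHeartbeats 0 in
theorem kF_27370 : chkRangeF cert 27370 230 = true := by decide +kernel

end Cfsg.Agent.Helper17.TCD.Fi24A
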