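import Mathlib
import Cfsg.Agent.Helper17.TCD.Fi24A_Cert

set_option autoImplicit false

namespace Cfsg.Agent.Helper17.TCD.Fi24A

open Cfsg.Agent.Helper17.TC

set_option maxHeartbeats 0 in
theorem kT_63398 : chkRangeT cert 63398 1238 = true := by decide +kernel

set_option maxHeartbeats 0 in
theorem kT_64636 : chkRangeT cert 64636 1292 = true := by decide +kernel

set_option maxHeartbeats 0 in
theorem kT_65928 : chkRangeT cert 65928 1257 = true := by decide +kernel

set_option maxHeartbeats 0 in
theorem kT_67185 : chkRangeT cert 67185 1354 = true := by decide +kernel

set_option maxHeartbeats 0 in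
theorem kT_68539 : chkRangeT cert 68539 1352 = true := by decide +kernel

set_option maxHeartbeats 0 in
theorem kT_69891 : chkRangeT cert 69891 1232 = true := by decide +kernel

set_option maxHeartbeats 0 in
theorem kT_71123 : chkRangeT cert 71123 1216 = true := by decide +kernel

set_option maxHeartbeats 0 in
theorem kT_72339 : chkRangeT cert 72339 1347 = true := by decide +kernel

set_option maxHeartbeats 0 in
theorem kT_73686 : chkRangeT cert 73686 1356 = true := by decide +kernel

set_option maxHeartbeats 0 in
theorem kT_75042 : chkRangeT cert 75042 1370 = true := by decide +kernel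

set_option maxHeartbeats 0 in
theorem kT_76412 : chkRangeT cert 76412 1443 = true := by decide +kernel

set_option maxHeartbeats 0 in
theorem kT_77855 : chkRangeT cert 77855 1310 = true := by decide +kernel

set_option maxHeartbeats 0 in
theorem kT_79165 : chkRangeT cert 79165 1248 = true := by decide +kernel

set_option maxHeartbeats 0 in
theorem kT_80413 : chkRangeT cert 80413 1193 = true := by decide +kernel

set_option maxHeartbeats 0 in
theorem kT_81606 : chkRangeT cert 81606 1287 = true := by decide +kernel

set_option maxHeartbeats 0 in
theorem kT_82893 : chkRangeT cert 82893 1313 = true := by decide +kernel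

end Cfsg.Agent.Helper17.TCD.Fi24A
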