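import Mathlib
import Cfsg.Agent.Helper17.TCD.Fi24A_Cert

set_option autoImplicit false

namespace Cfsg.Agent.Helper17.TCD.Fi24A

open Cfsg.Agent.Helper17.TC

set_option maxHeartbeats 0 in
theorem kF_27600 : chkRangeF cert 27600 230 = true := by decide +kernel

set_option maxHeartbeats 0 in
theorem kF_27830 : chkRangeF cert 27830 230 = true := by decide +kernel

set_option maxHeartbeats 0 in
theorem kF_28060 : chkRangeF cert 28060 230 = true := by decide +kernel

set_option maxHeartbeats 0 in
theorem kF_28290 : chkRangeF cert 28290 230 = true := by decide +kernel

set_option maxHeartbeats 0 in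
theorem kF_28520 : chkRangeF cert 28520 230 = true := by decide +kernel

set_option maxHeartbeats 0 in
theorem kF_28750 : chkRangeF cert 28750 230 = true := by decide +kernel

set_option maxHeartbeats 0 in
theorem kF_28980 : chkRangeF cert 28980 230 = true := by decide +kernel

set_option maxHeartbeats 0 in
theorem kF_29210 : chkRangeF cert 29210 230 = true := by decide +kernel

set_option maxHeartbeats 0 in
theorem kF_29440 : chkRangeF cert 29440 230 = true := by decide +kernel

set_option maxHeartbeats 0 in
theorem kF_29670 : chkRangeF cert 29670 230 = true := by decide +kernel

set_option maxHeartbeats 0 in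
theorem kF_29900 : chkRangeF cert 29900 230 = true := by decide +kernel

set_option maxHeartbeats 0 in
theorem kF_30130 : chkRangeF cert 30130 230 = true := by decide +kernel

set_option maxHeartbeats 0 in
theorem kF_30360 : chkRangeF cert 30360 230 = true := by decide +kernel

set_option maxHeartbeats 0 in
theorem kF_30590 : chkRangeF cert 30590 230 = true := by decide +kernel

set_option maxHeartbeats 0 in
theorem kF_30820 : chkRangeF cert 30820 230 = true := by decide +kernel

set_option maxHeartbeats 0 in
theorem kF_31050 : chkRangeF cert 31050 230 = true := by decide +kernel

end Cfsg.Agent.Helper17.TCD.Fi24A
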