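import Mathlib
import Cfsg.Agent.Helper17.TCD.Fi24A_Cert

set_option autoImplicit false

namespace Cfsg.Agent.Helper17.TCD.Fi24A

open Cfsg.Agent.Helper17.TC

set_option maxHeartbeats 0 in
theorem kF_31280 : chkRangeF cert 31280 230 = true := by decide +kernel

set_option maxHeartbeats 0 in
theorem kF_31510 : chkRangeF cert 31510 230 = true := by decide +kernel

set_option maxHeartbeats 0 in
theorem kF_31740 : chkRangeF cert 31740 230 = true := by decide +kernel

set_option maxHeartbeats 0 in
theorem kF_31970 : chkRangeF cert 31970 230 = true := by decide +kernel

set_option maxHeartbeats 0 in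
theorem kF_32200 : chkRangeF cert 32200 230 = true := by decide +kernel

set_option maxHeartbeats 0 in
theorem kF_32430 : chkRangeF cert 32430 230 = true := by decide +kernel

set_option maxHeartbeats 0 in
theorem kF_32660 : chkRangeF cert 32660 230 = true := by decide +kernel

set_option maxHeartbeats 0 in
theorem kF_32890 : chkRangeF cert 32890 230 = true := by decide +kernel

set_option maxHeartbeats 0 in
theorem kF_33120 : chkRangeF cert 33120 230 = true := by decide +kernel

set_option maxHeartbeats 0 in
theorem kF_33350 : chkRangeF cert 33350 230 = true := by decide +kernel

set_option maxHeartbeats 0 in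
theorem kF_33580 : chkRangeF cert 33580 230 = true := by decide +kernel

set_option maxHeartbeats 0 in
theorem kF_33810 : chkRangeF cert 33810 230 = true := by decide +kernel

set_option maxHeartbeats 0 in
theorem kF_34040 : chkRangeF cert 34040 230 = true := by decide +kernel

set_option maxHeartbeats 0 in
theorem kF_34270 : chkRangeF cert 34270 230 = true := by decide +kernel

set_option maxHeartbeats 0 in
theorem kF_34500 : chkRangeF cert 34500 230 = true := by decide +kernel

set_option maxHeartbeats 0 in
theorem kF_34730 : chkRangeF cert 34730 230 = true := by decide +kernel

end Cfsg.Agent.Helper17.TCD.Fi24A
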