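import Mathlib
import Cfsg.Agent.Helper17.TCD.Fi24A_Cert

set_option autoImplicit false

namespace Cfsg.Agent.Helper17.TCD.Fi24A

open Cfsg.Agent.Helper17.TC

set_option maxHeartbeats 0 in
theorem kF_34960 : chkRangeF cert 34960 230 = true := by decide +kernel

set_option maxHeartbeats 0 in
theorem kF_35190 : chkRangeF cert 35190 230 = true := by decide +kernel

set_option maxHeartbeats 0 in
theorem kF_35420 : chkRangeF cert 35420 230 = true := by decide +kernel

set_option maxHeartbeats 0 in
theorem kF_35650 : chkRangeF cert 35650 230 = true := by decide +kernel

set_option maxHeartbeats 0 in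
theorem kF_35880 : chkRangeF cert 35880 230 = true := by decide +kernel

set_option maxHeartbeats 0 in
theorem kF_36110 : chkRangeF cert 36110 230 = true := by decide +kernel

set_option maxHeartbeats 0 in
theorem kF_36340 : chkRangeF cert 36340 230 = true := by decide +kernel

set_option maxHeartbeats 0 in
theorem kF_36570 : chkRangeF cert 36570 230 = true := by decide +kernel

set_option maxHeartbeats 0 in
theorem kF_36800 : chkRangeF cert 36800 230 = true := by decide +kernel

set_option maxHeartbeats 0 in
theorem kF_37030 : chkRangeF cert 37030 230 = true := by decide +kernel

set_option maxHeartbeats 0 in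
theorem kF_37260 : chkRangeF cert 37260 230 = true := by decide +kernel

set_option maxHeartbeats 0 in
theorem kF_37490 : chkRangeF cert 37490 230 = true := by decide +kernel

set_option maxHeartbeats 0 in
theorem kF_37720 : chkRangeF cert 37720 230 = true := by decide +kernel

set_option maxHeartbeats 0 in
theorem kF_37950 : chkRangeF cert 37950 230 = true := by decide +kernel

set_option maxHeartbeats 0 in
theorem kF_38180 : chkRangeF cert 38180 230 = true := by decide +kernel

set_option maxHeartbeats 0 in
theorem kF_38410 : chkRangeF cert 38410 230 = true := by decide +kernel

end Cfsg.Agent.Helper17.TCD.Fi24A
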