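import Mathlib
import Cfsg.Agent.Helper17.TCD.Fi24A_Cert

set_option autoImplicit false

namespace Cfsg.Agent.Helper17.TCD.Fi24A

open Cfsg.Agent.Helper17.TC

set_option maxHeartbeats 0 in
theorem kF_38640 : chkRangeF cert 38640 230 = true := by decide +kernel

set_option maxHeartbeats 0 in
theorem kF_38870 : chkRangeF cert 38870 230 = true := by decide +kernel

set_option maxHeartbeats 0 in
theorem kF_39100 : chkRangeF cert 39100 230 = true := by decide +kernel

set_option maxHeartbeats 0 in
theorem kF_39330 : chkRangeF cert 39330 230 = true := by decide +kernel

set_option maxHeartbeats 0 in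
theorem kF_39560 : chkRangeF cert 39560 230 = true := by decide +kernel

set_option maxHeartbeats 0 in
theorem kF_39790 : chkRangeF cert 39790 230 = true := by decide +kernel

set_option maxHeartbeats 0 in
theorem kF_40020 : chkRangeF cert 40020 230 = true := by decide +kernel

set_option maxHeartbeats 0 in
theorem kF_40250 : chkRangeF cert 40250 230 = true := by decide +kernel

set_option maxHeartbeats 0 in
theorem kF_40480 : chkRangeF cert 40480 230 = true := by decide +kernel

set_option maxHeartbeats 0 in
theorem kF_40710 : chkRangeF cert 40710 230 = true := by decide +kernel

set_option maxHeartbeats 0 in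
theorem kF_40940 : chkRangeF cert 40940 230 = true := by decide +kernel

set_option maxHeartbeats 0 in
theorem kF_41170 : chkRangeF cert 41170 230 = true := by decide +kernel

set_option maxHeartbeats 0 in
theorem kF_41400 : chkRangeF cert 41400 230 = true := by decide +kernel

set_option maxHeartbeats 0 in
theorem kF_41630 : chkRangeF cert 41630 230 = true := by decide +kernel

set_option maxHeartbeats 0 in
theorem kF_41860 : chkRangeF cert 41860 230 = true := by decide +kernel

set_option maxHeartbeats 0 in
theorem kF_42090 : chkRangeF cert 42090 230 = true := by decide +kernel

end Cfsg.Agent.Helper17.TCD.Fi24A
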