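import Mathlib
import Cfsg.Agent.Helper17.TCD.Fi24A_Cert

set_option autoImplicit false

namespace Cfsg.Agent.Helper17.TCD.Fi24A

open Cfsg.Agent.Helper17.TC

set_option maxHeartbeats 0 in
theorem kF_42320 : chkRangeF cert 42320 230 = true := by decide +kernel

set_option maxHeartbeats 0 in
theorem kF_42550 : chkRangeF cert 42550 230 = true := by decide +kernel

set_option maxHeartbeats 0 in
theorem kF_42780 : chkRangeF cert 42780 230 = true := by decide +kernel

set_option maxHeartbeats 0 in
theorem kF_43010 : chkRangeF cert 43010 230 = true := by decide +kernel

set_option maxHeartbeats 0 in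
theorem kF_43240 : chkRangeF cert 43240 230 = true := by decide +kernel

set_option maxHeartbeats 0 in
theorem kF_43470 : chkRangeF cert 43470 230 = true := by decide +kernel

set_option maxHeartbeats 0 in
theorem kF_43700 : chkRangeF cert 43700 230 = true := by decide +kernel

set_option maxHeartbeats 0 in
theorem kF_43930 : chkRangeF cert 43930 230 = true := by decide +kernel

set_option maxHeartbeats 0 in
theorem kF_44160 : chkRangeF cert 44160 230 = true := by decide +kernel

set_option maxHeartbeats 0 in
theorem kF_44390 : chkRangeF cert 44390 230 = true := by decide +kernel

set_option maxHeartbeats 0 in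
theorem kF_44620 : chkRangeF cert 44620 230 = true := by decide +kernel

set_option maxHeartbeats 0 in
theorem kF_44850 : chkRangeF cert 44850 230 = true := by decide +kernel

set_option maxHeartbeats 0 in
theorem kF_45080 : chkRangeF cert 45080 230 = true := by decide +kernel

set_option maxHeartbeats 0 in
theorem kF_45310 : chkRangeF cert 45310 230 = true := by decide +kernel

set_option maxHeartbeats 0 in
theorem kF_45540 : chkRangeF cert 45540 230 = true := by decide +kernel

set_option maxHeartbeats 0 in
theorem kF_45770 : chkRangeF cert 45770 230 = true := by decide +kernel

end Cfsg.Agent.Helper17.TCD.Fi24A
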