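import Mathlib
import Cfsg.Agent.Helper17.TCD.Fi24A_Cert

set_option autoImplicit false

namespace Cfsg.Agent.Helper17.TCD.Fi24A

open Cfsg.Agent.Helper17.TC

set_option maxHeartbeats 0 in
theorem kF_46000 : chkRangeF cert 46000 230 = true := by decide +kernel

set_option maxHeartbeats 0 in
theorem kF_46230 : chkRangeF cert 46230 230 = true := by decide +kernel

set_option maxHeartbeats 0 in
theorem kF_46460 : chkRangeF cert 46460 230 = true := by decide +kernel

set_option maxHeartbeats 0 in
theorem kF_46690 : chkRangeF cert 46690 230 = true := by decide +kernel

set_option maxHeartbeats 0 in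
theorem kF_46920 : chkRangeF cert 46920 230 = true := by decide +kernel

set_option maxHeartbeats 0 in
theorem kF_47150 : chkRangeF cert 47150 230 = true := by decide +kernel

set_option maxHeartbeats 0 in
theorem kF_47380 : chkRangeF cert 47380 230 = true := by decide +kernel

set_option maxHeartbeats 0 in
theorem kF_47610 : chkRangeF cert 47610 230 = true := by decide +kernel

set_option maxHeartbeats 0 in
theorem kF_47840 : chkRangeF cert 47840 230 = true := by decide +kernel

set_option maxHeartbeats 0 in
theorem kF_48070 : chkRangeF cert 48070 230 = true := by decide +kernel

set_option maxHeartbeats 0 in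
theorem kF_48300 : chkRangeF cert 48300 230 = true := by decide +kernel

set_option maxHeartbeats 0 in
theorem kF_48530 : chkRangeF cert 48530 230 = true := by decide +kernel

set_option maxHeartbeats 0 in
theorem kF_48760 : chkRangeF cert 48760 230 = true := by decide +kernel

set_option maxHeartbeats 0 in
theorem kF_48990 : chkRangeF cert 48990 230 = true := by decide +kernel

set_option maxHeartbeats 0 in
theorem kF_49220 : chkRangeF cert 49220 230 = true := by decide +kernel

set_option maxHeartbeats 0 in
theorem kF_49450 : chkRangeF cert 49450 230 = true := by decide +kernel

end Cfsg.Agent.Helper17.TCD.Fi24A
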