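import Mathlib
import Cfsg.Agent.Helper17.TCD.Fi24A_Cert

set_option autoImplicit false

namespace Cfsg.Agent.Helper17.TCD.Fi24A

open Cfsg.Agent.Helper17.TC

set_option maxHeartbeats 0 in
theorem kF_49680 : chkRangeF cert 49680 230 = true := by decide +kernel

set_option maxHeartbeats 0 in
theorem kF_49910 : chkRangeF cert 49910 230 = true := by decide +kernel

set_option maxHeartbeats 0 in
theorem kF_50140 : chkRangeF cert 50140 230 = true := by decide +kernel

set_option maxHeartbeats 0 in
theorem kF_50370 : chkRangeF cert 50370 230 = true := by decide +kernel

set_option maxHeartbeats 0 in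
theorem kF_50600 : chkRangeF cert 50600 230 = true := by decide +kernel

set_option maxHeartbeats 0 in
theorem kF_50830 : chkRangeF cert 50830 230 = true := by decide +kernel

set_option maxHeartbeats 0 in
theorem kF_51060 : chkRangeF cert 51060 230 = true := by decide +kernel

set_option maxHeartbeats 0 in
theorem kF_51290 : chkRangeF cert 51290 230 = true := by decide +kernel

set_option maxHeartbeats 0 in
theorem kF_51520 : chkRangeF cert 51520 230 = true := by decide +kernel

set_option maxHeartbeats 0 in
theorem kF_51750 : chkRangeF cert 51750 230 = true := by decide +kernel

set_option maxHeartbeats 0 in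
theorem kF_51980 : chkRangeF cert 51980 230 = true := by decide +kernel

set_option maxHeartbeats 0 in
theorem kF_52210 : chkRangeF cert 52210 230 = true := by decide +kernel

set_option maxHeartbeats 0 in
theorem kF_52440 : chkRangeF cert 52440 230 = true := by decide +kernel

set_option maxHeartbeats 0 in
theorem kF_52670 : chkRangeF cert 52670 230 = true := by decide +kernel

set_option maxHeartbeats 0 in
theorem kF_52900 : chkRangeF cert 52900 230 = true := by decide +kernel

set_option maxHeartbeats 0 in
theorem kF_53130 : chkRangeF cert 53130 230 = true := by decide +kernel

end Cfsg.Agent.Helper17.TCD.Fi24A
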