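import Mathlib
import Cfsg.Agent.Helper17.TCD.Fi24A_Cert

set_option autoImplicit false

namespace Cfsg.Agent.Helper17.TCD.Fi24A

open Cfsg.Agent.Helper17.TC

set_option maxHeartbeats 0 in
theorem kF_53360 : chkRangeF cert 53360 230 = true := by decide +kernel

set_option maxHeartbeats 0 in
theorem kF_53590 : chkRangeF cert 53590 230 = true := by decide +kernel

set_option maxHeartbeats 0 in
theorem kF_53820 : chkRangeF cert 53820 230 = true := by decide +kernel

set_option maxHeartbeats 0 in
theorem kF_54050 : chkRangeF cert 54050 230 = true := by decide +kernel

set_option maxHeartbeats 0 in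
theorem kF_54280 : chkRangeF cert 54280 230 = true := by decide +kernel

set_option maxHeartbeats 0 in
theorem kF_54510 : chkRangeF cert 54510 230 = true := by decide +kernel

set_option maxHeartbeats 0 in
theorem kF_54740 : chkRangeF cert 54740 230 = true := by decide +kernel

set_option maxHeartbeats 0 in
theorem kF_54970 : chkRangeF cert 54970 230 = true := by decide +kernel

set_option maxHeartbeats 0 in
theorem kF_55200 : chkRangeF cert 55200 230 = true := by decide +kernel

set_option maxHeartbeats 0 in
theorem kF_55430 : chkRangeF cert 55430 230 = true := by decide +kernel

set_option maxHeartbeats 0 in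
theorem kF_55660 : chkRangeF cert 55660 230 = true := by decide +kernel

set_option maxHeartbeats 0 in
theorem kF_55890 : chkRangeF cert 55890 230 = true := by decide +kernel

set_option maxHeartbeats 0 in
theorem kF_56120 : chkRangeF cert 56120 230 = true := by decide +kernel

set_option maxHeartbeats 0 in
theorem kF_56350 : chkRangeF cert 56350 230 = true := by decide +kernel

set_option maxHeartbeats 0 in
theorem kF_56580 : chkRangeF cert 56580 230 = true := by decide +kernel

set_option maxHeartbeats 0 in
theorem kF_56810 : chkRangeF cert 56810 230 = true := by decide +kernel

end Cfsg.Agent.Helper17.TCD.Fi24A
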