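import Mathlib
import Cfsg.Agent.Helper17.TCD.Fi24A_Cert

set_option autoImplicit false

namespace Cfsg.Agent.Helper17.TCD.Fi24A

open Cfsg.Agent.Helper17.TC

set_option maxHeartbeats 0 in
theorem kF_57040 : chkRangeF cert 57040 230 = true := by decide +kernel

set_option maxHeartbeats 0 in
theorem kF_57270 : chkRangeF cert 57270 230 = true := by decide +kernel

set_option maxHeartbeats 0 in
theorem kF_57500 : chkRangeF cert 57500 230 = true := by decide +kernel

set_option maxHeartbeats 0 in
theorem kF_57730 : chkRangeF cert 57730 230 = true := by decide +kernel

set_option maxHeartbeats 0 in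
theorem kF_57960 : chkRangeF cert 57960 230 = true := by decide +kernel

set_option maxHeartbeats 0 in
theorem kF_58190 : chkRangeF cert 58190 230 = true := by decide +kernel

set_option maxHeartbeats 0 in
theorem kF_58420 : chkRangeF cert 58420 230 = true := by decide +kernel

set_option maxHeartbeats 0 in
theorem kF_58650 : chkRangeF cert 58650 230 = true := by decide +kernel

set_option maxHeartbeats 0 in
theorem kF_58880 : chkRangeF cert 58880 230 = true := by decide +kernel

set_option maxHeartbeats 0 in
theorem kF_59110 : chkRangeF cert 59110 230 = true := by decide +kernel

set_option maxHeartbeats 0 in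
theorem kF_59340 : chkRangeF cert 59340 230 = true := by decide +kernel

set_option maxHeartbeats 0 in
theorem kF_59570 : chkRangeF cert 59570 230 = true := by decide +kernel

set_option maxHeartbeats 0 in
theorem kF_59800 : chkRangeF cert 59800 230 = true := by decide +kernel

set_option maxHeartbeats 0 in
theorem kF_60030 : chkRangeF cert 60030 230 = true := by decide +kernel

set_option maxHeartbeats 0 in
theorem kF_60260 : chkRangeF cert 60260 230 = true := by decide +kernel

set_option maxHeartbeats 0 in
theorem kF_60490 : chkRangeF cert 60490 230 = true := by decide +kernel

end Cfsg.Agent.Helper17.TCD.Fi24A
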