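import Mathlib
import Cfsg.Agent.Helper17.TCD.Fi24A_Cert

set_option autoImplicit false

namespace Cfsg.Agent.Helper17.TCD.Fi24A

open Cfsg.Agent.Helper17.TC

set_option maxHeartbeats 0 in
theorem kF_60720 : chkRangeF cert 60720 230 = true := by decide +kernel

set_option maxHeartbeats 0 in
theorem kF_60950 : chkRangeF cert 60950 230 = true := by decide +kernel

set_option maxHeartbeats 0 in
theorem kF_61180 : chkRangeF cert 61180 230 = true := by decide +kernel

set_option maxHeartbeats 0 in
theorem kF_61410 : chkRangeF cert 61410 230 = true := by decide +kernel

set_option maxHeartbeats 0 in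
theorem kF_61640 : chkRangeF cert 61640 230 = true := by decide +kernel

set_option maxHeartbeats 0 in
theorem kF_61870 : chkRangeF cert 61870 230 = true := by decide +kernel

set_option maxHeartbeats 0 in
theorem kF_62100 : chkRangeF cert 62100 230 = true := by decide +kernel

set_option maxHeartbeats 0 in
theorem kF_62330 : chkRangeF cert 62330 230 = true := by decide +kernel

set_option maxHeartbeats 0 in
theorem kF_62560 : chkRangeF cert 62560 230 = true := by decide +kernel

set_option maxHeartbeats 0 in
theorem kF_62790 : chkRangeF cert 62790 230 = true := by decide +kernel

set_option maxHeartbeats 0 in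
theorem kF_63020 : chkRangeF cert 63020 230 = true := by decide +kernel

set_option maxHeartbeats 0 in
theorem kF_63250 : chkRangeF cert 63250 230 = true := by decide +kernel

set_option maxHeartbeats 0 in
theorem kF_63480 : chkRangeF cert 63480 230 = true := by decide +kernel

set_option maxHeartbeats 0 in
theorem kF_63710 : chkRangeF cert 63710 230 = true := by decide +kernel

set_option maxHeartbeats 0 in
theorem kF_63940 : chkRangeF cert 63940 230 = true := by decide +kernel

set_option maxHeartbeats 0 in
theorem kF_64170 : chkRangeF cert 64170 230 = true := by decide +kernel

end Cfsg.Agent.Helper17.TCD.Fi24A
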