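import Mathlib
import Cfsg.Agent.Helper17.TCD.Fi24A_Cert

set_option autoImplicit false

namespace Cfsg.Agent.Helper17.TCD.Fi24A

open Cfsg.Agent.Helper17.TC

set_option maxHeartbeats 0 in
theorem kT_84206 : chkRangeT cert 84206 1337 = true := by decide +kernel

set_option maxHeartbeats 0 in
theorem kT_85543 : chkRangeT cert 85543 1266 = true := by decide +kernel

set_option maxHeartbeats 0 in
theorem kT_86809 : chkRangeT cert 86809 1241 = true := by decide +kernel

set_option maxHeartbeats 0 in
theorem kT_88050 : chkRangeT cert 88050 1326 = true := by decide +kernel

set_option maxHeartbeats 0 in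
theorem kT_89376 : chkRangeT cert 89376 1320 = true := by decide +kernel

set_option maxHeartbeats 0 in
theorem kT_90696 : chkRangeT cert 90696 1333 = true := by decide +kernel

set_option maxHeartbeats 0 in
theorem kT_92029 : chkRangeT cert 92029 1389 = true := by decide +kernel

set_option maxHeartbeats 0 in
theorem kT_93418 : chkRangeT cert 93418 1396 = true := by decide +kernel

set_option maxHeartbeats 0 in
theorem kT_94814 : chkRangeT cert 94814 1296 = true := by decide +kernel

set_option maxHeartbeats 0 in
theorem kT_96110 : chkRangeT cert 96110 1277 = true := by decide +kernel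

set_option maxHeartbeats 0 in
theorem kT_97387 : chkRangeT cert 97387 1266 = true := by decide +kernel

set_option maxHeartbeats 0 in
theorem kT_98653 : chkRangeT cert 98653 1249 = true := by decide +kernel

set_option maxHeartbeats 0 in
theorem kT_99902 : chkRangeT cert 99902 1310 = true := by decide +kernel

set_option maxHeartbeats 0 in
theorem kT_101212 : chkRangeT cert 101212 1350 = true := by decide +kernel

set_option maxHeartbeats 0 in
theorem kT_102562 : chkRangeT cert 102562 1294 = true := by decide +kernel

set_option maxHeartbeats 0 in
theorem kT_103856 : chkRangeT cert 103856 1251 = true := by decide +kernel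

end Cfsg.Agent.Helper17.TCD.Fi24A
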