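import Mathlib
import Cfsg.Agent.Helper17.TCD.Fi24A_Cert

set_option autoImplicit false

namespace Cfsg.Agent.Helper17.TCD.Fi24A

open Cfsg.Agent.Helper17.TC

set_option maxHeartbeats 0 in
theorem kF_64400 : chkRangeF cert 64400 230 = true := by decide +kernel

set_option maxHeartbeats 0 in
theorem kF_64630 : chkRangeF cert 64630 230 = true := by decide +kernel

set_option maxHeartbeats 0 in
theorem kF_64860 : chkRangeF cert 64860 230 = true := by decide +kernel

set_option maxHeartbeats 0 in
theorem kF_65090 : chkRangeF cert 65090 230 = true := by decide +kernel

set_option maxHeartbeats 0 in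
theorem kF_65320 : chkRangeF cert 65320 230 = true := by decide +kernel

set_option maxHeartbeats 0 in
theorem kF_65550 : chkRangeF cert 65550 230 = true := by decide +kernel

set_option maxHeartbeats 0 in
theorem kF_65780 : chkRangeF cert 65780 230 = true := by decide +kernel

set_option maxHeartbeats 0 in
theorem kF_66010 : chkRangeF cert 66010 230 = true := by decide +kernel

set_option maxHeartbeats 0 in
theorem kF_66240 : chkRangeF cert 66240 230 = true := by decide +kernel

set_option maxHeartbeats 0 in
theorem kF_66470 : chkRangeF cert 66470 230 = true := by decide +kernel

set_option maxHeartbeats 0 in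
theorem kF_66700 : chkRangeF cert 66700 230 = true := by decide +kernel

set_option maxHeartbeats 0 in
theorem kF_66930 : chkRangeF cert 66930 230 = true := by decide +kernel

set_option maxHeartbeats 0 in
theorem kF_67160 : chkRangeF cert 67160 230 = true := by decide +kernel

set_option maxHeartbeats 0 in
theorem kF_67390 : chkRangeF cert 67390 230 = true := by decide +kernel

set_option maxHeartbeats 0 in
theorem kF_67620 : chkRangeF cert 67620 230 = true := by decide +kernel

set_option maxHeartbeats 0 in
theorem kF_67850 : chkRangeF cert 67850 230 = true := by decide +kernel

end Cfsg.Agent.Helper17.TCD.Fi24A
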