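import Mathlib
import Cfsg.Agent.Helper17.TCD.Fi24A_Cert

set_option autoImplicit false

namespace Cfsg.Agent.Helper17.TCD.Fi24A

open Cfsg.Agent.Helper17.TC

set_option maxHeartbeats 0 in
theorem kF_68080 : chkRangeF cert 68080 230 = true := by decide +kernel

set_option maxHeartbeats 0 in
theorem kF_68310 : chkRangeF cert 68310 230 = true := by decide +kernel

set_option maxHeartbeats 0 in
theorem kF_68540 : chkRangeF cert 68540 230 = true := by decide +kernel

set_option maxHeartbeats 0 in
theorem kF_68770 : chkRangeF cert 68770 230 = true := by decide +kernel

set_option maxHeartbeats 0 in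
theorem kF_69000 : chkRangeF cert 69000 230 = true := by decide +kernel

set_option maxHeartbeats 0 in
theorem kF_69230 : chkRangeF cert 69230 230 = true := by decide +kernel

set_option maxHeartbeats 0 in
theorem kF_69460 : chkRangeF cert 69460 230 = true := by decide +kernel

set_option maxHeartbeats 0 in
theorem kF_69690 : chkRangeF cert 69690 230 = true := by decide +kernel

set_option maxHeartbeats 0 in
theorem kF_69920 : chkRangeF cert 69920 230 = true := by decide +kernel

set_option maxHeartbeats 0 in
theorem kF_70150 : chkRangeF cert 70150 230 = true := by decide +kernel

set_option maxHeartbeats 0 in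
theorem kF_70380 : chkRangeF cert 70380 230 = true := by decide +kernel

set_option maxHeartbeats 0 in
theorem kF_70610 : chkRangeF cert 70610 230 = true := by decide +kernel

set_option maxHeartbeats 0 in
theorem kF_70840 : chkRangeF cert 70840 230 = true := by decide +kernel

set_option maxHeartbeats 0 in
theorem kF_71070 : chkRangeF cert 71070 230 = true := by decide +kernel

set_option maxHeartbeats 0 in
theorem kF_71300 : chkRangeF cert 71300 230 = true := by decide +kernel

set_option maxHeartbeats 0 in
theorem kF_71530 : chkRangeF cert 71530 230 = true := by decide +kernel

end Cfsg.Agent.Helper17.TCD.Fi24A
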