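import Mathlib
import Cfsg.Agent.Helper17.TCD.Fi24A_Cert

set_option autoImplicit false

namespace Cfsg.Agent.Helper17.TCD.Fi24A

open Cfsg.Agent.Helper17.TC

set_option maxHeartbeats 0 in
theorem kF_71760 : chkRangeF cert 71760 230 = true := by decide +kernel

set_option maxHeartbeats 0 in
theorem kF_71990 : chkRangeF cert 71990 230 = true := by decide +kernel

set_option maxHeartbeats 0 in
theorem kF_72220 : chkRangeF cert 72220 230 = true := by decide +kernel

set_option maxHeartbeats 0 in
theorem kF_72450 : chkRangeF cert 72450 230 = true := by decide +kernel

set_option maxHeartbeats 0 in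
theorem kF_72680 : chkRangeF cert 72680 230 = true := by decide +kernel

set_option maxHeartbeats 0 in
theorem kF_72910 : chkRangeF cert 72910 230 = true := by decide +kernel

set_option maxHeartbeats 0 in
theorem kF_73140 : chkRangeF cert 73140 230 = true := by decide +kernel

set_option maxHeartbeats 0 in
theorem kF_73370 : chkRangeF cert 73370 230 = true := by decide +kernel

set_option maxHeartbeats 0 in
theorem kF_73600 : chkRangeF cert 73600 230 = true := by decide +kernel

set_option maxHeartbeats 0 in
theorem kF_73830 : chkRangeF cert 73830 230 = true := by decide +kernel

set_option maxHeartbeats 0 in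
theorem kF_74060 : chkRangeF cert 74060 230 = true := by decide +kernel

set_option maxHeartbeats 0 in
theorem kF_74290 : chkRangeF cert 74290 230 = true := by decide +kernel

set_option maxHeartbeats 0 in
theorem kF_74520 : chkRangeF cert 74520 230 = true := by decide +kernel

set_option maxHeartbeats 0 in
theorem kF_74750 : chkRangeF cert 74750 230 = true := by decide +kernel

set_option maxHeartbeats 0 in
theorem kF_74980 : chkRangeF cert 74980 230 = true := by decide +kernel

set_option maxHeartbeats 0 in
theorem kF_75210 : chkRangeF cert 75210 230 = true := by decide +kernel

end Cfsg.Agent.Helper17.TCD.Fi24A
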