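import Mathlib
import Cfsg.Agent.Helper17.TCD.Fi24A_Cert

set_option autoImplicit false

namespace Cfsg.Agent.Helper17.TCD.Fi24A

open Cfsg.Agent.Helper17.TC

set_option maxHeartbeats 0 in
theorem kF_75440 : chkRangeF cert 75440 230 = true := by decide +kernel

set_option maxHeartbeats 0 in
theorem kF_75670 : chkRangeF cert 75670 230 = true := by decide +kernel

set_option maxHeartbeats 0 in
theorem kF_75900 : chkRangeF cert 75900 230 = true := by decide +kernel

set_option maxHeartbeats 0 in
theorem kF_76130 : chkRangeF cert 76130 230 = true := by decide +kernel

set_option maxHeartbeats 0 in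
theorem kF_76360 : chkRangeF cert 76360 230 = true := by decide +kernel

set_option maxHeartbeats 0 in
theorem kF_76590 : chkRangeF cert 76590 230 = true := by decide +kernel

set_option maxHeartbeats 0 in
theorem kF_76820 : chkRangeF cert 76820 230 = true := by decide +kernel

set_option maxHeartbeats 0 in
theorem kF_77050 : chkRangeF cert 77050 230 = true := by decide +kernel

set_option maxHeartbeats 0 in
theorem kF_77280 : chkRangeF cert 77280 230 = true := by decide +kernel

set_option maxHeartbeats 0 in
theorem kF_77510 : chkRangeF cert 77510 230 = true := by decide +kernel

set_option maxHeartbeats 0 in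
theorem kF_77740 : chkRangeF cert 77740 230 = true := by decide +kernel

set_option maxHeartbeats 0 in
theorem kF_77970 : chkRangeF cert 77970 230 = true := by decide +kernel

set_option maxHeartbeats 0 in
theorem kF_78200 : chkRangeF cert 78200 230 = true := by decide +kernel

set_option maxHeartbeats 0 in
theorem kF_78430 : chkRangeF cert 78430 230 = true := by decide +kernel

set_option maxHeartbeats 0 in
theorem kF_78660 : chkRangeF cert 78660 230 = true := by decide +kernel

set_option maxHeartbeats 0 in
theorem kF_78890 : chkRangeF cert 78890 230 = true := by decide +kernel

end Cfsg.Agent.Helper17.TCD.Fi24A
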