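import Mathlib
import Cfsg.Agent.Helper17.TCD.Fi24A_Cert

set_option autoImplicit false

namespace Cfsg.Agent.Helper17.TCD.Fi24A

open Cfsg.Agent.Helper17.TC

set_option maxHeartbeats 0 in
theorem kF_79120 : chkRangeF cert 79120 230 = true := by decide +kernel

set_option maxHeartbeats 0 in
theorem kF_79350 : chkRangeF cert 79350 230 = true := by decide +kernel

set_option maxHeartbeats 0 in
theorem kF_79580 : chkRangeF cert 79580 230 = true := by decide +kernel

set_option maxHeartbeats 0 in
theorem kF_79810 : chkRangeF cert 79810 230 = true := by decide +kernel

set_option maxHeartbeats 0 in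
theorem kF_80040 : chkRangeF cert 80040 230 = true := by decide +kernel

set_option maxHeartbeats 0 in
theorem kF_80270 : chkRangeF cert 80270 230 = true := by decide +kernel

set_option maxHeartbeats 0 in
theorem kF_80500 : chkRangeF cert 80500 230 = true := by decide +kernel

set_option maxHeartbeats 0 in
theorem kF_80730 : chkRangeF cert 80730 230 = true := by decide +kernel

set_option maxHeartbeats 0 in
theorem kF_80960 : chkRangeF cert 80960 230 = true := by decide +kernel

set_option maxHeartbeats 0 in
theorem kF_81190 : chkRangeF cert 81190 230 = true := by decide +kernel

set_option maxHeartbeats 0 in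
theorem kF_81420 : chkRangeF cert 81420 230 = true := by decide +kernel

set_option maxHeartbeats 0 in
theorem kF_81650 : chkRangeF cert 81650 230 = true := by decide +kernel

set_option maxHeartbeats 0 in
theorem kF_81880 : chkRangeF cert 81880 230 = true := by decide +kernel

set_option maxHeartbeats 0 in
theorem kF_82110 : chkRangeF cert 82110 230 = true := by decide +kernel

set_option maxHeartbeats 0 in
theorem kF_82340 : chkRangeF cert 82340 230 = true := by decide +kernel

set_option maxHeartbeats 0 in
theorem kF_82570 : chkRangeF cert 82570 230 = true := by decide +kernel

end Cfsg.Agent.Helper17.TCD.Fi24A
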