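import Mathlib
import Cfsg.Agent.Helper17.TCD.Fi24A_Cert

set_option autoImplicit false

namespace Cfsg.Agent.Helper17.TCD.Fi24A

open Cfsg.Agent.Helper17.TC

set_option maxHeartbeats 0 in
theorem kF_82800 : chkRangeF cert 82800 230 = true := by decide +kernel

set_option maxHeartbeats 0 in
theorem kF_83030 : chkRangeF cert 83030 230 = true := by decide +kernel

set_option maxHeartbeats 0 in
theorem kF_83260 : chkRangeF cert 83260 230 = true := by decide +kernel

set_option maxHeartbeats 0 in
theorem kF_83490 : chkRangeF cert 83490 230 = true := by decide +kernel

set_option maxHeartbeats 0 in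
theorem kF_83720 : chkRangeF cert 83720 230 = true := by decide +kernel

set_option maxHeartbeats 0 in
theorem kF_83950 : chkRangeF cert 83950 230 = true := by decide +kernel

set_option maxHeartbeats 0 in
theorem kF_84180 : chkRangeF cert 84180 230 = true := by decide +kernel

set_option maxHeartbeats 0 in
theorem kF_84410 : chkRangeF cert 84410 230 = true := by decide +kernel

set_option maxHeartbeats 0 in
theorem kF_84640 : chkRangeF cert 84640 230 = true := by decide +kernel

set_option maxHeartbeats 0 in
theorem kF_84870 : chkRangeF cert 84870 230 = true := by decide +kernel

set_option maxHeartbeats 0 in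
theorem kF_85100 : chkRangeF cert 85100 230 = true := by decide +kernel

set_option maxHeartbeats 0 in
theorem kF_85330 : chkRangeF cert 85330 230 = true := by decide +kernel

set_option maxHeartbeats 0 in
theorem kF_85560 : chkRangeF cert 85560 230 = true := by decide +kernel

set_option maxHeartbeats 0 in
theorem kF_85790 : chkRangeF cert 85790 230 = true := by decide +kernel

set_option maxHeartbeats 0 in
theorem kF_86020 : chkRangeF cert 86020 230 = true := by decide +kernel

set_option maxHeartbeats 0 in
theorem kF_86250 : chkRangeF cert 86250 230 = true := by decide +kernel

end Cfsg.Agent.Helper17.TCD.Fi24A
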