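import Mathlib
import Cfsg.Agent.Helper17.TCD.Fi24A_Cert

set_option autoImplicit false

namespace Cfsg.Agent.Helper17.TCD.Fi24A

open Cfsg.Agent.Helper17.TC

set_option maxHeartbeats 0 in
theorem kF_86480 : chkRangeF cert 86480 230 = true := by decide +kernel

set_option maxHeartbeats 0 in
theorem kF_86710 : chkRangeF cert 86710 230 = true := by decide +kernel

set_option maxHeartbeats 0 in
theorem kF_86940 : chkRangeF cert 86940 230 = true := by decide +kernel

set_option maxHeartbeats 0 in
theorem kF_87170 : chkRangeF cert 87170 230 = true := by decide +kernel

set_option maxHeartbeats 0 in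
theorem kF_87400 : chkRangeF cert 87400 230 = true := by decide +kernel

set_option maxHeartbeats 0 in
theorem kF_87630 : chkRangeF cert 87630 230 = true := by decide +kernel

set_option maxHeartbeats 0 in
theorem kF_87860 : chkRangeF cert 87860 230 = true := by decide +kernel

set_option maxHeartbeats 0 in
theorem kF_88090 : chkRangeF cert 88090 230 = true := by decide +kernel

set_option maxHeartbeats 0 in
theorem kF_88320 : chkRangeF cert 88320 230 = true := by decide +kernel

set_option maxHeartbeats 0 in
theorem kF_88550 : chkRangeF cert 88550 230 = true := by decide +kernel

set_option maxHeartbeats 0 in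
theorem kF_88780 : chkRangeF cert 88780 230 = true := by decide +kernel

set_option maxHeartbeats 0 in
theorem kF_89010 : chkRangeF cert 89010 230 = true := by decide +kernel

set_option maxHeartbeats 0 in
theorem kF_89240 : chkRangeF cert 89240 230 = true := by decide +kernel

set_option maxHeartbeats 0 in
theorem kF_89470 : chkRangeF cert 89470 230 = true := by decide +kernel

set_option maxHeartbeats 0 in
theorem kF_89700 : chkRangeF cert 89700 230 = true := by decide +kernel

set_option maxHeartbeats 0 in
theorem kF_89930 : chkRangeF cert 89930 230 = true := by decide +kernel

end Cfsg.Agent.Helper17.TCD.Fi24A
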