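import Mathlib
import Cfsg.Agent.Helper17.TCD.Fi24A_Cert

set_option autoImplicit false

namespace Cfsg.Agent.Helper17.TCD.Fi24A

open Cfsg.Agent.Helper17.TC

set_option maxHeartbeats 0 in
theorem kF_90160 : chkRangeF cert 90160 230 = true := by decide +kernel

set_option maxHeartbeats 0 in
theorem kF_90390 : chkRangeF cert 90390 230 = true := by decide +kernel

set_option maxHeartbeats 0 in
theorem kF_90620 : chkRangeF cert 90620 230 = true := by decide +kernel

set_option maxHeartbeats 0 in
theorem kF_90850 : chkRangeF cert 90850 230 = true := by decide +kernel

set_option maxHeartbeats 0 in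
theorem kF_91080 : chkRangeF cert 91080 230 = true := by decide +kernel

set_option maxHeartbeats 0 in
theorem kF_91310 : chkRangeF cert 91310 230 = true := by decide +kernel

set_option maxHeartbeats 0 in
theorem kF_91540 : chkRangeF cert 91540 230 = true := by decide +kernel

set_option maxHeartbeats 0 in
theorem kF_91770 : chkRangeF cert 91770 230 = true := by decide +kernel

set_option maxHeartbeats 0 in
theorem kF_92000 : chkRangeF cert 92000 230 = true := by decide +kernel

set_option maxHeartbeats 0 in
theorem kF_92230 : chkRangeF cert 92230 230 = true := by decide +kernel

set_option maxHeartbeats 0 in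
theorem kF_92460 : chkRangeF cert 92460 230 = true := by decide +kernel

set_option maxHeartbeats 0 in
theorem kF_92690 : chkRangeF cert 92690 230 = true := by decide +kernel

set_option maxHeartbeats 0 in
theorem kF_92920 : chkRangeF cert 92920 230 = true := by decide +kernel

set_option maxHeartbeats 0 in
theorem kF_93150 : chkRangeF cert 93150 230 = true := by decide +kernel

set_option maxHeartbeats 0 in
theorem kF_93380 : chkRangeF cert 93380 230 = true := by decide +kernel

set_option maxHeartbeats 0 in
theorem kF_93610 : chkRangeF cert 93610 230 = true := by decide +kernel

end Cfsg.Agent.Helper17.TCD.Fi24A
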