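import Mathlib
import Cfsg.Agent.Helper17.TCD.Fi24A_Cert

set_option autoImplicit false

namespace Cfsg.Agent.Helper17.TCD.Fi24A

open Cfsg.Agent.Helper17.TC

set_option maxHeartbeats 0 in
theorem kF_93840 : chkRangeF cert 93840 230 = true := by decide +kernel

set_option maxHeartbeats 0 in
theorem kF_94070 : chkRangeF cert 94070 230 = true := by decide +kernel

set_option maxHeartbeats 0 in
theorem kF_94300 : chkRangeF cert 94300 230 = true := by decide +kernel

set_option maxHeartbeats 0 in
theorem kF_94530 : chkRangeF cert 94530 230 = true := by decide +kernel

set_option maxHeartbeats 0 in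
theorem kF_94760 : chkRangeF cert 94760 230 = true := by decide +kernel

set_option maxHeartbeats 0 in
theorem kF_94990 : chkRangeF cert 94990 230 = true := by decide +kernel

set_option maxHeartbeats 0 in
theorem kF_95220 : chkRangeF cert 95220 230 = true := by decide +kernel

set_option maxHeartbeats 0 in
theorem kF_95450 : chkRangeF cert 95450 230 = true := by decide +kernel

set_option maxHeartbeats 0 in
theorem kF_95680 : chkRangeF cert 95680 230 = true := by decide +kernel

set_option maxHeartbeats 0 in
theorem kF_95910 : chkRangeF cert 95910 230 = true := by decide +kernel

set_option maxHeartbeats 0 in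
theorem kF_96140 : chkRangeF cert 96140 230 = true := by decide +kernel

set_option maxHeartbeats 0 in
theorem kF_96370 : chkRangeF cert 96370 230 = true := by decide +kernel

set_option maxHeartbeats 0 in
theorem kF_96600 : chkRangeF cert 96600 230 = true := by decide +kernel

set_option maxHeartbeats 0 in
theorem kF_96830 : chkRangeF cert 96830 230 = true := by decide +kernel

set_option maxHeartbeats 0 in
theorem kF_97060 : chkRangeF cert 97060 230 = true := by decide +kernel

set_option maxHeartbeats 0 in
theorem kF_97290 : chkRangeF cert 97290 230 = true := by decide +kernel

end Cfsg.Agent.Helper17.TCD.Fi24A
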