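import Mathlib
import Cfsg.Agent.Helper17.TCD.Fi24A_Cert

set_option autoImplicit false

namespace Cfsg.Agent.Helper17.TCD.Fi24A

open Cfsg.Agent.Helper17.TC

set_option maxHeartbeats 0 in
theorem kF_97520 : chkRangeF cert 97520 230 = true := by decide +kernel

set_option maxHeartbeats 0 in
theorem kF_97750 : chkRangeF cert 97750 230 = true := by decide +kernel

set_option maxHeartbeats 0 in
theorem kF_97980 : chkRangeF cert 97980 230 = true := by decide +kernel

set_option maxHeartbeats 0 in
theorem kF_98210 : chkRangeF cert 98210 230 = true := by decide +kernel

set_option maxHeartbeats 0 in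
theorem kF_98440 : chkRangeF cert 98440 230 = true := by decide +kernel

set_option maxHeartbeats 0 in
theorem kF_98670 : chkRangeF cert 98670 230 = true := by decide +kernel

set_option maxHeartbeats 0 in
theorem kF_98900 : chkRangeF cert 98900 230 = true := by decide +kernel

set_option maxHeartbeats 0 in
theorem kF_99130 : chkRangeF cert 99130 230 = true := by decide +kernel

set_option maxHeartbeats 0 in
theorem kF_99360 : chkRangeF cert 99360 230 = true := by decide +kernel

set_option maxHeartbeats 0 in
theorem kF_99590 : chkRangeF cert 99590 230 = true := by decide +kernel

set_option maxHeartbeats 0 in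
theorem kF_99820 : chkRangeF cert 99820 230 = true := by decide +kernel

set_option maxHeartbeats 0 in
theorem kF_100050 : chkRangeF cert 100050 230 = true := by decide +kernel

set_option maxHeartbeats 0 in
theorem kF_100280 : chkRangeF cert 100280 230 = true := by decide +kernel

set_option maxHeartbeats 0 in
theorem kF_100510 : chkRangeF cert 100510 230 = true := by decide +kernel

set_option maxHeartbeats 0 in
theorem kF_100740 : chkRangeF cert 100740 230 = true := by decide +kernel

set_option maxHeartbeats 0 in
theorem kF_100970 : chkRangeF cert 100970 230 = true := by decide +kernel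

end Cfsg.Agent.Helper17.TCD.Fi24A
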