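import Mathlib
import Cfsg.Agent.Helper17.TCD.Fi24A_Cert

set_option autoImplicit false

namespace Cfsg.Agent.Helper17.TCD.Fi24A

open Cfsg.Agent.Helper17.TC

set_option maxHeartbeats 0 in
theorem kT_105107 : chkRangeT cert 105107 1230 = true := by decide +kernel

set_option maxHeartbeats 0 in
theorem kT_106337 : chkRangeT cert 106337 1296 = true := by decide +kernel

set_option maxHeartbeats 0 in
theorem kT_107633 : chkRangeT cert 107633 1306 = true := by decide +kernel

set_option maxHeartbeats 0 in
theorem kT_108939 : chkRangeT cert 108939 1342 = true := by decide +kernel

set_option maxHeartbeats 0 in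
theorem kT_110281 : chkRangeT cert 110281 1440 = true := by decide +kernel

set_option maxHeartbeats 0 in
theorem kT_111721 : chkRangeT cert 111721 1398 = true := by decide +kernel

set_option maxHeartbeats 0 in
theorem kT_113119 : chkRangeT cert 113119 1378 = true := by decide +kernel

set_option maxHeartbeats 0 in
theorem kT_114497 : chkRangeT cert 114497 1230 = true := by decide +kernel

set_option maxHeartbeats 0 in
theorem kT_115727 : chkRangeT cert 115727 1309 = true := by decide +kernel

set_option maxHeartbeats 0 in
theorem kT_117036 : chkRangeT cert 117036 1240 = true := by decide +kernel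

set_option maxHeartbeats 0 in
theorem kT_118276 : chkRangeT cert 118276 1297 = true := by decide +kernel

set_option maxHeartbeats 0 in
theorem kT_119573 : chkRangeT cert 119573 1317 = true := by decide +kernel

set_option maxHeartbeats 0 in
theorem kT_120890 : chkRangeT cert 120890 1361 = true := by decide +kernel

set_option maxHeartbeats 0 in
theorem kT_122251 : chkRangeT cert 122251 1240 = true := by decide +kernel

set_option maxHeartbeats 0 in
theorem kT_123491 : chkRangeT cert 123491 1317 = true := by decide +kernel

set_option maxHeartbeats 0 in
theorem kT_124808 : chkRangeT cert 124808 1205 = true := by decide +kernel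

end Cfsg.Agent.Helper17.TCD.Fi24A
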