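import Mathlib
import Cfsg.Agent.Helper17.TCD.Fi24A_Cert

set_option autoImplicit false

namespace Cfsg.Agent.Helper17.TCD.Fi24A

open Cfsg.Agent.Helper17.TC

set_option maxHeartbeats 0 in
theorem kF_101200 : chkRangeF cert 101200 230 = true := by decide +kernel

set_option maxHeartbeats 0 in
theorem kF_101430 : chkRangeF cert 101430 230 = true := by decide +kernel

set_option maxHeartbeats 0 in
theorem kF_101660 : chkRangeF cert 101660 230 = true := by decide +kernel

set_option maxHeartbeats 0 in
theorem kF_101890 : chkRangeF cert 101890 230 = true := by decide +kernel

set_option maxHeartbeats 0 in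
theorem kF_102120 : chkRangeF cert 102120 230 = true := by decide +kernel

set_option maxHeartbeats 0 in
theorem kF_102350 : chkRangeF cert 102350 230 = true := by decide +kernel

set_option maxHeartbeats 0 in
theorem kF_102580 : chkRangeF cert 102580 230 = true := by decide +kernel

set_option maxHeartbeats 0 in
theorem kF_102810 : chkRangeF cert 102810 230 = true := by decide +kernel

set_option maxHeartbeats 0 in
theorem kF_103040 : chkRangeF cert 103040 230 = true := by decide +kernel

set_option maxHeartbeats 0 in
theorem kF_103270 : chkRangeF cert 103270 230 = true := by decide +kernel

set_option maxHeartbeats 0 in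
theorem kF_103500 : chkRangeF cert 103500 230 = true := by decide +kernel

set_option maxHeartbeats 0 in
theorem kF_103730 : chkRangeF cert 103730 230 = true := by decide +kernel

set_option maxHeartbeats 0 in
theorem kF_103960 : chkRangeF cert 103960 230 = true := by decide +kernel

set_option maxHeartbeats 0 in
theorem kF_104190 : chkRangeF cert 104190 230 = true := by decide +kernel

set_option maxHeartbeats 0 in
theorem kF_104420 : chkRangeF cert 104420 230 = true := by decide +kernel

set_option maxHeartbeats 0 in
theorem kF_104650 : chkRangeF cert 104650 230 = true := by decide +kernel

end Cfsg.Agent.Helper17.TCD.Fi24A
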