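import Mathlib
import Cfsg.Agent.Helper17.TCD.Fi24A_Cert

set_option autoImplicit false

namespace Cfsg.Agent.Helper17.TCD.Fi24A

open Cfsg.Agent.Helper17.TC

set_option maxHeartbeats 0 in
theorem kF_104880 : chkRangeF cert 104880 230 = true := by decide +kernel

set_option maxHeartbeats 0 in
theorem kF_105110 : chkRangeF cert 105110 230 = true := by decide +kernel

set_option maxHeartbeats 0 in
theorem kF_105340 : chkRangeF cert 105340 230 = true := by decide +kernel

set_option maxHeartbeats 0 in
theorem kF_105570 : chkRangeF cert 105570 230 = true := by decide +kernel

set_option maxHeartbeats 0 in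
theorem kF_105800 : chkRangeF cert 105800 230 = true := by decide +kernel

set_option maxHeartbeats 0 in
theorem kF_106030 : chkRangeF cert 106030 230 = true := by decide +kernel

set_option maxHeartbeats 0 in
theorem kF_106260 : chkRangeF cert 106260 230 = true := by decide +kernel

set_option maxHeartbeats 0 in
theorem kF_106490 : chkRangeF cert 106490 230 = true := by decide +kernel

set_option maxHeartbeats 0 in
theorem kF_106720 : chkRangeF cert 106720 230 = true := by decide +kernel

set_option maxHeartbeats 0 in
theorem kF_106950 : chkRangeF cert 106950 230 = true := by decide +kernel

set_option maxHeartbeats 0 in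
theorem kF_107180 : chkRangeF cert 107180 230 = true := by decide +kernel

set_option maxHeartbeats 0 in
theorem kF_107410 : chkRangeF cert 107410 230 = true := by decide +kernel

set_option maxHeartbeats 0 in
theorem kF_107640 : chkRangeF cert 107640 230 = true := by decide +kernel

set_option maxHeartbeats 0 in
theorem kF_107870 : chkRangeF cert 107870 230 = true := by decide +kernel

set_option maxHeartbeats 0 in
theorem kF_108100 : chkRangeF cert 108100 230 = true := by decide +kernel

set_option maxHeartbeats 0 in
theorem kF_108330 : chkRangeF cert 108330 230 = true := by decide +kernel

end Cfsg.Agent.Helper17.TCD.Fi24A
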