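import Mathlib
import Cfsg.Agent.Helper17.TCD.Fi24A_Cert

set_option autoImplicit false

namespace Cfsg.Agent.Helper17.TCD.Fi24A

open Cfsg.Agent.Helper17.TC

set_option maxHeartbeats 0 in
theorem kF_108560 : chkRangeF cert 108560 230 = true := by decide +kernel

set_option maxHeartbeats 0 in
theorem kF_108790 : chkRangeF cert 108790 230 = true := by decide +kernel

set_option maxHeartbeats 0 in
theorem kF_109020 : chkRangeF cert 109020 230 = true := by decide +kernel

set_option maxHeartbeats 0 in
theorem kF_109250 : chkRangeF cert 109250 230 = true := by decide +kernel

set_option maxHeartbeats 0 in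
theorem kF_109480 : chkRangeF cert 109480 230 = true := by decide +kernel

set_option maxHeartbeats 0 in
theorem kF_109710 : chkRangeF cert 109710 230 = true := by decide +kernel

set_option maxHeartbeats 0 in
theorem kF_109940 : chkRangeF cert 109940 230 = true := by decide +kernel

set_option maxHeartbeats 0 in
theorem kF_110170 : chkRangeF cert 110170 230 = true := by decide +kernel

set_option maxHeartbeats 0 in
theorem kF_110400 : chkRangeF cert 110400 230 = true := by decide +kernel

set_option maxHeartbeats 0 in
theorem kF_110630 : chkRangeF cert 110630 230 = true := by decide +kernel

set_option maxHeartbeats 0 in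
theorem kF_110860 : chkRangeF cert 110860 230 = true := by decide +kernel

set_option maxHeartbeats 0 in
theorem kF_111090 : chkRangeF cert 111090 230 = true := by decide +kernel

set_option maxHeartbeats 0 in
theorem kF_111320 : chkRangeF cert 111320 230 = true := by decide +kernel

set_option maxHeartbeats 0 in
theorem kF_111550 : chkRangeF cert 111550 230 = true := by decide +kernel

set_option maxHeartbeats 0 in
theorem kF_111780 : chkRangeF cert 111780 230 = true := by decide +kernel

set_option maxHeartbeats 0 in
theorem kF_112010 : chkRangeF cert 112010 230 = true := by decide +kernel

end Cfsg.Agent.Helper17.TCD.Fi24A
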