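import Mathlib
import Cfsg.Agent.Helper17.TCD.Fi24A_Cert

set_option autoImplicit false

namespace Cfsg.Agent.Helper17.TCD.Fi24A

open Cfsg.Agent.Helper17.TC

set_option maxHeartbeats 0 in
theorem kF_112240 : chkRangeF cert 112240 230 = true := by decide +kernel

set_option maxHeartbeats 0 in
theorem kF_112470 : chkRangeF cert 112470 230 = true := by decide +kernel

set_option maxHeartbeats 0 in
theorem kF_112700 : chkRangeF cert 112700 230 = true := by decide +kernel

set_option maxHeartbeats 0 in
theorem kF_112930 : chkRangeF cert 112930 230 = true := by decide +kernel

set_option maxHeartbeats 0 in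
theorem kF_113160 : chkRangeF cert 113160 230 = true := by decide +kernel

set_option maxHeartbeats 0 in
theorem kF_113390 : chkRangeF cert 113390 230 = true := by decide +kernel

set_option maxHeartbeats 0 in
theorem kF_113620 : chkRangeF cert 113620 230 = true := by decide +kernel

set_option maxHeartbeats 0 in
theorem kF_113850 : chkRangeF cert 113850 230 = true := by decide +kernel

set_option maxHeartbeats 0 in
theorem kF_114080 : chkRangeF cert 114080 230 = true := by decide +kernel

set_option maxHeartbeats 0 in
theorem kF_114310 : chkRangeF cert 114310 230 = true := by decide +kernel

set_option maxHeartbeats 0 in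
theorem kF_114540 : chkRangeF cert 114540 230 = true := by decide +kernel

set_option maxHeartbeats 0 in
theorem kF_114770 : chkRangeF cert 114770 230 = true := by decide +kernel

set_option maxHeartbeats 0 in
theorem kF_115000 : chkRangeF cert 115000 230 = true := by decide +kernel

set_option maxHeartbeats 0 in
theorem kF_115230 : chkRangeF cert 115230 230 = true := by decide +kernel

set_option maxHeartbeats 0 in
theorem kF_115460 : chkRangeF cert 115460 230 = true := by decide +kernel

set_option maxHeartbeats 0 in
theorem kF_115690 : chkRangeF cert 115690 230 = true := by decide +kernel

end Cfsg.Agent.Helper17.TCD.Fi24A
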