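import Mathlib
import Cfsg.Agent.Helper17.TCD.Fi24A_Cert

set_option autoImplicit false

namespace Cfsg.Agent.Helper17.TCD.Fi24A

open Cfsg.Agent.Helper17.TC

set_option maxHeartbeats 0 in
theorem kF_115920 : chkRangeF cert 115920 230 = true := by decide +kernel

set_option maxHeartbeats 0 in
theorem kF_116150 : chkRangeF cert 116150 230 = true := by decide +kernel

set_option maxHeartbeats 0 in
theorem kF_116380 : chkRangeF cert 116380 230 = true := by decide +kernel

set_option maxHeartbeats 0 in
theorem kF_116610 : chkRangeF cert 116610 230 = true := by decide +kernel

set_option maxHeartbeats 0 in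
theorem kF_116840 : chkRangeF cert 116840 230 = true := by decide +kernel

set_option maxHeartbeats 0 in
theorem kF_117070 : chkRangeF cert 117070 230 = true := by decide +kernel

set_option maxHeartbeats 0 in
theorem kF_117300 : chkRangeF cert 117300 230 = true := by decide +kernel

set_option maxHeartbeats 0 in
theorem kF_117530 : chkRangeF cert 117530 230 = true := by decide +kernel

set_option maxHeartbeats 0 in
theorem kF_117760 : chkRangeF cert 117760 230 = true := by decide +kernel

set_option maxHeartbeats 0 in
theorem kF_117990 : chkRangeF cert 117990 230 = true := by decide +kernel

set_option maxHeartbeats 0 in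
theorem kF_118220 : chkRangeF cert 118220 230 = true := by decide +kernel

set_option maxHeartbeats 0 in
theorem kF_118450 : chkRangeF cert 118450 230 = true := by decide +kernel

set_option maxHeartbeats 0 in
theorem kF_118680 : chkRangeF cert 118680 230 = true := by decide +kernel

set_option maxHeartbeats 0 in
theorem kF_118910 : chkRangeF cert 118910 230 = true := by decide +kernel

set_option maxHeartbeats 0 in
theorem kF_119140 : chkRangeF cert 119140 230 = true := by decide +kernel

set_option maxHeartbeats 0 in
theorem kF_119370 : chkRangeF cert 119370 230 = true := by decide +kernel

end Cfsg.Agent.Helper17.TCD.Fi24A
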