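import Mathlib
import Cfsg.Agent.Helper17.TCD.Fi24A_Cert

set_option autoImplicit false

namespace Cfsg.Agent.Helper17.TCD.Fi24A

open Cfsg.Agent.Helper17.TC

set_option maxHeartbeats 0 in
theorem kF_119600 : chkRangeF cert 119600 230 = true := by decide +kernel

set_option maxHeartbeats 0 in
theorem kF_119830 : chkRangeF cert 119830 230 = true := by decide +kernel

set_option maxHeartbeats 0 in
theorem kF_120060 : chkRangeF cert 120060 230 = true := by decide +kernel

set_option maxHeartbeats 0 in
theorem kF_120290 : chkRangeF cert 120290 230 = true := by decide +kernel

set_option maxHeartbeats 0 in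
theorem kF_120520 : chkRangeF cert 120520 230 = true := by decide +kernel

set_option maxHeartbeats 0 in
theorem kF_120750 : chkRangeF cert 120750 230 = true := by decide +kernel

set_option maxHeartbeats 0 in
theorem kF_120980 : chkRangeF cert 120980 230 = true := by decide +kernel

set_option maxHeartbeats 0 in
theorem kF_121210 : chkRangeF cert 121210 230 = true := by decide +kernel

set_option maxHeartbeats 0 in
theorem kF_121440 : chkRangeF cert 121440 230 = true := by decide +kernel

set_option maxHeartbeats 0 in
theorem kF_121670 : chkRangeF cert 121670 230 = true := by decide +kernel

set_option maxHeartbeats 0 in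
theorem kF_121900 : chkRangeF cert 121900 230 = true := by decide +kernel

set_option maxHeartbeats 0 in
theorem kF_122130 : chkRangeF cert 122130 230 = true := by decide +kernel

set_option maxHeartbeats 0 in
theorem kF_122360 : chkRangeF cert 122360 230 = true := by decide +kernel

set_option maxHeartbeats 0 in
theorem kF_122590 : chkRangeF cert 122590 230 = true := by decide +kernel

set_option maxHeartbeats 0 in
theorem kF_122820 : chkRangeF cert 122820 230 = true := by decide +kernel

set_option maxHeartbeats 0 in
theorem kF_123050 : chkRangeF cert 123050 230 = true := by decide +kernel

end Cfsg.Agent.Helper17.TCD.Fi24A
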