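import Mathlib
import Cfsg.Agent.Helper17.TCD.Fi24A_Cert

set_option autoImplicit false

namespace Cfsg.Agent.Helper17.TCD.Fi24A

open Cfsg.Agent.Helper17.TC

set_option maxHeartbeats 0 in
theorem kF_123280 : chkRangeF cert 123280 230 = true := by decide +kernel

set_option maxHeartbeats 0 in
theorem kF_123510 : chkRangeF cert 123510 230 = true := by decide +kernel

set_option maxHeartbeats 0 in
theorem kF_123740 : chkRangeF cert 123740 230 = true := by decide +kernel

set_option maxHeartbeats 0 in
theorem kF_123970 : chkRangeF cert 123970 230 = true := by decide +kernel

set_option maxHeartbeats 0 in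
theorem kF_124200 : chkRangeF cert 124200 230 = true := by decide +kernel

set_option maxHeartbeats 0 in
theorem kF_124430 : chkRangeF cert 124430 230 = true := by decide +kernel

set_option maxHeartbeats 0 in
theorem kF_124660 : chkRangeF cert 124660 230 = true := by decide +kernel

set_option maxHeartbeats 0 in
theorem kF_124890 : chkRangeF cert 124890 230 = true := by decide +kernel

set_option maxHeartbeats 0 in
theorem kF_125120 : chkRangeF cert 125120 230 = true := by decide +kernel

set_option maxHeartbeats 0 in
theorem kF_125350 : chkRangeF cert 125350 230 = true := by decide +kernel

set_option maxHeartbeats 0 in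
theorem kF_125580 : chkRangeF cert 125580 230 = true := by decide +kernel

set_option maxHeartbeats 0 in
theorem kF_125810 : chkRangeF cert 125810 230 = true := by decide +kernel

set_option maxHeartbeats 0 in
theorem kF_126040 : chkRangeF cert 126040 230 = true := by decide +kernel

set_option maxHeartbeats 0 in
theorem kF_126270 : chkRangeF cert 126270 230 = true := by decide +kernel

set_option maxHeartbeats 0 in
theorem kF_126500 : chkRangeF cert 126500 230 = true := by decide +kernel

set_option maxHeartbeats 0 in
theorem kF_126730 : chkRangeF cert 126730 230 = true := by decide +kernel

end Cfsg.Agent.Helper17.TCD.Fi24A
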