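import Mathlib
import Cfsg.Agent.Helper17.TCD.Fi24A_Cert

set_option autoImplicit false

namespace Cfsg.Agent.Helper17.TCD.Fi24A

open Cfsg.Agent.Helper17.TC

set_option maxHeartbeats 0 in
theorem kF_126960 : chkRangeF cert 126960 230 = true := by decide +kernel

set_option maxHeartbeats 0 in
theorem kF_127190 : chkRangeF cert 127190 230 = true := by decide +kernel

set_option maxHeartbeats 0 in
theorem kF_127420 : chkRangeF cert 127420 230 = true := by decide +kernel

set_option maxHeartbeats 0 in
theorem kF_127650 : chkRangeF cert 127650 230 = true := by decide +kernel

set_option maxHeartbeats 0 in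
theorem kF_127880 : chkRangeF cert 127880 230 = true := by decide +kernel

set_option maxHeartbeats 0 in
theorem kF_128110 : chkRangeF cert 128110 230 = true := by decide +kernel

set_option maxHeartbeats 0 in
theorem kF_128340 : chkRangeF cert 128340 230 = true := by decide +kernel

set_option maxHeartbeats 0 in
theorem kF_128570 : chkRangeF cert 128570 230 = true := by decide +kernel

set_option maxHeartbeats 0 in
theorem kF_128800 : chkRangeF cert 128800 230 = true := by decide +kernel

set_option maxHeartbeats 0 in
theorem kF_129030 : chkRangeF cert 129030 230 = true := by decide +kernel

set_option maxHeartbeats 0 in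
theorem kF_129260 : chkRangeF cert 129260 230 = true := by decide +kernel

set_option maxHeartbeats 0 in
theorem kF_129490 : chkRangeF cert 129490 230 = true := by decide +kernel

set_option maxHeartbeats 0 in
theorem kF_129720 : chkRangeF cert 129720 230 = true := by decide +kernel

set_option maxHeartbeats 0 in
theorem kF_129950 : chkRangeF cert 129950 230 = true := by decide +kernel

set_option maxHeartbeats 0 in
theorem kF_130180 : chkRangeF cert 130180 230 = true := by decide +kernel

set_option maxHeartbeats 0 in
theorem kF_130410 : chkRangeF cert 130410 230 = true := by decide +kernel

end Cfsg.Agent.Helper17.TCD.Fi24A
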