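import Mathlib
import Cfsg.Agent.Helper17.TCD.Fi24A_Cert

set_option autoImplicit false

namespace Cfsg.Agent.Helper17.TCD.Fi24A

open Cfsg.Agent.Helper17.TC

set_option maxHeartbeats 0 in
theorem kF_130640 : chkRangeF cert 130640 230 = true := by decide +kernel

set_option maxHeartbeats 0 in
theorem kF_130870 : chkRangeF cert 130870 230 = true := by decide +kernel

set_option maxHeartbeats 0 in
theorem kF_131100 : chkRangeF cert 131100 230 = true := by decide +kernel

set_option maxHeartbeats 0 in
theorem kF_131330 : chkRangeF cert 131330 230 = true := by decide +kernel

set_option maxHeartbeats 0 in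
theorem kF_131560 : chkRangeF cert 131560 230 = true := by decide +kernel

set_option maxHeartbeats 0 in
theorem kF_131790 : chkRangeF cert 131790 230 = true := by decide +kernel

set_option maxHeartbeats 0 in
theorem kF_132020 : chkRangeF cert 132020 230 = true := by decide +kernel

set_option maxHeartbeats 0 in
theorem kF_132250 : chkRangeF cert 132250 230 = true := by decide +kernel

set_option maxHeartbeats 0 in
theorem kF_132480 : chkRangeF cert 132480 230 = true := by decide +kernel

set_option maxHeartbeats 0 in
theorem kF_132710 : chkRangeF cert 132710 230 = true := by decide +kernel

set_option maxHeartbeats 0 in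
theorem kF_132940 : chkRangeF cert 132940 230 = true := by decide +kernel

set_option maxHeartbeats 0 in
theorem kF_133170 : chkRangeF cert 133170 230 = true := by decide +kernel

set_option maxHeartbeats 0 in
theorem kF_133400 : chkRangeF cert 133400 230 = true := by decide +kernel

set_option maxHeartbeats 0 in
theorem kF_133630 : chkRangeF cert 133630 230 = true := by decide +kernel

set_option maxHeartbeats 0 in
theorem kF_133860 : chkRangeF cert 133860 230 = true := by decide +kernel

set_option maxHeartbeats 0 in
theorem kF_134090 : chkRangeF cert 134090 230 = true := by decide +kernel

end Cfsg.Agent.Helper17.TCD.Fi24A
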