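import Mathlib
import Cfsg.Agent.Helper17.TCD.Fi24A_Cert

set_option autoImplicit false

namespace Cfsg.Agent.Helper17.TCD.Fi24A

open Cfsg.Agent.Helper17.TC

set_option maxHeartbeats 0 in
theorem kF_134320 : chkRangeF cert 134320 230 = true := by decide +kernel

set_option maxHeartbeats 0 in
theorem kF_134550 : chkRangeF cert 134550 230 = true := by decide +kernel

set_option maxHeartbeats 0 in
theorem kF_134780 : chkRangeF cert 134780 230 = true := by decide +kernel

set_option maxHeartbeats 0 in
theorem kF_135010 : chkRangeF cert 135010 230 = true := by decide +kernel

set_option maxHeartbeats 0 in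
theorem kF_135240 : chkRangeF cert 135240 230 = true := by decide +kernel

set_option maxHeartbeats 0 in
theorem kF_135470 : chkRangeF cert 135470 230 = true := by decide +kernel

set_option maxHeartbeats 0 in
theorem kF_135700 : chkRangeF cert 135700 230 = true := by decide +kernel

set_option maxHeartbeats 0 in
theorem kF_135930 : chkRangeF cert 135930 230 = true := by decide +kernel

set_option maxHeartbeats 0 in
theorem kF_136160 : chkRangeF cert 136160 230 = true := by decide +kernel

set_option maxHeartbeats 0 in
theorem kF_136390 : chkRangeF cert 136390 230 = true := by decide +kernel

set_option maxHeartbeats 0 in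
theorem kF_136620 : chkRangeF cert 136620 230 = true := by decide +kernel

set_option maxHeartbeats 0 in
theorem kF_136850 : chkRangeF cert 136850 230 = true := by decide +kernel

set_option maxHeartbeats 0 in
theorem kF_137080 : chkRangeF cert 137080 230 = true := by decide +kernel

set_option maxHeartbeats 0 in
theorem kF_137310 : chkRangeF cert 137310 230 = true := by decide +kernel

set_option maxHeartbeats 0 in
theorem kF_137540 : chkRangeF cert 137540 230 = true := by decide +kernel

set_option maxHeartbeats 0 in
theorem kF_137770 : chkRangeF cert 137770 230 = true := by decide +kernel

end Cfsg.Agent.Helper17.TCD.Fi24A
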