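import Mathlib
import Cfsg.Agent.Helper17.TCD.Fi24A_Cert

set_option autoImplicit false

namespace Cfsg.Agent.Helper17.TCD.Fi24A

open Cfsg.Agent.Helper17.TC

set_option maxHeartbeats 0 in
theorem kT_126013 : chkRangeT cert 126013 1296 = true := by decide +kernel

set_option maxHeartbeats 0 in
theorem kT_127309 : chkRangeT cert 127309 1224 = true := by decide +kernel

set_option maxHeartbeats 0 in
theorem kT_128533 : chkRangeT cert 128533 1377 = true := by decide +kernel

set_option maxHeartbeats 0 in
theorem kT_129910 : chkRangeT cert 129910 1383 = true := by decide +kernel

set_option maxHeartbeats 0 in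
theorem kT_131293 : chkRangeT cert 131293 1379 = true := by decide +kernel

set_option maxHeartbeats 0 in
theorem kT_132672 : chkRangeT cert 132672 1399 = true := by decide +kernel

set_option maxHeartbeats 0 in
theorem kT_134071 : chkRangeT cert 134071 1325 = true := by decide +kernel

set_option maxHeartbeats 0 in
theorem kT_135396 : chkRangeT cert 135396 1252 = true := by decide +kernel

set_option maxHeartbeats 0 in
theorem kT_136648 : chkRangeT cert 136648 1262 = true := by decide +kernel

set_option maxHeartbeats 0 in
theorem kT_137910 : chkRangeT cert 137910 1331 = true := by decide +kernel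

set_option maxHeartbeats 0 in
theorem kT_139241 : chkRangeT cert 139241 1284 = true := by decide +kernel

set_option maxHeartbeats 0 in
theorem kT_140525 : chkRangeT cert 140525 1292 = true := by decide +kernel

set_option maxHeartbeats 0 in
theorem kT_141817 : chkRangeT cert 141817 1351 = true := by decide +kernel

set_option maxHeartbeats 0 in
theorem kT_143168 : chkRangeT cert 143168 1275 = true := by decide +kernel

set_option maxHeartbeats 0 in
theorem kT_144443 : chkRangeT cert 144443 1305 = true := by decide +kernel

set_option maxHeartbeats 0 in
theorem kT_145748 : chkRangeT cert 145748 1211 = true := by decide +kernel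

end Cfsg.Agent.Helper17.TCD.Fi24A
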