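import Mathlib
import Cfsg.Agent.Helper17.TCD.Fi24A_Cert

set_option autoImplicit false

namespace Cfsg.Agent.Helper17.TCD.Fi24A

open Cfsg.Agent.Helper17.TC

set_option maxHeartbeats 0 in
theorem kF_138000 : chkRangeF cert 138000 230 = true := by decide +kernel

set_option maxHeartbeats 0 in
theorem kF_138230 : chkRangeF cert 138230 230 = true := by decide +kernel

set_option maxHeartbeats 0 in
theorem kF_138460 : chkRangeF cert 138460 230 = true := by decide +kernel

set_option maxHeartbeats 0 in
theorem kF_138690 : chkRangeF cert 138690 230 = true := by decide +kernel

set_option maxHeartbeats 0 in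
theorem kF_138920 : chkRangeF cert 138920 230 = true := by decide +kernel

set_option maxHeartbeats 0 in
theorem kF_139150 : chkRangeF cert 139150 230 = true := by decide +kernel

set_option maxHeartbeats 0 in
theorem kF_139380 : chkRangeF cert 139380 230 = true := by decide +kernel

set_option maxHeartbeats 0 in
theorem kF_139610 : chkRangeF cert 139610 230 = true := by decide +kernel

set_option maxHeartbeats 0 in
theorem kF_139840 : chkRangeF cert 139840 230 = true := by decide +kernel

set_option maxHeartbeats 0 in
theorem kF_140070 : chkRangeF cert 140070 230 = true := by decide +kernel

set_option maxHeartbeats 0 in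
theorem kF_140300 : chkRangeF cert 140300 230 = true := by decide +kernel

set_option maxHeartbeats 0 in
theorem kF_140530 : chkRangeF cert 140530 230 = true := by decide +kernel

set_option maxHeartbeats 0 in
theorem kF_140760 : chkRangeF cert 140760 230 = true := by decide +kernel

set_option maxHeartbeats 0 in
theorem kF_140990 : chkRangeF cert 140990 230 = true := by decide +kernel

set_option maxHeartbeats 0 in
theorem kF_141220 : chkRangeF cert 141220 230 = true := by decide +kernel

set_option maxHeartbeats 0 in
theorem kF_141450 : chkRangeF cert 141450 230 = true := by decide +kernel

end Cfsg.Agent.Helper17.TCD.Fi24A
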