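import Mathlib
import Cfsg.Agent.Helper17.TCD.Fi24A_Cert

set_option autoImplicit false

namespace Cfsg.Agent.Helper17.TCD.Fi24A

open Cfsg.Agent.Helper17.TC

set_option maxHeartbeats 0 in
theorem kF_141680 : chkRangeF cert 141680 230 = true := by decide +kernel

set_option maxHeartbeats 0 in
theorem kF_141910 : chkRangeF cert 141910 230 = true := by decide +kernel

set_option maxHeartbeats 0 in
theorem kF_142140 : chkRangeF cert 142140 230 = true := by decide +kernel

set_option maxHeartbeats 0 in
theorem kF_142370 : chkRangeF cert 142370 230 = true := by decide +kernel

set_option maxHeartbeats 0 in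
theorem kF_142600 : chkRangeF cert 142600 230 = true := by decide +kernel

set_option maxHeartbeats 0 in
theorem kF_142830 : chkRangeF cert 142830 230 = true := by decide +kernel

set_option maxHeartbeats 0 in
theorem kF_143060 : chkRangeF cert 143060 230 = true := by decide +kernel

set_option maxHeartbeats 0 in
theorem kF_143290 : chkRangeF cert 143290 230 = true := by decide +kernel

set_option maxHeartbeats 0 in
theorem kF_143520 : chkRangeF cert 143520 230 = true := by decide +kernel

set_option maxHeartbeats 0 in
theorem kF_143750 : chkRangeF cert 143750 230 = true := by decide +kernel

set_option maxHeartbeats 0 in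
theorem kF_143980 : chkRangeF cert 143980 230 = true := by decide +kernel

set_option maxHeartbeats 0 in
theorem kF_144210 : chkRangeF cert 144210 230 = true := by decide +kernel

set_option maxHeartbeats 0 in
theorem kF_144440 : chkRangeF cert 144440 230 = true := by decide +kernel

set_option maxHeartbeats 0 in
theorem kF_144670 : chkRangeF cert 144670 230 = true := by decide +kernel

set_option maxHeartbeats 0 in
theorem kF_144900 : chkRangeF cert 144900 230 = true := by decide +kernel

set_option maxHeartbeats 0 in
theorem kF_145130 : chkRangeF cert 145130 230 = true := by decide +kernel

end Cfsg.Agent.Helper17.TCD.Fi24A
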