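import Mathlib
import Cfsg.Agent.Helper17.TCD.Fi24A_Cert

set_option autoImplicit false

namespace Cfsg.Agent.Helper17.TCD.Fi24A

open Cfsg.Agent.Helper17.TC

set_option maxHeartbeats 0 in
theorem kF_145360 : chkRangeF cert 145360 230 = true := by decide +kernel

set_option maxHeartbeats 0 in
theorem kF_145590 : chkRangeF cert 145590 230 = true := by decide +kernel

set_option maxHeartbeats 0 in
theorem kF_145820 : chkRangeF cert 145820 230 = true := by decide +kernel

set_option maxHeartbeats 0 in
theorem kF_146050 : chkRangeF cert 146050 230 = true := by decide +kernel

set_option maxHeartbeats 0 in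
theorem kF_146280 : chkRangeF cert 146280 230 = true := by decide +kernel

set_option maxHeartbeats 0 in
theorem kF_146510 : chkRangeF cert 146510 230 = true := by decide +kernel

set_option maxHeartbeats 0 in
theorem kF_146740 : chkRangeF cert 146740 230 = true := by decide +kernel

set_option maxHeartbeats 0 in
theorem kF_146970 : chkRangeF cert 146970 230 = true := by decide +kernel

set_option maxHeartbeats 0 in
theorem kF_147200 : chkRangeF cert 147200 230 = true := by decide +kernel

set_option maxHeartbeats 0 in
theorem kF_147430 : chkRangeF cert 147430 230 = true := by decide +kernel

set_option maxHeartbeats 0 in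
theorem kF_147660 : chkRangeF cert 147660 230 = true := by decide +kernel

set_option maxHeartbeats 0 in
theorem kF_147890 : chkRangeF cert 147890 230 = true := by decide +kernel

set_option maxHeartbeats 0 in
theorem kF_148120 : chkRangeF cert 148120 230 = true := by decide +kernel

set_option maxHeartbeats 0 in
theorem kF_148350 : chkRangeF cert 148350 230 = true := by decide +kernel

set_option maxHeartbeats 0 in
theorem kF_148580 : chkRangeF cert 148580 230 = true := by decide +kernel

set_option maxHeartbeats 0 in
theorem kF_148810 : chkRangeF cert 148810 230 = true := by decide +kernel

end Cfsg.Agent.Helper17.TCD.Fi24A
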