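import Mathlib
import Cfsg.Agent.Helper17.TCD.Fi24A_Cert

set_option autoImplicit false

namespace Cfsg.Agent.Helper17.TCD.Fi24A

open Cfsg.Agent.Helper17.TC

set_option maxHeartbeats 0 in
theorem kF_149040 : chkRangeF cert 149040 230 = true := by decide +kernel

set_option maxHeartbeats 0 in
theorem kF_149270 : chkRangeF cert 149270 230 = true := by decide +kernel

set_option maxHeartbeats 0 in
theorem kF_149500 : chkRangeF cert 149500 230 = true := by decide +kernel

set_option maxHeartbeats 0 in
theorem kF_149730 : chkRangeF cert 149730 230 = true := by decide +kernel

set_option maxHeartbeats 0 in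
theorem kF_149960 : chkRangeF cert 149960 230 = true := by decide +kernel

set_option maxHeartbeats 0 in
theorem kF_150190 : chkRangeF cert 150190 230 = true := by decide +kernel

set_option maxHeartbeats 0 in
theorem kF_150420 : chkRangeF cert 150420 230 = true := by decide +kernel

set_option maxHeartbeats 0 in
theorem kF_150650 : chkRangeF cert 150650 230 = true := by decide +kernel

set_option maxHeartbeats 0 in
theorem kF_150880 : chkRangeF cert 150880 230 = true := by decide +kernel

set_option maxHeartbeats 0 in
theorem kF_151110 : chkRangeF cert 151110 230 = true := by decide +kernel

set_option maxHeartbeats 0 in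
theorem kF_151340 : chkRangeF cert 151340 230 = true := by decide +kernel

set_option maxHeartbeats 0 in
theorem kF_151570 : chkRangeF cert 151570 230 = true := by decide +kernel

set_option maxHeartbeats 0 in
theorem kF_151800 : chkRangeF cert 151800 230 = true := by decide +kernel

set_option maxHeartbeats 0 in
theorem kF_152030 : chkRangeF cert 152030 230 = true := by decide +kernel

set_option maxHeartbeats 0 in
theorem kF_152260 : chkRangeF cert 152260 230 = true := by decide +kernel

set_option maxHeartbeats 0 in
theorem kF_152490 : chkRangeF cert 152490 230 = true := by decide +kernel

end Cfsg.Agent.Helper17.TCD.Fi24A
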