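import Mathlib
import Cfsg.Agent.Helper17.TCD.Fi24A_Cert

set_option autoImplicit false

namespace Cfsg.Agent.Helper17.TCD.Fi24A

open Cfsg.Agent.Helper17.TC

set_option maxHeartbeats 0 in
theorem kF_152720 : chkRangeF cert 152720 230 = true := by decide +kernel

set_option maxHeartbeats 0 in
theorem kF_152950 : chkRangeF cert 152950 230 = true := by decide +kernel

set_option maxHeartbeats 0 in
theorem kF_153180 : chkRangeF cert 153180 230 = true := by decide +kernel

set_option maxHeartbeats 0 in
theorem kF_153410 : chkRangeF cert 153410 230 = true := by decide +kernel

set_option maxHeartbeats 0 in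
theorem kF_153640 : chkRangeF cert 153640 230 = true := by decide +kernel

set_option maxHeartbeats 0 in
theorem kF_153870 : chkRangeF cert 153870 230 = true := by decide +kernel

set_option maxHeartbeats 0 in
theorem kF_154100 : chkRangeF cert 154100 230 = true := by decide +kernel

set_option maxHeartbeats 0 in
theorem kF_154330 : chkRangeF cert 154330 230 = true := by decide +kernel

set_option maxHeartbeats 0 in
theorem kF_154560 : chkRangeF cert 154560 230 = true := by decide +kernel

set_option maxHeartbeats 0 in
theorem kF_154790 : chkRangeF cert 154790 230 = true := by decide +kernel

set_option maxHeartbeats 0 in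
theorem kF_155020 : chkRangeF cert 155020 230 = true := by decide +kernel

set_option maxHeartbeats 0 in
theorem kF_155250 : chkRangeF cert 155250 230 = true := by decide +kernel

set_option maxHeartbeats 0 in
theorem kF_155480 : chkRangeF cert 155480 230 = true := by decide +kernel

set_option maxHeartbeats 0 in
theorem kF_155710 : chkRangeF cert 155710 230 = true := by decide +kernel

set_option maxHeartbeats 0 in
theorem kF_155940 : chkRangeF cert 155940 230 = true := by decide +kernel

set_option maxHeartbeats 0 in
theorem kF_156170 : chkRangeF cert 156170 230 = true := by decide +kernel

end Cfsg.Agent.Helper17.TCD.Fi24A
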