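import Mathlib
import Cfsg.Agent.Helper17.TCD.Fi24A_Cert

set_option autoImplicit false

namespace Cfsg.Agent.Helper17.TCD.Fi24A

open Cfsg.Agent.Helper17.TC

set_option maxHeartbeats 0 in
theorem kF_156400 : chkRangeF cert 156400 230 = true := by decide +kernel

set_option maxHeartbeats 0 in
theorem kF_156630 : chkRangeF cert 156630 230 = true := by decide +kernel

set_option maxHeartbeats 0 in
theorem kF_156860 : chkRangeF cert 156860 230 = true := by decide +kernel

set_option maxHeartbeats 0 in
theorem kF_157090 : chkRangeF cert 157090 230 = true := by decide +kernel

set_option maxHeartbeats 0 in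
theorem kF_157320 : chkRangeF cert 157320 230 = true := by decide +kernel

set_option maxHeartbeats 0 in
theorem kF_157550 : chkRangeF cert 157550 230 = true := by decide +kernel

set_option maxHeartbeats 0 in
theorem kF_157780 : chkRangeF cert 157780 230 = true := by decide +kernel

set_option maxHeartbeats 0 in
theorem kF_158010 : chkRangeF cert 158010 230 = true := by decide +kernel

set_option maxHeartbeats 0 in
theorem kF_158240 : chkRangeF cert 158240 230 = true := by decide +kernel

set_option maxHeartbeats 0 in
theorem kF_158470 : chkRangeF cert 158470 230 = true := by decide +kernel

set_option maxHeartbeats 0 in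
theorem kF_158700 : chkRangeF cert 158700 230 = true := by decide +kernel

set_option maxHeartbeats 0 in
theorem kF_158930 : chkRangeF cert 158930 230 = true := by decide +kernel

set_option maxHeartbeats 0 in
theorem kF_159160 : chkRangeF cert 159160 230 = true := by decide +kernel

set_option maxHeartbeats 0 in
theorem kF_159390 : chkRangeF cert 159390 230 = true := by decide +kernel

set_option maxHeartbeats 0 in
theorem kF_159620 : chkRangeF cert 159620 230 = true := by decide +kernel

set_option maxHeartbeats 0 in
theorem kF_159850 : chkRangeF cert 159850 230 = true := by decide +kernel

end Cfsg.Agent.Helper17.TCD.Fi24A
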