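import Mathlib
import Cfsg.Agent.Helper17.TCD.Fi24A_Cert

set_option autoImplicit false

namespace Cfsg.Agent.Helper17.TCD.Fi24A

open Cfsg.Agent.Helper17.TC

set_option maxHeartbeats 0 in
theorem kF_160080 : chkRangeF cert 160080 230 = true := by decide +kernel

set_option maxHeartbeats 0 in
theorem kF_160310 : chkRangeF cert 160310 230 = true := by decide +kernel

set_option maxHeartbeats 0 in
theorem kF_160540 : chkRangeF cert 160540 230 = true := by decide +kernel

set_option maxHeartbeats 0 in
theorem kF_160770 : chkRangeF cert 160770 230 = true := by decide +kernel

set_option maxHeartbeats 0 in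
theorem kF_161000 : chkRangeF cert 161000 230 = true := by decide +kernel

set_option maxHeartbeats 0 in
theorem kF_161230 : chkRangeF cert 161230 230 = true := by decide +kernel

set_option maxHeartbeats 0 in
theorem kF_161460 : chkRangeF cert 161460 230 = true := by decide +kernel

set_option maxHeartbeats 0 in
theorem kF_161690 : chkRangeF cert 161690 230 = true := by decide +kernel

set_option maxHeartbeats 0 in
theorem kF_161920 : chkRangeF cert 161920 230 = true := by decide +kernel

set_option maxHeartbeats 0 in
theorem kF_162150 : chkRangeF cert 162150 230 = true := by decide +kernel

set_option maxHeartbeats 0 in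
theorem kF_162380 : chkRangeF cert 162380 230 = true := by decide +kernel

set_option maxHeartbeats 0 in
theorem kF_162610 : chkRangeF cert 162610 230 = true := by decide +kernel

set_option maxHeartbeats 0 in
theorem kF_162840 : chkRangeF cert 162840 230 = true := by decide +kernel

set_option maxHeartbeats 0 in
theorem kF_163070 : chkRangeF cert 163070 230 = true := by decide +kernel

set_option maxHeartbeats 0 in
theorem kF_163300 : chkRangeF cert 163300 230 = true := by decide +kernel

set_option maxHeartbeats 0 in
theorem kF_163530 : chkRangeF cert 163530 230 = true := by decide +kernel

end Cfsg.Agent.Helper17.TCD.Fi24A
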