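import Mathlib
import Cfsg.Agent.Helper17.TCD.Fi24A_Cert

set_option autoImplicit false

namespace Cfsg.Agent.Helper17.TCD.Fi24A

open Cfsg.Agent.Helper17.TC

set_option maxHeartbeats 0 in
theorem kF_163760 : chkRangeF cert 163760 230 = true := by decide +kernel

set_option maxHeartbeats 0 in
theorem kF_163990 : chkRangeF cert 163990 230 = true := by decide +kernel

set_option maxHeartbeats 0 in
theorem kF_164220 : chkRangeF cert 164220 230 = true := by decide +kernel

set_option maxHeartbeats 0 in
theorem kF_164450 : chkRangeF cert 164450 230 = true := by decide +kernel

set_option maxHeartbeats 0 in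
theorem kF_164680 : chkRangeF cert 164680 230 = true := by decide +kernel

set_option maxHeartbeats 0 in
theorem kF_164910 : chkRangeF cert 164910 230 = true := by decide +kernel

set_option maxHeartbeats 0 in
theorem kF_165140 : chkRangeF cert 165140 230 = true := by decide +kernel

set_option maxHeartbeats 0 in
theorem kF_165370 : chkRangeF cert 165370 230 = true := by decide +kernel

set_option maxHeartbeats 0 in
theorem kF_165600 : chkRangeF cert 165600 230 = true := by decide +kernel

set_option maxHeartbeats 0 in
theorem kF_165830 : chkRangeF cert 165830 230 = true := by decide +kernel

set_option maxHeartbeats 0 in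
theorem kF_166060 : chkRangeF cert 166060 230 = true := by decide +kernel

set_option maxHeartbeats 0 in
theorem kF_166290 : chkRangeF cert 166290 230 = true := by decide +kernel

set_option maxHeartbeats 0 in
theorem kF_166520 : chkRangeF cert 166520 230 = true := by decide +kernel

set_option maxHeartbeats 0 in
theorem kF_166750 : chkRangeF cert 166750 230 = true := by decide +kernel

set_option maxHeartbeats 0 in
theorem kF_166980 : chkRangeF cert 166980 230 = true := by decide +kernel

set_option maxHeartbeats 0 in
theorem kF_167210 : chkRangeF cert 167210 230 = true := by decide +kernel

end Cfsg.Agent.Helper17.TCD.Fi24A
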