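import Mathlib
import Cfsg.Agent.Helper17.TCD.Fi24A_Cert

set_option autoImplicit false

namespace Cfsg.Agent.Helper17.TCD.Fi24A

open Cfsg.Agent.Helper17.TC

set_option maxHeartbeats 0 in
theorem kF_167440 : chkRangeF cert 167440 230 = true := by decide +kernel

set_option maxHeartbeats 0 in
theorem kF_167670 : chkRangeF cert 167670 230 = true := by decide +kernel

set_option maxHeartbeats 0 in
theorem kF_167900 : chkRangeF cert 167900 230 = true := by decide +kernel

set_option maxHeartbeats 0 in
theorem kF_168130 : chkRangeF cert 168130 230 = true := by decide +kernel

set_option maxHeartbeats 0 in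
theorem kF_168360 : chkRangeF cert 168360 230 = true := by decide +kernel

set_option maxHeartbeats 0 in
theorem kF_168590 : chkRangeF cert 168590 230 = true := by decide +kernel

set_option maxHeartbeats 0 in
theorem kF_168820 : chkRangeF cert 168820 230 = true := by decide +kernel

set_option maxHeartbeats 0 in
theorem kF_169050 : chkRangeF cert 169050 230 = true := by decide +kernel

set_option maxHeartbeats 0 in
theorem kF_169280 : chkRangeF cert 169280 230 = true := by decide +kernel

set_option maxHeartbeats 0 in
theorem kF_169510 : chkRangeF cert 169510 230 = true := by decide +kernel

set_option maxHeartbeats 0 in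
theorem kF_169740 : chkRangeF cert 169740 230 = true := by decide +kernel

set_option maxHeartbeats 0 in
theorem kF_169970 : chkRangeF cert 169970 230 = true := by decide +kernel

set_option maxHeartbeats 0 in
theorem kF_170200 : chkRangeF cert 170200 230 = true := by decide +kernel

set_option maxHeartbeats 0 in
theorem kF_170430 : chkRangeF cert 170430 230 = true := by decide +kernel

set_option maxHeartbeats 0 in
theorem kF_170660 : chkRangeF cert 170660 230 = true := by decide +kernel

set_option maxHeartbeats 0 in
theorem kF_170890 : chkRangeF cert 170890 230 = true := by decide +kernel

end Cfsg.Agent.Helper17.TCD.Fi24A
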