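import Mathlib
import Cfsg.Agent.Helper17.TCD.Fi24A_Cert

set_option autoImplicit false

namespace Cfsg.Agent.Helper17.TCD.Fi24A

open Cfsg.Agent.Helper17.TC

set_option maxHeartbeats 0 in
theorem kF_171120 : chkRangeF cert 171120 230 = true := by decide +kernel

set_option maxHeartbeats 0 in
theorem kF_171350 : chkRangeF cert 171350 230 = true := by decide +kernel

set_option maxHeartbeats 0 in
theorem kF_171580 : chkRangeF cert 171580 230 = true := by decide +kernel

set_option maxHeartbeats 0 in
theorem kF_171810 : chkRangeF cert 171810 230 = true := by decide +kernel

set_option maxHeartbeats 0 in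
theorem kF_172040 : chkRangeF cert 172040 230 = true := by decide +kernel

set_option maxHeartbeats 0 in
theorem kF_172270 : chkRangeF cert 172270 230 = true := by decide +kernel

set_option maxHeartbeats 0 in
theorem kF_172500 : chkRangeF cert 172500 230 = true := by decide +kernel

set_option maxHeartbeats 0 in
theorem kF_172730 : chkRangeF cert 172730 230 = true := by decide +kernel

set_option maxHeartbeats 0 in
theorem kF_172960 : chkRangeF cert 172960 230 = true := by decide +kernel

set_option maxHeartbeats 0 in
theorem kF_173190 : chkRangeF cert 173190 230 = true := by decide +kernel

set_option maxHeartbeats 0 in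
theorem kF_173420 : chkRangeF cert 173420 230 = true := by decide +kernel

set_option maxHeartbeats 0 in
theorem kF_173650 : chkRangeF cert 173650 230 = true := by decide +kernel

set_option maxHeartbeats 0 in
theorem kF_173880 : chkRangeF cert 173880 230 = true := by decide +kernel

set_option maxHeartbeats 0 in
theorem kF_174110 : chkRangeF cert 174110 230 = true := by decide +kernel

set_option maxHeartbeats 0 in
theorem kF_174340 : chkRangeF cert 174340 230 = true := by decide +kernel

set_option maxHeartbeats 0 in
theorem kF_174570 : chkRangeF cert 174570 230 = true := by decide +kernel

end Cfsg.Agent.Helper17.TCD.Fi24A
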