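import Mathlib
import Cfsg.Agent.Helper17.TCD.Fi24A_Cert

set_option autoImplicit false

namespace Cfsg.Agent.Helper17.TCD.Fi24A

open Cfsg.Agent.Helper17.TC

set_option maxHeartbeats 0 in
theorem kT_146959 : chkRangeT cert 146959 1205 = true := by decide +kernel

set_option maxHeartbeats 0 in
theorem kT_148164 : chkRangeT cert 148164 1247 = true := by decide +kernel

set_option maxHeartbeats 0 in
theorem kT_149411 : chkRangeT cert 149411 1349 = true := by decide +kernel

set_option maxHeartbeats 0 in
theorem kT_150760 : chkRangeT cert 150760 1334 = true := by decide +kernel

set_option maxHeartbeats 0 in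
theorem kT_152094 : chkRangeT cert 152094 1374 = true := by decide +kernel

set_option maxHeartbeats 0 in
theorem kT_153468 : chkRangeT cert 153468 1391 = true := by decide +kernel

set_option maxHeartbeats 0 in
theorem kT_154859 : chkRangeT cert 154859 1324 = true := by decide +kernel

set_option maxHeartbeats 0 in
theorem kT_156183 : chkRangeT cert 156183 1306 = true := by decide +kernel

set_option maxHeartbeats 0 in
theorem kT_157489 : chkRangeT cert 157489 1221 = true := by decide +kernel

set_option maxHeartbeats 0 in
theorem kT_158710 : chkRangeT cert 158710 1231 = true := by decide +kernel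

set_option maxHeartbeats 0 in
theorem kT_159941 : chkRangeT cert 159941 1311 = true := by decide +kernel

set_option maxHeartbeats 0 in
theorem kT_161252 : chkRangeT cert 161252 1209 = true := by decide +kernel

set_option maxHeartbeats 0 in
theorem kT_162461 : chkRangeT cert 162461 1326 = true := by decide +kernel

set_option maxHeartbeats 0 in
theorem kT_163787 : chkRangeT cert 163787 1331 = true := by decide +kernel

set_option maxHeartbeats 0 in
theorem kT_165118 : chkRangeT cert 165118 1290 = true := by decide +kernel

set_option maxHeartbeats 0 in
theorem kT_166408 : chkRangeT cert 166408 1158 = true := by decide +kernel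

end Cfsg.Agent.Helper17.TCD.Fi24A
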