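import Mathlib
import Cfsg.Agent.Helper17.TCD.Fi24A_Cert

set_option autoImplicit false

namespace Cfsg.Agent.Helper17.TCD.Fi24A

open Cfsg.Agent.Helper17.TC

set_option maxHeartbeats 0 in
theorem kF_174800 : chkRangeF cert 174800 230 = true := by decide +kernel

set_option maxHeartbeats 0 in
theorem kF_175030 : chkRangeF cert 175030 230 = true := by decide +kernel

set_option maxHeartbeats 0 in
theorem kF_175260 : chkRangeF cert 175260 230 = true := by decide +kernel

set_option maxHeartbeats 0 in
theorem kF_175490 : chkRangeF cert 175490 230 = true := by decide +kernel

set_option maxHeartbeats 0 in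
theorem kF_175720 : chkRangeF cert 175720 230 = true := by decide +kernel

set_option maxHeartbeats 0 in
theorem kF_175950 : chkRangeF cert 175950 230 = true := by decide +kernel

set_option maxHeartbeats 0 in
theorem kF_176180 : chkRangeF cert 176180 230 = true := by decide +kernel

set_option maxHeartbeats 0 in
theorem kF_176410 : chkRangeF cert 176410 230 = true := by decide +kernel

set_option maxHeartbeats 0 in
theorem kF_176640 : chkRangeF cert 176640 230 = true := by decide +kernel

set_option maxHeartbeats 0 in
theorem kF_176870 : chkRangeF cert 176870 230 = true := by decide +kernel

set_option maxHeartbeats 0 in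
theorem kF_177100 : chkRangeF cert 177100 230 = true := by decide +kernel

set_option maxHeartbeats 0 in
theorem kF_177330 : chkRangeF cert 177330 230 = true := by decide +kernel

set_option maxHeartbeats 0 in
theorem kF_177560 : chkRangeF cert 177560 230 = true := by decide +kernel

set_option maxHeartbeats 0 in
theorem kF_177790 : chkRangeF cert 177790 230 = true := by decide +kernel

set_option maxHeartbeats 0 in
theorem kF_178020 : chkRangeF cert 178020 230 = true := by decide +kernel

set_option maxHeartbeats 0 in
theorem kF_178250 : chkRangeF cert 178250 230 = true := by decide +kernel

end Cfsg.Agent.Helper17.TCD.Fi24A
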