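import Mathlib
import Cfsg.Agent.Helper17.TCD.Fi24A_Cert

set_option autoImplicit false

namespace Cfsg.Agent.Helper17.TCD.Fi24A

open Cfsg.Agent.Helper17.TC

set_option maxHeartbeats 0 in
theorem kF_178480 : chkRangeF cert 178480 230 = true := by decide +kernel

set_option maxHeartbeats 0 in
theorem kF_178710 : chkRangeF cert 178710 230 = true := by decide +kernel

set_option maxHeartbeats 0 in
theorem kF_178940 : chkRangeF cert 178940 230 = true := by decide +kernel

set_option maxHeartbeats 0 in
theorem kF_179170 : chkRangeF cert 179170 230 = true := by decide +kernel

set_option maxHeartbeats 0 in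
theorem kF_179400 : chkRangeF cert 179400 230 = true := by decide +kernel

set_option maxHeartbeats 0 in
theorem kF_179630 : chkRangeF cert 179630 230 = true := by decide +kernel

set_option maxHeartbeats 0 in
theorem kF_179860 : chkRangeF cert 179860 230 = true := by decide +kernel

set_option maxHeartbeats 0 in
theorem kF_180090 : chkRangeF cert 180090 230 = true := by decide +kernel

set_option maxHeartbeats 0 in
theorem kF_180320 : chkRangeF cert 180320 230 = true := by decide +kernel

set_option maxHeartbeats 0 in
theorem kF_180550 : chkRangeF cert 180550 230 = true := by decide +kernel

set_option maxHeartbeats 0 in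
theorem kF_180780 : chkRangeF cert 180780 230 = true := by decide +kernel

set_option maxHeartbeats 0 in
theorem kF_181010 : chkRangeF cert 181010 230 = true := by decide +kernel

set_option maxHeartbeats 0 in
theorem kF_181240 : chkRangeF cert 181240 230 = true := by decide +kernel

set_option maxHeartbeats 0 in
theorem kF_181470 : chkRangeF cert 181470 230 = true := by decide +kernel

set_option maxHeartbeats 0 in
theorem kF_181700 : chkRangeF cert 181700 230 = true := by decide +kernel

set_option maxHeartbeats 0 in
theorem kF_181930 : chkRangeF cert 181930 230 = true := by decide +kernel

end Cfsg.Agent.Helper17.TCD.Fi24A
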