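import Mathlib
import Cfsg.Agent.Helper17.TCD.Fi24A_Cert

set_option autoImplicit false

namespace Cfsg.Agent.Helper17.TCD.Fi24A

open Cfsg.Agent.Helper17.TC

set_option maxHeartbeats 0 in
theorem kF_182160 : chkRangeF cert 182160 230 = true := by decide +kernel

set_option maxHeartbeats 0 in
theorem kF_182390 : chkRangeF cert 182390 230 = true := by decide +kernel

set_option maxHeartbeats 0 in
theorem kF_182620 : chkRangeF cert 182620 230 = true := by decide +kernel

set_option maxHeartbeats 0 in
theorem kF_182850 : chkRangeF cert 182850 230 = true := by decide +kernel

set_option maxHeartbeats 0 in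
theorem kF_183080 : chkRangeF cert 183080 230 = true := by decide +kernel

set_option maxHeartbeats 0 in
theorem kF_183310 : chkRangeF cert 183310 230 = true := by decide +kernel

set_option maxHeartbeats 0 in
theorem kF_183540 : chkRangeF cert 183540 230 = true := by decide +kernel

set_option maxHeartbeats 0 in
theorem kF_183770 : chkRangeF cert 183770 230 = true := by decide +kernel

set_option maxHeartbeats 0 in
theorem kF_184000 : chkRangeF cert 184000 230 = true := by decide +kernel

set_option maxHeartbeats 0 in
theorem kF_184230 : chkRangeF cert 184230 230 = true := by decide +kernel

set_option maxHeartbeats 0 in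
theorem kF_184460 : chkRangeF cert 184460 230 = true := by decide +kernel

set_option maxHeartbeats 0 in
theorem kF_184690 : chkRangeF cert 184690 230 = true := by decide +kernel

set_option maxHeartbeats 0 in
theorem kF_184920 : chkRangeF cert 184920 230 = true := by decide +kernel

set_option maxHeartbeats 0 in
theorem kF_185150 : chkRangeF cert 185150 230 = true := by decide +kernel

set_option maxHeartbeats 0 in
theorem kF_185380 : chkRangeF cert 185380 230 = true := by decide +kernel

set_option maxHeartbeats 0 in
theorem kF_185610 : chkRangeF cert 185610 230 = true := by decide +kernel

end Cfsg.Agent.Helper17.TCD.Fi24A
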