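import Mathlib
import Cfsg.Agent.Helper17.TCD.Fi24A_Cert

set_option autoImplicit false

namespace Cfsg.Agent.Helper17.TCD.Fi24A

open Cfsg.Agent.Helper17.TC

set_option maxHeartbeats 0 in
theorem kF_185840 : chkRangeF cert 185840 230 = true := by decide +kernel

set_option maxHeartbeats 0 in
theorem kF_186070 : chkRangeF cert 186070 230 = true := by decide +kernel

set_option maxHeartbeats 0 in
theorem kF_186300 : chkRangeF cert 186300 230 = true := by decide +kernel

set_option maxHeartbeats 0 in
theorem kF_186530 : chkRangeF cert 186530 230 = true := by decide +kernel

set_option maxHeartbeats 0 in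
theorem kF_186760 : chkRangeF cert 186760 230 = true := by decide +kernel

set_option maxHeartbeats 0 in
theorem kF_186990 : chkRangeF cert 186990 230 = true := by decide +kernel

set_option maxHeartbeats 0 in
theorem kF_187220 : chkRangeF cert 187220 230 = true := by decide +kernel

set_option maxHeartbeats 0 in
theorem kF_187450 : chkRangeF cert 187450 230 = true := by decide +kernel

set_option maxHeartbeats 0 in
theorem kF_187680 : chkRangeF cert 187680 230 = true := by decide +kernel

set_option maxHeartbeats 0 in
theorem kF_187910 : chkRangeF cert 187910 230 = true := by decide +kernel

set_option maxHeartbeats 0 in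
theorem kF_188140 : chkRangeF cert 188140 230 = true := by decide +kernel

set_option maxHeartbeats 0 in
theorem kF_188370 : chkRangeF cert 188370 230 = true := by decide +kernel

set_option maxHeartbeats 0 in
theorem kF_188600 : chkRangeF cert 188600 230 = true := by decide +kernel

set_option maxHeartbeats 0 in
theorem kF_188830 : chkRangeF cert 188830 230 = true := by decide +kernel

set_option maxHeartbeats 0 in
theorem kF_189060 : chkRangeF cert 189060 230 = true := by decide +kernel

set_option maxHeartbeats 0 in
theorem kF_189290 : chkRangeF cert 189290 230 = true := by decide +kernel

end Cfsg.Agent.Helper17.TCD.Fi24A
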