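import Mathlib
import Cfsg.Agent.Helper17.TCD.Fi24A_Cert

set_option autoImplicit false

namespace Cfsg.Agent.Helper17.TCD.Fi24A

open Cfsg.Agent.Helper17.TC

set_option maxHeartbeats 0 in
theorem kF_189520 : chkRangeF cert 189520 230 = true := by decide +kernel

set_option maxHeartbeats 0 in
theorem kF_189750 : chkRangeF cert 189750 230 = true := by decide +kernel

set_option maxHeartbeats 0 in
theorem kF_189980 : chkRangeF cert 189980 230 = true := by decide +kernel

set_option maxHeartbeats 0 in
theorem kF_190210 : chkRangeF cert 190210 230 = true := by decide +kernel

set_option maxHeartbeats 0 in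
theorem kF_190440 : chkRangeF cert 190440 230 = true := by decide +kernel

set_option maxHeartbeats 0 in
theorem kF_190670 : chkRangeF cert 190670 230 = true := by decide +kernel

set_option maxHeartbeats 0 in
theorem kF_190900 : chkRangeF cert 190900 230 = true := by decide +kernel

set_option maxHeartbeats 0 in
theorem kF_191130 : chkRangeF cert 191130 230 = true := by decide +kernel

set_option maxHeartbeats 0 in
theorem kF_191360 : chkRangeF cert 191360 230 = true := by decide +kernel

set_option maxHeartbeats 0 in
theorem kF_191590 : chkRangeF cert 191590 230 = true := by decide +kernel

set_option maxHeartbeats 0 in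
theorem kF_191820 : chkRangeF cert 191820 230 = true := by decide +kernel

set_option maxHeartbeats 0 in
theorem kF_192050 : chkRangeF cert 192050 230 = true := by decide +kernel

set_option maxHeartbeats 0 in
theorem kF_192280 : chkRangeF cert 192280 230 = true := by decide +kernel

set_option maxHeartbeats 0 in
theorem kF_192510 : chkRangeF cert 192510 230 = true := by decide +kernel

set_option maxHeartbeats 0 in
theorem kF_192740 : chkRangeF cert 192740 230 = true := by decide +kernel

set_option maxHeartbeats 0 in
theorem kF_192970 : chkRangeF cert 192970 230 = true := by decide +kernel

end Cfsg.Agent.Helper17.TCD.Fi24A
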