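import Mathlib
import Cfsg.Agent.Helper17.TCD.Fi24A_Cert

set_option autoImplicit false

namespace Cfsg.Agent.Helper17.TCD.Fi24A

open Cfsg.Agent.Helper17.TC

set_option maxHeartbeats 0 in
theorem kF_193200 : chkRangeF cert 193200 230 = true := by decide +kernel

set_option maxHeartbeats 0 in
theorem kF_193430 : chkRangeF cert 193430 230 = true := by decide +kernel

set_option maxHeartbeats 0 in
theorem kF_193660 : chkRangeF cert 193660 230 = true := by decide +kernel

set_option maxHeartbeats 0 in
theorem kF_193890 : chkRangeF cert 193890 230 = true := by decide +kernel

set_option maxHeartbeats 0 in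
theorem kF_194120 : chkRangeF cert 194120 230 = true := by decide +kernel

set_option maxHeartbeats 0 in
theorem kF_194350 : chkRangeF cert 194350 230 = true := by decide +kernel

set_option maxHeartbeats 0 in
theorem kF_194580 : chkRangeF cert 194580 230 = true := by decide +kernel

set_option maxHeartbeats 0 in
theorem kF_194810 : chkRangeF cert 194810 230 = true := by decide +kernel

set_option maxHeartbeats 0 in
theorem kF_195040 : chkRangeF cert 195040 230 = true := by decide +kernel

set_option maxHeartbeats 0 in
theorem kF_195270 : chkRangeF cert 195270 230 = true := by decide +kernel

set_option maxHeartbeats 0 in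
theorem kF_195500 : chkRangeF cert 195500 230 = true := by decide +kernel

set_option maxHeartbeats 0 in
theorem kF_195730 : chkRangeF cert 195730 230 = true := by decide +kernel

set_option maxHeartbeats 0 in
theorem kF_195960 : chkRangeF cert 195960 230 = true := by decide +kernel

set_option maxHeartbeats 0 in
theorem kF_196190 : chkRangeF cert 196190 230 = true := by decide +kernel

set_option maxHeartbeats 0 in
theorem kF_196420 : chkRangeF cert 196420 230 = true := by decide +kernel

set_option maxHeartbeats 0 in
theorem kF_196650 : chkRangeF cert 196650 230 = true := by decide +kernel

end Cfsg.Agent.Helper17.TCD.Fi24A
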