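import Mathlib
import Cfsg.Agent.Helper17.TCD.Fi24A_Cert

set_option autoImplicit false

namespace Cfsg.Agent.Helper17.TCD.Fi24A

open Cfsg.Agent.Helper17.TC

set_option maxHeartbeats 0 in
theorem kF_196880 : chkRangeF cert 196880 230 = true := by decide +kernel

set_option maxHeartbeats 0 in
theorem kF_197110 : chkRangeF cert 197110 230 = true := by decide +kernel

set_option maxHeartbeats 0 in
theorem kF_197340 : chkRangeF cert 197340 230 = true := by decide +kernel

set_option maxHeartbeats 0 in
theorem kF_197570 : chkRangeF cert 197570 230 = true := by decide +kernel

set_option maxHeartbeats 0 in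
theorem kF_197800 : chkRangeF cert 197800 230 = true := by decide +kernel

set_option maxHeartbeats 0 in
theorem kF_198030 : chkRangeF cert 198030 230 = true := by decide +kernel

set_option maxHeartbeats 0 in
theorem kF_198260 : chkRangeF cert 198260 230 = true := by decide +kernel

set_option maxHeartbeats 0 in
theorem kF_198490 : chkRangeF cert 198490 230 = true := by decide +kernel

set_option maxHeartbeats 0 in
theorem kF_198720 : chkRangeF cert 198720 230 = true := by decide +kernel

set_option maxHeartbeats 0 in
theorem kF_198950 : chkRangeF cert 198950 230 = true := by decide +kernel

set_option maxHeartbeats 0 in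
theorem kF_199180 : chkRangeF cert 199180 230 = true := by decide +kernel

set_option maxHeartbeats 0 in
theorem kF_199410 : chkRangeF cert 199410 230 = true := by decide +kernel

set_option maxHeartbeats 0 in
theorem kF_199640 : chkRangeF cert 199640 230 = true := by decide +kernel

set_option maxHeartbeats 0 in
theorem kF_199870 : chkRangeF cert 199870 230 = true := by decide +kernel

set_option maxHeartbeats 0 in
theorem kF_200100 : chkRangeF cert 200100 230 = true := by decide +kernel

set_option maxHeartbeats 0 in
theorem kF_200330 : chkRangeF cert 200330 230 = true := by decide +kernel

end Cfsg.Agent.Helper17.TCD.Fi24A
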