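import Mathlib
import Cfsg.Agent.Helper17.TCD.Fi24A_Cert

set_option autoImplicit false

namespace Cfsg.Agent.Helper17.TCD.Fi24A

open Cfsg.Agent.Helper17.TC

set_option maxHeartbeats 0 in
theorem kF_200560 : chkRangeF cert 200560 230 = true := by decide +kernel

set_option maxHeartbeats 0 in
theorem kF_200790 : chkRangeF cert 200790 230 = true := by decide +kernel

set_option maxHeartbeats 0 in
theorem kF_201020 : chkRangeF cert 201020 230 = true := by decide +kernel

set_option maxHeartbeats 0 in
theorem kF_201250 : chkRangeF cert 201250 230 = true := by decide +kernel

set_option maxHeartbeats 0 in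
theorem kF_201480 : chkRangeF cert 201480 230 = true := by decide +kernel

set_option maxHeartbeats 0 in
theorem kF_201710 : chkRangeF cert 201710 230 = true := by decide +kernel

set_option maxHeartbeats 0 in
theorem kF_201940 : chkRangeF cert 201940 230 = true := by decide +kernel

set_option maxHeartbeats 0 in
theorem kF_202170 : chkRangeF cert 202170 230 = true := by decide +kernel

set_option maxHeartbeats 0 in
theorem kF_202400 : chkRangeF cert 202400 230 = true := by decide +kernel

set_option maxHeartbeats 0 in
theorem kF_202630 : chkRangeF cert 202630 230 = true := by decide +kernel

set_option maxHeartbeats 0 in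
theorem kF_202860 : chkRangeF cert 202860 230 = true := by decide +kernel

set_option maxHeartbeats 0 in
theorem kF_203090 : chkRangeF cert 203090 230 = true := by decide +kernel

set_option maxHeartbeats 0 in
theorem kF_203320 : chkRangeF cert 203320 230 = true := by decide +kernel

set_option maxHeartbeats 0 in
theorem kF_203550 : chkRangeF cert 203550 230 = true := by decide +kernel

set_option maxHeartbeats 0 in
theorem kF_203780 : chkRangeF cert 203780 230 = true := by decide +kernel

set_option maxHeartbeats 0 in
theorem kF_204010 : chkRangeF cert 204010 230 = true := by decide +kernel

end Cfsg.Agent.Helper17.TCD.Fi24A
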