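import Mathlib
import Cfsg.Agent.Helper17.TCD.Fi24A_Cert

set_option autoImplicit false

namespace Cfsg.Agent.Helper17.TCD.Fi24A

open Cfsg.Agent.Helper17.TC

set_option maxHeartbeats 0 in
theorem kF_204240 : chkRangeF cert 204240 230 = true := by decide +kernel

set_option maxHeartbeats 0 in
theorem kF_204470 : chkRangeF cert 204470 230 = true := by decide +kernel

set_option maxHeartbeats 0 in
theorem kF_204700 : chkRangeF cert 204700 230 = true := by decide +kernel

set_option maxHeartbeats 0 in
theorem kF_204930 : chkRangeF cert 204930 230 = true := by decide +kernel

set_option maxHeartbeats 0 in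
theorem kF_205160 : chkRangeF cert 205160 230 = true := by decide +kernel

set_option maxHeartbeats 0 in
theorem kF_205390 : chkRangeF cert 205390 230 = true := by decide +kernel

set_option maxHeartbeats 0 in
theorem kF_205620 : chkRangeF cert 205620 230 = true := by decide +kernel

set_option maxHeartbeats 0 in
theorem kF_205850 : chkRangeF cert 205850 230 = true := by decide +kernel

set_option maxHeartbeats 0 in
theorem kF_206080 : chkRangeF cert 206080 230 = true := by decide +kernel

set_option maxHeartbeats 0 in
theorem kF_206310 : chkRangeF cert 206310 230 = true := by decide +kernel

set_option maxHeartbeats 0 in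
theorem kF_206540 : chkRangeF cert 206540 230 = true := by decide +kernel

set_option maxHeartbeats 0 in
theorem kF_206770 : chkRangeF cert 206770 230 = true := by decide +kernel

set_option maxHeartbeats 0 in
theorem kF_207000 : chkRangeF cert 207000 230 = true := by decide +kernel

set_option maxHeartbeats 0 in
theorem kF_207230 : chkRangeF cert 207230 230 = true := by decide +kernel

set_option maxHeartbeats 0 in
theorem kF_207460 : chkRangeF cert 207460 230 = true := by decide +kernel

set_option maxHeartbeats 0 in
theorem kF_207690 : chkRangeF cert 207690 230 = true := by decide +kernel

end Cfsg.Agent.Helper17.TCD.Fi24A
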