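import Mathlib
import Cfsg.Agent.Helper17.TCD.Fi24A_Cert

set_option autoImplicit false

namespace Cfsg.Agent.Helper17.TCD.Fi24A

open Cfsg.Agent.Helper17.TC

set_option maxHeartbeats 0 in
theorem kF_207920 : chkRangeF cert 207920 230 = true := by decide +kernel

set_option maxHeartbeats 0 in
theorem kF_208150 : chkRangeF cert 208150 230 = true := by decide +kernel

set_option maxHeartbeats 0 in
theorem kF_208380 : chkRangeF cert 208380 230 = true := by decide +kernel

set_option maxHeartbeats 0 in
theorem kF_208610 : chkRangeF cert 208610 230 = true := by decide +kernel

set_option maxHeartbeats 0 in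
theorem kF_208840 : chkRangeF cert 208840 230 = true := by decide +kernel

set_option maxHeartbeats 0 in
theorem kF_209070 : chkRangeF cert 209070 230 = true := by decide +kernel

set_option maxHeartbeats 0 in
theorem kF_209300 : chkRangeF cert 209300 230 = true := by decide +kernel

set_option maxHeartbeats 0 in
theorem kF_209530 : chkRangeF cert 209530 230 = true := by decide +kernel

set_option maxHeartbeats 0 in
theorem kF_209760 : chkRangeF cert 209760 230 = true := by decide +kernel

set_option maxHeartbeats 0 in
theorem kF_209990 : chkRangeF cert 209990 230 = true := by decide +kernel

set_option maxHeartbeats 0 in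
theorem kF_210220 : chkRangeF cert 210220 230 = true := by decide +kernel

set_option maxHeartbeats 0 in
theorem kF_210450 : chkRangeF cert 210450 230 = true := by decide +kernel

set_option maxHeartbeats 0 in
theorem kF_210680 : chkRangeF cert 210680 230 = true := by decide +kernel

set_option maxHeartbeats 0 in
theorem kF_210910 : chkRangeF cert 210910 230 = true := by decide +kernel

set_option maxHeartbeats 0 in
theorem kF_211140 : chkRangeF cert 211140 230 = true := by decide +kernel

set_option maxHeartbeats 0 in
theorem kF_211370 : chkRangeF cert 211370 230 = true := by decide +kernel

end Cfsg.Agent.Helper17.TCD.Fi24A
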