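import Mathlib
import Cfsg.Agent.Helper17.TCD.Fi24A_Cert

set_option autoImplicit false

namespace Cfsg.Agent.Helper17.TCD.Fi24A

open Cfsg.Agent.Helper17.TC

set_option maxHeartbeats 0 in
theorem kT_167566 : chkRangeT cert 167566 1288 = true := by decide +kernel

set_option maxHeartbeats 0 in
theorem kT_168854 : chkRangeT cert 168854 1143 = true := by decide +kernel

set_option maxHeartbeats 0 in
theorem kT_169997 : chkRangeT cert 169997 1199 = true := by decide +kernel

set_option maxHeartbeats 0 in
theorem kT_171196 : chkRangeT cert 171196 1200 = true := by decide +kernel

set_option maxHeartbeats 0 in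
theorem kT_172396 : chkRangeT cert 172396 1335 = true := by decide +kernel

set_option maxHeartbeats 0 in
theorem kT_173731 : chkRangeT cert 173731 1358 = true := by decide +kernel

set_option maxHeartbeats 0 in
theorem kT_175089 : chkRangeT cert 175089 1297 = true := by decide +kernel

set_option maxHeartbeats 0 in
theorem kT_176386 : chkRangeT cert 176386 1398 = true := by decide +kernel

set_option maxHeartbeats 0 in
theorem kT_177784 : chkRangeT cert 177784 1291 = true := by decide +kernel

set_option maxHeartbeats 0 in
theorem kT_179075 : chkRangeT cert 179075 1325 = true := by decide +kernel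

set_option maxHeartbeats 0 in
theorem kT_180400 : chkRangeT cert 180400 1211 = true := by decide +kernel

set_option maxHeartbeats 0 in
theorem kT_181611 : chkRangeT cert 181611 1256 = true := by decide +kernel

set_option maxHeartbeats 0 in
theorem kT_182867 : chkRangeT cert 182867 1219 = true := by decide +kernel

set_option maxHeartbeats 0 in
theorem kT_184086 : chkRangeT cert 184086 1285 = true := by decide +kernel

set_option maxHeartbeats 0 in
theorem kT_185371 : chkRangeT cert 185371 1209 = true := by decide +kernel

set_option maxHeartbeats 0 in
theorem kT_186580 : chkRangeT cert 186580 1266 = true := by decide +kernel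

end Cfsg.Agent.Helper17.TCD.Fi24A
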