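import Mathlib
import Cfsg.Agent.Helper17.TCD.Fi24A_Cert

set_option autoImplicit false

namespace Cfsg.Agent.Helper17.TCD.Fi24A

open Cfsg.Agent.Helper17.TC

set_option maxHeartbeats 0 in
theorem kF_211600 : chkRangeF cert 211600 230 = true := by decide +kernel

set_option maxHeartbeats 0 in
theorem kF_211830 : chkRangeF cert 211830 230 = true := by decide +kernel

set_option maxHeartbeats 0 in
theorem kF_212060 : chkRangeF cert 212060 230 = true := by decide +kernel

set_option maxHeartbeats 0 in
theorem kF_212290 : chkRangeF cert 212290 230 = true := by decide +kernel

set_option maxHeartbeats 0 in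
theorem kF_212520 : chkRangeF cert 212520 230 = true := by decide +kernel

set_option maxHeartbeats 0 in
theorem kF_212750 : chkRangeF cert 212750 230 = true := by decide +kernel

set_option maxHeartbeats 0 in
theorem kF_212980 : chkRangeF cert 212980 230 = true := by decide +kernel

set_option maxHeartbeats 0 in
theorem kF_213210 : chkRangeF cert 213210 230 = true := by decide +kernel

set_option maxHeartbeats 0 in
theorem kF_213440 : chkRangeF cert 213440 230 = true := by decide +kernel

set_option maxHeartbeats 0 in
theorem kF_213670 : chkRangeF cert 213670 230 = true := by decide +kernel

set_option maxHeartbeats 0 in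
theorem kF_213900 : chkRangeF cert 213900 230 = true := by decide +kernel

set_option maxHeartbeats 0 in
theorem kF_214130 : chkRangeF cert 214130 230 = true := by decide +kernel

set_option maxHeartbeats 0 in
theorem kF_214360 : chkRangeF cert 214360 230 = true := by decide +kernel

set_option maxHeartbeats 0 in
theorem kF_214590 : chkRangeF cert 214590 230 = true := by decide +kernel

set_option maxHeartbeats 0 in
theorem kF_214820 : chkRangeF cert 214820 230 = true := by decide +kernel

set_option maxHeartbeats 0 in
theorem kF_215050 : chkRangeF cert 215050 230 = true := by decide +kernel

end Cfsg.Agent.Helper17.TCD.Fi24A
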