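import Mathlib
import Cfsg.Agent.Helper17.TCD.Fi24A_Cert

set_option autoImplicit false

namespace Cfsg.Agent.Helper17.TCD.Fi24A

open Cfsg.Agent.Helper17.TC

set_option maxHeartbeats 0 in
theorem kF_215280 : chkRangeF cert 215280 230 = true := by decide +kernel

set_option maxHeartbeats 0 in
theorem kF_215510 : chkRangeF cert 215510 230 = true := by decide +kernel

set_option maxHeartbeats 0 in
theorem kF_215740 : chkRangeF cert 215740 230 = true := by decide +kernel

set_option maxHeartbeats 0 in
theorem kF_215970 : chkRangeF cert 215970 230 = true := by decide +kernel

set_option maxHeartbeats 0 in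
theorem kF_216200 : chkRangeF cert 216200 230 = true := by decide +kernel

set_option maxHeartbeats 0 in
theorem kF_216430 : chkRangeF cert 216430 230 = true := by decide +kernel

set_option maxHeartbeats 0 in
theorem kF_216660 : chkRangeF cert 216660 230 = true := by decide +kernel

set_option maxHeartbeats 0 in
theorem kF_216890 : chkRangeF cert 216890 230 = true := by decide +kernel

set_option maxHeartbeats 0 in
theorem kF_217120 : chkRangeF cert 217120 230 = true := by decide +kernel

set_option maxHeartbeats 0 in
theorem kF_217350 : chkRangeF cert 217350 230 = true := by decide +kernel

set_option maxHeartbeats 0 in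
theorem kF_217580 : chkRangeF cert 217580 230 = true := by decide +kernel

set_option maxHeartbeats 0 in
theorem kF_217810 : chkRangeF cert 217810 230 = true := by decide +kernel

set_option maxHeartbeats 0 in
theorem kF_218040 : chkRangeF cert 218040 230 = true := by decide +kernel

set_option maxHeartbeats 0 in
theorem kF_218270 : chkRangeF cert 218270 230 = true := by decide +kernel

set_option maxHeartbeats 0 in
theorem kF_218500 : chkRangeF cert 218500 230 = true := by decide +kernel

set_option maxHeartbeats 0 in
theorem kF_218730 : chkRangeF cert 218730 230 = true := by decide +kernel

end Cfsg.Agent.Helper17.TCD.Fi24A
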