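import Mathlib
import Cfsg.Agent.Helper17.TCD.Fi24A_Cert

set_option autoImplicit false

namespace Cfsg.Agent.Helper17.TCD.Fi24A

open Cfsg.Agent.Helper17.TC

set_option maxHeartbeats 0 in
theorem kF_218960 : chkRangeF cert 218960 230 = true := by decide +kernel

set_option maxHeartbeats 0 in
theorem kF_219190 : chkRangeF cert 219190 230 = true := by decide +kernel

set_option maxHeartbeats 0 in
theorem kF_219420 : chkRangeF cert 219420 230 = true := by decide +kernel

set_option maxHeartbeats 0 in
theorem kF_219650 : chkRangeF cert 219650 230 = true := by decide +kernel

set_option maxHeartbeats 0 in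
theorem kF_219880 : chkRangeF cert 219880 230 = true := by decide +kernel

set_option maxHeartbeats 0 in
theorem kF_220110 : chkRangeF cert 220110 230 = true := by decide +kernel

set_option maxHeartbeats 0 in
theorem kF_220340 : chkRangeF cert 220340 230 = true := by decide +kernel

set_option maxHeartbeats 0 in
theorem kF_220570 : chkRangeF cert 220570 230 = true := by decide +kernel

set_option maxHeartbeats 0 in
theorem kF_220800 : chkRangeF cert 220800 230 = true := by decide +kernel

set_option maxHeartbeats 0 in
theorem kF_221030 : chkRangeF cert 221030 230 = true := by decide +kernel

set_option maxHeartbeats 0 in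
theorem kF_221260 : chkRangeF cert 221260 230 = true := by decide +kernel

set_option maxHeartbeats 0 in
theorem kF_221490 : chkRangeF cert 221490 230 = true := by decide +kernel

set_option maxHeartbeats 0 in
theorem kF_221720 : chkRangeF cert 221720 230 = true := by decide +kernel

set_option maxHeartbeats 0 in
theorem kF_221950 : chkRangeF cert 221950 230 = true := by decide +kernel

set_option maxHeartbeats 0 in
theorem kF_222180 : chkRangeF cert 222180 230 = true := by decide +kernel

set_option maxHeartbeats 0 in
theorem kF_222410 : chkRangeF cert 222410 230 = true := by decide +kernel

end Cfsg.Agent.Helper17.TCD.Fi24A
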