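import Mathlib
import Cfsg.Agent.Helper17.TCD.Fi24A_Cert

set_option autoImplicit false

namespace Cfsg.Agent.Helper17.TCD.Fi24A

open Cfsg.Agent.Helper17.TC

set_option maxHeartbeats 0 in
theorem kF_222640 : chkRangeF cert 222640 230 = true := by decide +kernel

set_option maxHeartbeats 0 in
theorem kF_222870 : chkRangeF cert 222870 230 = true := by decide +kernel

set_option maxHeartbeats 0 in
theorem kF_223100 : chkRangeF cert 223100 230 = true := by decide +kernel

set_option maxHeartbeats 0 in
theorem kF_223330 : chkRangeF cert 223330 230 = true := by decide +kernel

set_option maxHeartbeats 0 in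
theorem kF_223560 : chkRangeF cert 223560 230 = true := by decide +kernel

set_option maxHeartbeats 0 in
theorem kF_223790 : chkRangeF cert 223790 230 = true := by decide +kernel

set_option maxHeartbeats 0 in
theorem kF_224020 : chkRangeF cert 224020 230 = true := by decide +kernel

set_option maxHeartbeats 0 in
theorem kF_224250 : chkRangeF cert 224250 230 = true := by decide +kernel

set_option maxHeartbeats 0 in
theorem kF_224480 : chkRangeF cert 224480 230 = true := by decide +kernel

set_option maxHeartbeats 0 in
theorem kF_224710 : chkRangeF cert 224710 230 = true := by decide +kernel

set_option maxHeartbeats 0 in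
theorem kF_224940 : chkRangeF cert 224940 230 = true := by decide +kernel

set_option maxHeartbeats 0 in
theorem kF_225170 : chkRangeF cert 225170 230 = true := by decide +kernel

set_option maxHeartbeats 0 in
theorem kF_225400 : chkRangeF cert 225400 230 = true := by decide +kernel

set_option maxHeartbeats 0 in
theorem kF_225630 : chkRangeF cert 225630 230 = true := by decide +kernel

set_option maxHeartbeats 0 in
theorem kF_225860 : chkRangeF cert 225860 230 = true := by decide +kernel

set_option maxHeartbeats 0 in
theorem kF_226090 : chkRangeF cert 226090 230 = true := by decide +kernel

end Cfsg.Agent.Helper17.TCD.Fi24A
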