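import Mathlib
import Cfsg.Agent.Helper17.TCD.Fi24A_Cert

set_option autoImplicit false

namespace Cfsg.Agent.Helper17.TCD.Fi24A

open Cfsg.Agent.Helper17.TC

set_option maxHeartbeats 0 in
theorem kF_226320 : chkRangeF cert 226320 230 = true := by decide +kernel

set_option maxHeartbeats 0 in
theorem kF_226550 : chkRangeF cert 226550 230 = true := by decide +kernel

set_option maxHeartbeats 0 in
theorem kF_226780 : chkRangeF cert 226780 230 = true := by decide +kernel

set_option maxHeartbeats 0 in
theorem kF_227010 : chkRangeF cert 227010 230 = true := by decide +kernel

set_option maxHeartbeats 0 in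
theorem kF_227240 : chkRangeF cert 227240 230 = true := by decide +kernel

set_option maxHeartbeats 0 in
theorem kF_227470 : chkRangeF cert 227470 230 = true := by decide +kernel

set_option maxHeartbeats 0 in
theorem kF_227700 : chkRangeF cert 227700 230 = true := by decide +kernel

set_option maxHeartbeats 0 in
theorem kF_227930 : chkRangeF cert 227930 230 = true := by decide +kernel

set_option maxHeartbeats 0 in
theorem kF_228160 : chkRangeF cert 228160 230 = true := by decide +kernel

set_option maxHeartbeats 0 in
theorem kF_228390 : chkRangeF cert 228390 230 = true := by decide +kernel

set_option maxHeartbeats 0 in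
theorem kF_228620 : chkRangeF cert 228620 230 = true := by decide +kernel

set_option maxHeartbeats 0 in
theorem kF_228850 : chkRangeF cert 228850 230 = true := by decide +kernel

set_option maxHeartbeats 0 in
theorem kF_229080 : chkRangeF cert 229080 230 = true := by decide +kernel

set_option maxHeartbeats 0 in
theorem kF_229310 : chkRangeF cert 229310 230 = true := by decide +kernel

set_option maxHeartbeats 0 in
theorem kF_229540 : chkRangeF cert 229540 230 = true := by decide +kernel

set_option maxHeartbeats 0 in
theorem kF_229770 : chkRangeF cert 229770 230 = true := by decide +kernel

end Cfsg.Agent.Helper17.TCD.Fi24A
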