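import Mathlib
import Cfsg.Agent.Helper17.TCD.Fi24A_Cert

set_option autoImplicit false

namespace Cfsg.Agent.Helper17.TCD.Fi24A

open Cfsg.Agent.Helper17.TC

set_option maxHeartbeats 0 in
theorem kF_230000 : chkRangeF cert 230000 230 = true := by decide +kernel

set_option maxHeartbeats 0 in
theorem kF_230230 : chkRangeF cert 230230 230 = true := by decide +kernel

set_option maxHeartbeats 0 in
theorem kF_230460 : chkRangeF cert 230460 230 = true := by decide +kernel

set_option maxHeartbeats 0 in
theorem kF_230690 : chkRangeF cert 230690 230 = true := by decide +kernel

set_option maxHeartbeats 0 in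
theorem kF_230920 : chkRangeF cert 230920 230 = true := by decide +kernel

set_option maxHeartbeats 0 in
theorem kF_231150 : chkRangeF cert 231150 230 = true := by decide +kernel

set_option maxHeartbeats 0 in
theorem kF_231380 : chkRangeF cert 231380 230 = true := by decide +kernel

set_option maxHeartbeats 0 in
theorem kF_231610 : chkRangeF cert 231610 230 = true := by decide +kernel

set_option maxHeartbeats 0 in
theorem kF_231840 : chkRangeF cert 231840 230 = true := by decide +kernel

set_option maxHeartbeats 0 in
theorem kF_232070 : chkRangeF cert 232070 230 = true := by decide +kernel

set_option maxHeartbeats 0 in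
theorem kF_232300 : chkRangeF cert 232300 230 = true := by decide +kernel

set_option maxHeartbeats 0 in
theorem kF_232530 : chkRangeF cert 232530 230 = true := by decide +kernel

set_option maxHeartbeats 0 in
theorem kF_232760 : chkRangeF cert 232760 230 = true := by decide +kernel

set_option maxHeartbeats 0 in
theorem kF_232990 : chkRangeF cert 232990 230 = true := by decide +kernel

set_option maxHeartbeats 0 in
theorem kF_233220 : chkRangeF cert 233220 230 = true := by decide +kernel

set_option maxHeartbeats 0 in
theorem kF_233450 : chkRangeF cert 233450 230 = true := by decide +kernel

end Cfsg.Agent.Helper17.TCD.Fi24A
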