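import Mathlib
import Cfsg.Agent.Helper17.TCD.Fi24A_Cert

set_option autoImplicit false

namespace Cfsg.Agent.Helper17.TCD.Fi24A

open Cfsg.Agent.Helper17.TC

set_option maxHeartbeats 0 in
theorem kF_233680 : chkRangeF cert 233680 230 = true := by decide +kernel

set_option maxHeartbeats 0 in
theorem kF_233910 : chkRangeF cert 233910 230 = true := by decide +kernel

set_option maxHeartbeats 0 in
theorem kF_234140 : chkRangeF cert 234140 230 = true := by decide +kernel

set_option maxHeartbeats 0 in
theorem kF_234370 : chkRangeF cert 234370 230 = true := by decide +kernel

set_option maxHeartbeats 0 in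
theorem kF_234600 : chkRangeF cert 234600 230 = true := by decide +kernel

set_option maxHeartbeats 0 in
theorem kF_234830 : chkRangeF cert 234830 230 = true := by decide +kernel

set_option maxHeartbeats 0 in
theorem kF_235060 : chkRangeF cert 235060 230 = true := by decide +kernel

set_option maxHeartbeats 0 in
theorem kF_235290 : chkRangeF cert 235290 230 = true := by decide +kernel

set_option maxHeartbeats 0 in
theorem kF_235520 : chkRangeF cert 235520 230 = true := by decide +kernel

set_option maxHeartbeats 0 in
theorem kF_235750 : chkRangeF cert 235750 230 = true := by decide +kernel

set_option maxHeartbeats 0 in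
theorem kF_235980 : chkRangeF cert 235980 230 = true := by decide +kernel

set_option maxHeartbeats 0 in
theorem kF_236210 : chkRangeF cert 236210 230 = true := by decide +kernel

set_option maxHeartbeats 0 in
theorem kF_236440 : chkRangeF cert 236440 230 = true := by decide +kernel

set_option maxHeartbeats 0 in
theorem kF_236670 : chkRangeF cert 236670 230 = true := by decide +kernel

set_option maxHeartbeats 0 in
theorem kF_236900 : chkRangeF cert 236900 230 = true := by decide +kernel

set_option maxHeartbeats 0 in
theorem kF_237130 : chkRangeF cert 237130 230 = true := by decide +kernel

end Cfsg.Agent.Helper17.TCD.Fi24A
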