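import Mathlib
import Cfsg.Agent.Helper17.TCD.Fi24A_Cert

set_option autoImplicit false

namespace Cfsg.Agent.Helper17.TCD.Fi24A

open Cfsg.Agent.Helper17.TC

set_option maxHeartbeats 0 in
theorem kF_237360 : chkRangeF cert 237360 230 = true := by decide +kernel

set_option maxHeartbeats 0 in
theorem kF_237590 : chkRangeF cert 237590 230 = true := by decide +kernel

set_option maxHeartbeats 0 in
theorem kF_237820 : chkRangeF cert 237820 230 = true := by decide +kernel

set_option maxHeartbeats 0 in
theorem kF_238050 : chkRangeF cert 238050 230 = true := by decide +kernel

set_option maxHeartbeats 0 in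
theorem kF_238280 : chkRangeF cert 238280 230 = true := by decide +kernel

set_option maxHeartbeats 0 in
theorem kF_238510 : chkRangeF cert 238510 230 = true := by decide +kernel

set_option maxHeartbeats 0 in
theorem kF_238740 : chkRangeF cert 238740 230 = true := by decide +kernel

set_option maxHeartbeats 0 in
theorem kF_238970 : chkRangeF cert 238970 230 = true := by decide +kernel

set_option maxHeartbeats 0 in
theorem kF_239200 : chkRangeF cert 239200 230 = true := by decide +kernel

set_option maxHeartbeats 0 in
theorem kF_239430 : chkRangeF cert 239430 230 = true := by decide +kernel

set_option maxHeartbeats 0 in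
theorem kF_239660 : chkRangeF cert 239660 230 = true := by decide +kernel

set_option maxHeartbeats 0 in
theorem kF_239890 : chkRangeF cert 239890 230 = true := by decide +kernel

set_option maxHeartbeats 0 in
theorem kF_240120 : chkRangeF cert 240120 230 = true := by decide +kernel

set_option maxHeartbeats 0 in
theorem kF_240350 : chkRangeF cert 240350 230 = true := by decide +kernel

set_option maxHeartbeats 0 in
theorem kF_240580 : chkRangeF cert 240580 230 = true := by decide +kernel

set_option maxHeartbeats 0 in
theorem kF_240810 : chkRangeF cert 240810 230 = true := by decide +kernel

end Cfsg.Agent.Helper17.TCD.Fi24A
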