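import Mathlib
import Cfsg.Agent.Helper17.TCD.Fi24A_Cert

set_option autoImplicit false

namespace Cfsg.Agent.Helper17.TCD.Fi24A

open Cfsg.Agent.Helper17.TC

set_option maxHeartbeats 0 in
theorem kF_241040 : chkRangeF cert 241040 230 = true := by decide +kernel

set_option maxHeartbeats 0 in
theorem kF_241270 : chkRangeF cert 241270 230 = true := by decide +kernel

set_option maxHeartbeats 0 in
theorem kF_241500 : chkRangeF cert 241500 230 = true := by decide +kernel

set_option maxHeartbeats 0 in
theorem kF_241730 : chkRangeF cert 241730 230 = true := by decide +kernel

set_option maxHeartbeats 0 in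
theorem kF_241960 : chkRangeF cert 241960 230 = true := by decide +kernel

set_option maxHeartbeats 0 in
theorem kF_242190 : chkRangeF cert 242190 230 = true := by decide +kernel

set_option maxHeartbeats 0 in
theorem kF_242420 : chkRangeF cert 242420 230 = true := by decide +kernel

set_option maxHeartbeats 0 in
theorem kF_242650 : chkRangeF cert 242650 230 = true := by decide +kernel

set_option maxHeartbeats 0 in
theorem kF_242880 : chkRangeF cert 242880 230 = true := by decide +kernel

set_option maxHeartbeats 0 in
theorem kF_243110 : chkRangeF cert 243110 230 = true := by decide +kernel

set_option maxHeartbeats 0 in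
theorem kF_243340 : chkRangeF cert 243340 230 = true := by decide +kernel

set_option maxHeartbeats 0 in
theorem kF_243570 : chkRangeF cert 243570 230 = true := by decide +kernel

set_option maxHeartbeats 0 in
theorem kF_243800 : chkRangeF cert 243800 230 = true := by decide +kernel

set_option maxHeartbeats 0 in
theorem kF_244030 : chkRangeF cert 244030 230 = true := by decide +kernel

set_option maxHeartbeats 0 in
theorem kF_244260 : chkRangeF cert 244260 230 = true := by decide +kernel

set_option maxHeartbeats 0 in
theorem kF_244490 : chkRangeF cert 244490 230 = true := by decide +kernel

end Cfsg.Agent.Helper17.TCD.Fi24A
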