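import Mathlib
import Cfsg.Agent.Helper17.TCD.Fi24A_Cert

set_option autoImplicit false

namespace Cfsg.Agent.Helper17.TCD.Fi24A

open Cfsg.Agent.Helper17.TC

set_option maxHeartbeats 0 in
theorem kF_244720 : chkRangeF cert 244720 230 = true := by decide +kernel

set_option maxHeartbeats 0 in
theorem kF_244950 : chkRangeF cert 244950 230 = true := by decide +kernel

set_option maxHeartbeats 0 in
theorem kF_245180 : chkRangeF cert 245180 230 = true := by decide +kernel

set_option maxHeartbeats 0 in
theorem kF_245410 : chkRangeF cert 245410 230 = true := by decide +kernel

set_option maxHeartbeats 0 in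
theorem kF_245640 : chkRangeF cert 245640 230 = true := by decide +kernel

set_option maxHeartbeats 0 in
theorem kF_245870 : chkRangeF cert 245870 230 = true := by decide +kernel

set_option maxHeartbeats 0 in
theorem kF_246100 : chkRangeF cert 246100 230 = true := by decide +kernel

set_option maxHeartbeats 0 in
theorem kF_246330 : chkRangeF cert 246330 230 = true := by decide +kernel

set_option maxHeartbeats 0 in
theorem kF_246560 : chkRangeF cert 246560 230 = true := by decide +kernel

set_option maxHeartbeats 0 in
theorem kF_246790 : chkRangeF cert 246790 230 = true := by decide +kernel

set_option maxHeartbeats 0 in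
theorem kF_247020 : chkRangeF cert 247020 230 = true := by decide +kernel

set_option maxHeartbeats 0 in
theorem kF_247250 : chkRangeF cert 247250 230 = true := by decide +kernel

set_option maxHeartbeats 0 in
theorem kF_247480 : chkRangeF cert 247480 230 = true := by decide +kernel

set_option maxHeartbeats 0 in
theorem kF_247710 : chkRangeF cert 247710 230 = true := by decide +kernel

set_option maxHeartbeats 0 in
theorem kF_247940 : chkRangeF cert 247940 230 = true := by decide +kernel

set_option maxHeartbeats 0 in
theorem kF_248170 : chkRangeF cert 248170 230 = true := by decide +kernel

end Cfsg.Agent.Helper17.TCD.Fi24A
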