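import Mathlib
import Cfsg.Agent.Helper17.TCD.Fi24A_Cert

set_option autoImplicit false

namespace Cfsg.Agent.Helper17.TCD.Fi24A

open Cfsg.Agent.Helper17.TC

set_option maxHeartbeats 0 in
theorem kT_187846 : chkRangeT cert 187846 1295 = true := by decide +kernel

set_option maxHeartbeats 0 in
theorem kT_189141 : chkRangeT cert 189141 1271 = true := by decide +kernel

set_option maxHeartbeats 0 in
theorem kT_190412 : chkRangeT cert 190412 1128 = true := by decide +kernel

set_option maxHeartbeats 0 in
theorem kT_191540 : chkRangeT cert 191540 1216 = true := by decide +kernel

set_option maxHeartbeats 0 in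
theorem kT_192756 : chkRangeT cert 192756 1184 = true := by decide +kernel

set_option maxHeartbeats 0 in
theorem kT_193940 : chkRangeT cert 193940 1165 = true := by decide +kernel

set_option maxHeartbeats 0 in
theorem kT_195105 : chkRangeT cert 195105 1196 = true := by decide +kernel

set_option maxHeartbeats 0 in
theorem kT_196301 : chkRangeT cert 196301 1362 = true := by decide +kernel

set_option maxHeartbeats 0 in
theorem kT_197663 : chkRangeT cert 197663 1215 = true := by decide +kernel

set_option maxHeartbeats 0 in
theorem kT_198878 : chkRangeT cert 198878 1339 = true := by decide +kernel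

set_option maxHeartbeats 0 in
theorem kT_200217 : chkRangeT cert 200217 1298 = true := by decide +kernel

set_option maxHeartbeats 0 in
theorem kT_201515 : chkRangeT cert 201515 1294 = true := by decide +kernel

set_option maxHeartbeats 0 in
theorem kT_202809 : chkRangeT cert 202809 1267 = true := by decide +kernel

set_option maxHeartbeats 0 in
theorem kT_204076 : chkRangeT cert 204076 1265 = true := by decide +kernel

set_option maxHeartbeats 0 in
theorem kT_205341 : chkRangeT cert 205341 1144 = true := by decide +kernel

set_option maxHeartbeats 0 in
theorem kT_206485 : chkRangeT cert 206485 1234 = true := by decide +kernel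

end Cfsg.Agent.Helper17.TCD.Fi24A
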