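import Mathlib
import Cfsg.Agent.Helper17.TCD.Fi24A_Cert

set_option autoImplicit false

namespace Cfsg.Agent.Helper17.TCD.Fi24A

open Cfsg.Agent.Helper17.TC

set_option maxHeartbeats 0 in
theorem kF_248400 : chkRangeF cert 248400 230 = true := by decide +kernel

set_option maxHeartbeats 0 in
theorem kF_248630 : chkRangeF cert 248630 230 = true := by decide +kernel

set_option maxHeartbeats 0 in
theorem kF_248860 : chkRangeF cert 248860 230 = true := by decide +kernel

set_option maxHeartbeats 0 in
theorem kF_249090 : chkRangeF cert 249090 230 = true := by decide +kernel

set_option maxHeartbeats 0 in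
theorem kF_249320 : chkRangeF cert 249320 230 = true := by decide +kernel

set_option maxHeartbeats 0 in
theorem kF_249550 : chkRangeF cert 249550 230 = true := by decide +kernel

set_option maxHeartbeats 0 in
theorem kF_249780 : chkRangeF cert 249780 230 = true := by decide +kernel

set_option maxHeartbeats 0 in
theorem kF_250010 : chkRangeF cert 250010 230 = true := by decide +kernel

set_option maxHeartbeats 0 in
theorem kF_250240 : chkRangeF cert 250240 230 = true := by decide +kernel

set_option maxHeartbeats 0 in
theorem kF_250470 : chkRangeF cert 250470 230 = true := by decide +kernel

set_option maxHeartbeats 0 in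
theorem kF_250700 : chkRangeF cert 250700 230 = true := by decide +kernel

set_option maxHeartbeats 0 in
theorem kF_250930 : chkRangeF cert 250930 230 = true := by decide +kernel

set_option maxHeartbeats 0 in
theorem kF_251160 : chkRangeF cert 251160 230 = true := by decide +kernel

set_option maxHeartbeats 0 in
theorem kF_251390 : chkRangeF cert 251390 230 = true := by decide +kernel

set_option maxHeartbeats 0 in
theorem kF_251620 : chkRangeF cert 251620 230 = true := by decide +kernel

set_option maxHeartbeats 0 in
theorem kF_251850 : chkRangeF cert 251850 230 = true := by decide +kernel

end Cfsg.Agent.Helper17.TCD.Fi24A
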