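import Mathlib
import Cfsg.Agent.Helper17.TCD.Fi24A_Cert

set_option autoImplicit false

namespace Cfsg.Agent.Helper17.TCD.Fi24A

open Cfsg.Agent.Helper17.TC

set_option maxHeartbeats 0 in
theorem kF_252080 : chkRangeF cert 252080 230 = true := by decide +kernel

set_option maxHeartbeats 0 in
theorem kF_252310 : chkRangeF cert 252310 230 = true := by decide +kernel

set_option maxHeartbeats 0 in
theorem kF_252540 : chkRangeF cert 252540 230 = true := by decide +kernel

set_option maxHeartbeats 0 in
theorem kF_252770 : chkRangeF cert 252770 230 = true := by decide +kernel

set_option maxHeartbeats 0 in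
theorem kF_253000 : chkRangeF cert 253000 230 = true := by decide +kernel

set_option maxHeartbeats 0 in
theorem kF_253230 : chkRangeF cert 253230 230 = true := by decide +kernel

set_option maxHeartbeats 0 in
theorem kF_253460 : chkRangeF cert 253460 230 = true := by decide +kernel

set_option maxHeartbeats 0 in
theorem kF_253690 : chkRangeF cert 253690 230 = true := by decide +kernel

set_option maxHeartbeats 0 in
theorem kF_253920 : chkRangeF cert 253920 230 = true := by decide +kernel

set_option maxHeartbeats 0 in
theorem kF_254150 : chkRangeF cert 254150 230 = true := by decide +kernel

set_option maxHeartbeats 0 in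
theorem kF_254380 : chkRangeF cert 254380 230 = true := by decide +kernel

set_option maxHeartbeats 0 in
theorem kF_254610 : chkRangeF cert 254610 230 = true := by decide +kernel

set_option maxHeartbeats 0 in
theorem kF_254840 : chkRangeF cert 254840 230 = true := by decide +kernel

set_option maxHeartbeats 0 in
theorem kF_255070 : chkRangeF cert 255070 230 = true := by decide +kernel

set_option maxHeartbeats 0 in
theorem kF_255300 : chkRangeF cert 255300 230 = true := by decide +kernel

set_option maxHeartbeats 0 in
theorem kF_255530 : chkRangeF cert 255530 230 = true := by decide +kernel

end Cfsg.Agent.Helper17.TCD.Fi24A
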