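import Mathlib
import Cfsg.Agent.Helper17.TCD.Fi24A_Cert

set_option autoImplicit false

namespace Cfsg.Agent.Helper17.TCD.Fi24A

open Cfsg.Agent.Helper17.TC

set_option maxHeartbeats 0 in
theorem kF_255760 : chkRangeF cert 255760 230 = true := by decide +kernel

set_option maxHeartbeats 0 in
theorem kF_255990 : chkRangeF cert 255990 230 = true := by decide +kernel

set_option maxHeartbeats 0 in
theorem kF_256220 : chkRangeF cert 256220 230 = true := by decide +kernel

set_option maxHeartbeats 0 in
theorem kF_256450 : chkRangeF cert 256450 230 = true := by decide +kernel

set_option maxHeartbeats 0 in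
theorem kF_256680 : chkRangeF cert 256680 230 = true := by decide +kernel

set_option maxHeartbeats 0 in
theorem kF_256910 : chkRangeF cert 256910 230 = true := by decide +kernel

set_option maxHeartbeats 0 in
theorem kF_257140 : chkRangeF cert 257140 230 = true := by decide +kernel

set_option maxHeartbeats 0 in
theorem kF_257370 : chkRangeF cert 257370 230 = true := by decide +kernel

set_option maxHeartbeats 0 in
theorem kF_257600 : chkRangeF cert 257600 230 = true := by decide +kernel

set_option maxHeartbeats 0 in
theorem kF_257830 : chkRangeF cert 257830 230 = true := by decide +kernel

set_option maxHeartbeats 0 in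
theorem kF_258060 : chkRangeF cert 258060 230 = true := by decide +kernel

set_option maxHeartbeats 0 in
theorem kF_258290 : chkRangeF cert 258290 230 = true := by decide +kernel

set_option maxHeartbeats 0 in
theorem kF_258520 : chkRangeF cert 258520 230 = true := by decide +kernel

set_option maxHeartbeats 0 in
theorem kF_258750 : chkRangeF cert 258750 230 = true := by decide +kernel

set_option maxHeartbeats 0 in
theorem kF_258980 : chkRangeF cert 258980 230 = true := by decide +kernel

set_option maxHeartbeats 0 in
theorem kF_259210 : chkRangeF cert 259210 230 = true := by decide +kernel

end Cfsg.Agent.Helper17.TCD.Fi24A
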