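import Mathlib
import Cfsg.Agent.Helper17.TCD.Fi24A_Cert

set_option autoImplicit false

namespace Cfsg.Agent.Helper17.TCD.Fi24A

open Cfsg.Agent.Helper17.TC

set_option maxHeartbeats 0 in
theorem kF_259440 : chkRangeF cert 259440 230 = true := by decide +kernel

set_option maxHeartbeats 0 in
theorem kF_259670 : chkRangeF cert 259670 230 = true := by decide +kernel

set_option maxHeartbeats 0 in
theorem kF_259900 : chkRangeF cert 259900 230 = true := by decide +kernel

set_option maxHeartbeats 0 in
theorem kF_260130 : chkRangeF cert 260130 230 = true := by decide +kernel

set_option maxHeartbeats 0 in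
theorem kF_260360 : chkRangeF cert 260360 230 = true := by decide +kernel

set_option maxHeartbeats 0 in
theorem kF_260590 : chkRangeF cert 260590 230 = true := by decide +kernel

set_option maxHeartbeats 0 in
theorem kF_260820 : chkRangeF cert 260820 230 = true := by decide +kernel

set_option maxHeartbeats 0 in
theorem kF_261050 : chkRangeF cert 261050 230 = true := by decide +kernel

set_option maxHeartbeats 0 in
theorem kF_261280 : chkRangeF cert 261280 230 = true := by decide +kernel

set_option maxHeartbeats 0 in
theorem kF_261510 : chkRangeF cert 261510 230 = true := by decide +kernel

set_option maxHeartbeats 0 in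
theorem kF_261740 : chkRangeF cert 261740 230 = true := by decide +kernel

set_option maxHeartbeats 0 in
theorem kF_261970 : chkRangeF cert 261970 230 = true := by decide +kernel

set_option maxHeartbeats 0 in
theorem kF_262200 : chkRangeF cert 262200 230 = true := by decide +kernel

set_option maxHeartbeats 0 in
theorem kF_262430 : chkRangeF cert 262430 230 = true := by decide +kernel

set_option maxHeartbeats 0 in
theorem kF_262660 : chkRangeF cert 262660 230 = true := by decide +kernel

set_option maxHeartbeats 0 in
theorem kF_262890 : chkRangeF cert 262890 230 = true := by decide +kernel

end Cfsg.Agent.Helper17.TCD.Fi24A
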