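import Mathlib
import Cfsg.Agent.Helper17.TCD.Fi24A_Cert

set_option autoImplicit false

namespace Cfsg.Agent.Helper17.TCD.Fi24A

open Cfsg.Agent.Helper17.TC

set_option maxHeartbeats 0 in
theorem kF_263120 : chkRangeF cert 263120 230 = true := by decide +kernel

set_option maxHeartbeats 0 in
theorem kF_263350 : chkRangeF cert 263350 230 = true := by decide +kernel

set_option maxHeartbeats 0 in
theorem kF_263580 : chkRangeF cert 263580 230 = true := by decide +kernel

set_option maxHeartbeats 0 in
theorem kF_263810 : chkRangeF cert 263810 230 = true := by decide +kernel

set_option maxHeartbeats 0 in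
theorem kF_264040 : chkRangeF cert 264040 230 = true := by decide +kernel

set_option maxHeartbeats 0 in
theorem kF_264270 : chkRangeF cert 264270 230 = true := by decide +kernel

set_option maxHeartbeats 0 in
theorem kF_264500 : chkRangeF cert 264500 230 = true := by decide +kernel

set_option maxHeartbeats 0 in
theorem kF_264730 : chkRangeF cert 264730 230 = true := by decide +kernel

set_option maxHeartbeats 0 in
theorem kF_264960 : chkRangeF cert 264960 230 = true := by decide +kernel

set_option maxHeartbeats 0 in
theorem kF_265190 : chkRangeF cert 265190 230 = true := by decide +kernel

set_option maxHeartbeats 0 in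
theorem kF_265420 : chkRangeF cert 265420 230 = true := by decide +kernel

set_option maxHeartbeats 0 in
theorem kF_265650 : chkRangeF cert 265650 230 = true := by decide +kernel

set_option maxHeartbeats 0 in
theorem kF_265880 : chkRangeF cert 265880 230 = true := by decide +kernel

set_option maxHeartbeats 0 in
theorem kF_266110 : chkRangeF cert 266110 230 = true := by decide +kernel

set_option maxHeartbeats 0 in
theorem kF_266340 : chkRangeF cert 266340 230 = true := by decide +kernel

set_option maxHeartbeats 0 in
theorem kF_266570 : chkRangeF cert 266570 230 = true := by decide +kernel

end Cfsg.Agent.Helper17.TCD.Fi24A
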