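import Mathlib
import Cfsg.Agent.Helper17.TCD.Fi24A_Cert

set_option autoImplicit false

namespace Cfsg.Agent.Helper17.TCD.Fi24A

open Cfsg.Agent.Helper17.TC

set_option maxHeartbeats 0 in
theorem kF_266800 : chkRangeF cert 266800 230 = true := by decide +kernel

set_option maxHeartbeats 0 in
theorem kF_267030 : chkRangeF cert 267030 230 = true := by decide +kernel

set_option maxHeartbeats 0 in
theorem kF_267260 : chkRangeF cert 267260 230 = true := by decide +kernel

set_option maxHeartbeats 0 in
theorem kF_267490 : chkRangeF cert 267490 230 = true := by decide +kernel

set_option maxHeartbeats 0 in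
theorem kF_267720 : chkRangeF cert 267720 230 = true := by decide +kernel

set_option maxHeartbeats 0 in
theorem kF_267950 : chkRangeF cert 267950 230 = true := by decide +kernel

set_option maxHeartbeats 0 in
theorem kF_268180 : chkRangeF cert 268180 230 = true := by decide +kernel

set_option maxHeartbeats 0 in
theorem kF_268410 : chkRangeF cert 268410 230 = true := by decide +kernel

set_option maxHeartbeats 0 in
theorem kF_268640 : chkRangeF cert 268640 230 = true := by decide +kernel

set_option maxHeartbeats 0 in
theorem kF_268870 : chkRangeF cert 268870 230 = true := by decide +kernel

set_option maxHeartbeats 0 in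
theorem kF_269100 : chkRangeF cert 269100 230 = true := by decide +kernel

set_option maxHeartbeats 0 in
theorem kF_269330 : chkRangeF cert 269330 230 = true := by decide +kernel

set_option maxHeartbeats 0 in
theorem kF_269560 : chkRangeF cert 269560 230 = true := by decide +kernel

set_option maxHeartbeats 0 in
theorem kF_269790 : chkRangeF cert 269790 230 = true := by decide +kernel

set_option maxHeartbeats 0 in
theorem kF_270020 : chkRangeF cert 270020 230 = true := by decide +kernel

set_option maxHeartbeats 0 in
theorem kF_270250 : chkRangeF cert 270250 230 = true := by decide +kernel

end Cfsg.Agent.Helper17.TCD.Fi24A
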