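import Mathlib
import Cfsg.Agent.Helper17.TCD.Fi24A_Cert

set_option autoImplicit false

namespace Cfsg.Agent.Helper17.TCD.Fi24A

open Cfsg.Agent.Helper17.TC

set_option maxHeartbeats 0 in
theorem kF_270480 : chkRangeF cert 270480 230 = true := by decide +kernel

set_option maxHeartbeats 0 in
theorem kF_270710 : chkRangeF cert 270710 230 = true := by decide +kernel

set_option maxHeartbeats 0 in
theorem kF_270940 : chkRangeF cert 270940 230 = true := by decide +kernel

set_option maxHeartbeats 0 in
theorem kF_271170 : chkRangeF cert 271170 230 = true := by decide +kernel

set_option maxHeartbeats 0 in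
theorem kF_271400 : chkRangeF cert 271400 230 = true := by decide +kernel

set_option maxHeartbeats 0 in
theorem kF_271630 : chkRangeF cert 271630 230 = true := by decide +kernel

set_option maxHeartbeats 0 in
theorem kF_271860 : chkRangeF cert 271860 230 = true := by decide +kernel

set_option maxHeartbeats 0 in
theorem kF_272090 : chkRangeF cert 272090 230 = true := by decide +kernel

set_option maxHeartbeats 0 in
theorem kF_272320 : chkRangeF cert 272320 230 = true := by decide +kernel

set_option maxHeartbeats 0 in
theorem kF_272550 : chkRangeF cert 272550 230 = true := by decide +kernel

set_option maxHeartbeats 0 in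
theorem kF_272780 : chkRangeF cert 272780 230 = true := by decide +kernel

set_option maxHeartbeats 0 in
theorem kF_273010 : chkRangeF cert 273010 230 = true := by decide +kernel

set_option maxHeartbeats 0 in
theorem kF_273240 : chkRangeF cert 273240 230 = true := by decide +kernel

set_option maxHeartbeats 0 in
theorem kF_273470 : chkRangeF cert 273470 230 = true := by decide +kernel

set_option maxHeartbeats 0 in
theorem kF_273700 : chkRangeF cert 273700 230 = true := by decide +kernel

set_option maxHeartbeats 0 in
theorem kF_273930 : chkRangeF cert 273930 230 = true := by decide +kernel

end Cfsg.Agent.Helper17.TCD.Fi24A
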