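import Mathlib
import Cfsg.Agent.Helper17.TCD.Fi24A_Cert

set_option autoImplicit false

namespace Cfsg.Agent.Helper17.TCD.Fi24A

open Cfsg.Agent.Helper17.TC

set_option maxHeartbeats 0 in
theorem kF_274160 : chkRangeF cert 274160 230 = true := by decide +kernel

set_option maxHeartbeats 0 in
theorem kF_274390 : chkRangeF cert 274390 230 = true := by decide +kernel

set_option maxHeartbeats 0 in
theorem kF_274620 : chkRangeF cert 274620 230 = true := by decide +kernel

set_option maxHeartbeats 0 in
theorem kF_274850 : chkRangeF cert 274850 230 = true := by decide +kernel

set_option maxHeartbeats 0 in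
theorem kF_275080 : chkRangeF cert 275080 230 = true := by decide +kernel

set_option maxHeartbeats 0 in
theorem kF_275310 : chkRangeF cert 275310 230 = true := by decide +kernel

set_option maxHeartbeats 0 in
theorem kF_275540 : chkRangeF cert 275540 230 = true := by decide +kernel

set_option maxHeartbeats 0 in
theorem kF_275770 : chkRangeF cert 275770 230 = true := by decide +kernel

set_option maxHeartbeats 0 in
theorem kF_276000 : chkRangeF cert 276000 230 = true := by decide +kernel

set_option maxHeartbeats 0 in
theorem kF_276230 : chkRangeF cert 276230 230 = true := by decide +kernel

set_option maxHeartbeats 0 in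
theorem kF_276460 : chkRangeF cert 276460 230 = true := by decide +kernel

set_option maxHeartbeats 0 in
theorem kF_276690 : chkRangeF cert 276690 230 = true := by decide +kernel

set_option maxHeartbeats 0 in
theorem kF_276920 : chkRangeF cert 276920 230 = true := by decide +kernel

set_option maxHeartbeats 0 in
theorem kF_277150 : chkRangeF cert 277150 230 = true := by decide +kernel

set_option maxHeartbeats 0 in
theorem kF_277380 : chkRangeF cert 277380 230 = true := by decide +kernel

set_option maxHeartbeats 0 in
theorem kF_277610 : chkRangeF cert 277610 230 = true := by decide +kernel

end Cfsg.Agent.Helper17.TCD.Fi24A
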