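import Mathlib
import Cfsg.Agent.Helper17.TCD.Fi24A_Cert

set_option autoImplicit false

namespace Cfsg.Agent.Helper17.TCD.Fi24A

open Cfsg.Agent.Helper17.TC

set_option maxHeartbeats 0 in
theorem kF_277840 : chkRangeF cert 277840 230 = true := by decide +kernel

set_option maxHeartbeats 0 in
theorem kF_278070 : chkRangeF cert 278070 230 = true := by decide +kernel

set_option maxHeartbeats 0 in
theorem kF_278300 : chkRangeF cert 278300 230 = true := by decide +kernel

set_option maxHeartbeats 0 in
theorem kF_278530 : chkRangeF cert 278530 230 = true := by decide +kernel

set_option maxHeartbeats 0 in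
theorem kF_278760 : chkRangeF cert 278760 230 = true := by decide +kernel

set_option maxHeartbeats 0 in
theorem kF_278990 : chkRangeF cert 278990 230 = true := by decide +kernel

set_option maxHeartbeats 0 in
theorem kF_279220 : chkRangeF cert 279220 230 = true := by decide +kernel

set_option maxHeartbeats 0 in
theorem kF_279450 : chkRangeF cert 279450 230 = true := by decide +kernel

set_option maxHeartbeats 0 in
theorem kF_279680 : chkRangeF cert 279680 230 = true := by decide +kernel

set_option maxHeartbeats 0 in
theorem kF_279910 : chkRangeF cert 279910 230 = true := by decide +kernel

set_option maxHeartbeats 0 in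
theorem kF_280140 : chkRangeF cert 280140 230 = true := by decide +kernel

set_option maxHeartbeats 0 in
theorem kF_280370 : chkRangeF cert 280370 230 = true := by decide +kernel

set_option maxHeartbeats 0 in
theorem kF_280600 : chkRangeF cert 280600 230 = true := by decide +kernel

set_option maxHeartbeats 0 in
theorem kF_280830 : chkRangeF cert 280830 230 = true := by decide +kernel

set_option maxHeartbeats 0 in
theorem kF_281060 : chkRangeF cert 281060 230 = true := by decide +kernel

set_option maxHeartbeats 0 in
theorem kF_281290 : chkRangeF cert 281290 230 = true := by decide +kernel

end Cfsg.Agent.Helper17.TCD.Fi24A
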