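import Mathlib
import Cfsg.Agent.Helper17.TCD.Fi24A_Cert

set_option autoImplicit false

namespace Cfsg.Agent.Helper17.TCD.Fi24A

open Cfsg.Agent.Helper17.TC

set_option maxHeartbeats 0 in
theorem kF_281520 : chkRangeF cert 281520 230 = true := by decide +kernel

set_option maxHeartbeats 0 in
theorem kF_281750 : chkRangeF cert 281750 230 = true := by decide +kernel

set_option maxHeartbeats 0 in
theorem kF_281980 : chkRangeF cert 281980 230 = true := by decide +kernel

set_option maxHeartbeats 0 in
theorem kF_282210 : chkRangeF cert 282210 230 = true := by decide +kernel

set_option maxHeartbeats 0 in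
theorem kF_282440 : chkRangeF cert 282440 230 = true := by decide +kernel

set_option maxHeartbeats 0 in
theorem kF_282670 : chkRangeF cert 282670 230 = true := by decide +kernel

set_option maxHeartbeats 0 in
theorem kF_282900 : chkRangeF cert 282900 230 = true := by decide +kernel

set_option maxHeartbeats 0 in
theorem kF_283130 : chkRangeF cert 283130 230 = true := by decide +kernel

set_option maxHeartbeats 0 in
theorem kF_283360 : chkRangeF cert 283360 230 = true := by decide +kernel

set_option maxHeartbeats 0 in
theorem kF_283590 : chkRangeF cert 283590 230 = true := by decide +kernel

set_option maxHeartbeats 0 in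
theorem kF_283820 : chkRangeF cert 283820 230 = true := by decide +kernel

set_option maxHeartbeats 0 in
theorem kF_284050 : chkRangeF cert 284050 230 = true := by decide +kernel

set_option maxHeartbeats 0 in
theorem kF_284280 : chkRangeF cert 284280 230 = true := by decide +kernel

set_option maxHeartbeats 0 in
theorem kF_284510 : chkRangeF cert 284510 230 = true := by decide +kernel

set_option maxHeartbeats 0 in
theorem kF_284740 : chkRangeF cert 284740 230 = true := by decide +kernel

set_option maxHeartbeats 0 in
theorem kF_284970 : chkRangeF cert 284970 230 = true := by decide +kernel

end Cfsg.Agent.Helper17.TCD.Fi24A
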