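import Mathlib
import Cfsg.Prelude.Def_Spor_Fi24
import Cfsg.Agent.Helper17.TCPres
import Cfsg.Agent.Helper17.TCD.Fi24A_K0
import Cfsg.Agent.Helper17.TCD.Fi24A_K1
import Cfsg.Agent.Helper17.TCD.Fi24A_K2
import Cfsg.Agent.Helper17.TCD.Fi24A_K3
import Cfsg.Agent.Helper17.TCD.Fi24A_K4
import Cfsg.Agent.Helper17.TCD.Fi24A_K5
import Cfsg.Agent.Helper17.TCD.Fi24A_K6
import Cfsg.Agent.Helper17.TCD.Fi24A_K7
import Cfsg.Agent.Helper17.TCD.Fi24A_K8
import Cfsg.Agent.Helper17.TCD.Fi24A_K9
import Cfsg.Agent.Helper17.TCD.Fi24A_K10
import Cfsg.Agent.Helper17.TCD.Fi24A_K11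
import Cfsg.Agent.Helper17.TCD.Fi24A_K12
import Cfsg.Agent.Helper17.TCD.Fi24A_K13
import Cfsg.Agent.Helper17.TCD.Fi24A_K14
import Cfsg.Agent.Helper17.TCD.Fi24A_K15
import Cfsg.Agent.Helper17.TCD.Fi24A_K16
import Cfsg.Agent.Helper17.TCD.Fi24A_K17
import Cfsg.Agent.Helper17.TCD.Fi24A_K18
import Cfsg.Agent.Helper17.TCD.Fi24A_K19
import Cfsg.Agent.Helper17.TCD.Fi24A_K20
import Cfsg.Agent.Helper17.TCD.Fi24A_K21
import Cfsg.Agent.Helper17.TCD.Fi24A_K22
import Cfsg.Agent.Helper17.TCD.Fi24A_K23
import Cfsg.Agent.Helper17.TCD.Fi24A_K24
import Cfsg.Agent.Helper17.TCD.Fi24A_K25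
import Cfsg.Agent.Helper17.TCD.Fi24A_K26
import Cfsg.Agent.Helper17.TCD.Fi24A_K27
import Cfsg.Agent.Helper17.TCD.Fi24A_K28
import Cfsg.Agent.Helper17.TCD.Fi24A_K29
import Cfsg.Agent.Helper17.TCD.Fi24A_K30
import Cfsg.Agent.Helper17.TCD.Fi24A_K31
import Cfsg.Agent.Helper17.TCD.Fi24A_K32
import Cfsg.Agent.Helper17.TCD.Fi24A_K33
import Cfsg.Agent.Helper17.TCD.Fi24A_K34
import Cfsg.Agent.Helper17.TCD.Fi24A_K35
import Cfsg.Agent.Helper17.TCD.Fi24A_K36
import Cfsg.Agent.Helper17.TCD.Fi24A_K37
import Cfsg.Agent.Helper17.TCD.Fi24A_K38
import Cfsg.Agent.Helper17.TCD.Fi24A_K39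
import Cfsg.Agent.Helper17.TCD.Fi24A_K40
import Cfsg.Agent.Helper17.TCD.Fi24A_K41
import Cfsg.Agent.Helper17.TCD.Fi24A_K42
import Cfsg.Agent.Helper17.TCD.Fi24A_K43
import Cfsg.Agent.Helper17.TCD.Fi24A_K44
import Cfsg.Agent.Helper17.TCD.Fi24A_K45
import Cfsg.Agent.Helper17.TCD.Fi24A_K46
import Cfsg.Agent.Helper17.TCD.Fi24A_K47
import Cfsg.Agent.Helper17.TCD.Fi24A_K48
import Cfsg.Agent.Helper17.TCD.Fi24A_K49
import Cfsg.Agent.Helper17.TCD.Fi24A_K50
import Cfsg.Agent.Helper17.TCD.Fi24A_K51
import Cfsg.Agent.Helper17.TCD.Fi24A_K52
import Cfsg.Agent.Helper17.TCD.Fi24A_K53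
import Cfsg.Agent.Helper17.TCD.Fi24A_K54
import Cfsg.Agent.Helper17.TCD.Fi24A_K55
import Cfsg.Agent.Helper17.TCD.Fi24A_K56
import Cfsg.Agent.Helper17.TCD.Fi24A_K57
import Cfsg.Agent.Helper17.TCD.Fi24A_K58
import Cfsg.Agent.Helper17.TCD.Fi24A_K59
import Cfsg.Agent.Helper17.TCD.Fi24A_K60
import Cfsg.Agent.Helper17.TCD.Fi24A_K61
import Cfsg.Agent.Helper17.TCD.Fi24A_K62
import Cfsg.Agent.Helper17.TCD.Fi24A_K63
import Cfsg.Agent.Helper17.TCD.Fi24A_K64
import Cfsg.Agent.Helper17.TCD.Fi24A_K65
import Cfsg.Agent.Helper17.TCD.Fi24A_K66
import Cfsg.Agent.Helper17.TCD.Fi24A_K67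
import Cfsg.Agent.Helper17.TCD.Fi24A_K68
import Cfsg.Agent.Helper17.TCD.Fi24A_K69
import Cfsg.Agent.Helper17.TCD.Fi24A_K70
import Cfsg.Agent.Helper17.TCD.Fi24A_K71
import Cfsg.Agent.Helper17.TCD.Fi24A_K72
import Cfsg.Agent.Helper17.TCD.Fi24A_K73
import Cfsg.Agent.Helper17.TCD.Fi24A_K74
import Cfsg.Agent.Helper17.TCD.Fi24A_K75
import Cfsg.Agent.Helper17.TCD.Fi24A_K76
import Cfsg.Agent.Helper17.TCD.Fi24A_K77
import Cfsg.Agent.Helper17.TCD.Fi24A_K78
import Cfsg.Agent.Helper17.TCD.Fi24A_K79
import Cfsg.Agent.Helper17.TCD.Fi24A_K80
import Cfsg.Agent.Helper17.TCD.Fi24A_K81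
import Cfsg.Agent.Helper17.TCD.Fi24A_K82
import Cfsg.Agent.Helper17.TCD.Fi24A_K83
import Cfsg.Agent.Helper17.TCD.Fi24A_K84
import Cfsg.Agent.Helper17.TCD.Fi24A_K85
import Cfsg.Agent.Helper17.TCD.Fi24A_K86
import Cfsg.Agent.Helper17.TCD.Fi24A_K87
import Cfsg.Agent.Helper17.TCD.Fi24A_K88
import Cfsg.Agent.Helper17.TCD.Fi24A_K89
import Cfsg.Agent.Helper17.TCD.Fi24A_K90
import Cfsg.Agent.Helper17.TCD.Fi24A_K91
import Cfsg.Agent.Helper17.TCD.Fi24A_K92
import Cfsg.Agent.Helper17.TCD.Fi24A_K93
import Cfsg.Agent.Helper17.TCD.Fi24A_K94
import Cfsg.Agent.Helper17.TCD.Fi24A_K95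
import Cfsg.Agent.Helper17.TCD.Fi24A_K96
import Cfsg.Agent.Helper17.TCD.Fi24A_K97
import Cfsg.Agent.Helper17.TCD.Fi24A_K98
import Cfsg.Agent.Helper17.TCD.Fi24A_K99
import Cfsg.Agent.Helper17.TCD.Fi24A_K100
import Cfsg.Agent.Helper17.TCD.Fi24A_K101
import Cfsg.Agent.Helper17.TCD.Fi24A_K102
import Cfsg.Agent.Helper17.TCD.Fi24A_K103
import Cfsg.Agent.Helper17.TCD.Fi24A_K104
import Cfsg.Agent.Helper17.TCD.Fi24A_K105
import Cfsg.Agent.Helper17.TCD.Fi24A_K106
import Cfsg.Agent.Helper17.TCD.Fi24A_K107
import Cfsg.Agent.Helper17.TCD.Fi24A_K108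
import Cfsg.Agent.Helper17.TCD.Fi24A_K109
import Cfsg.Agent.Helper17.TCD.Fi24A_K110
import Cfsg.Agent.Helper17.TCD.Fi24A_K111
import Cfsg.Agent.Helper17.TCD.Fi24A_K112
import Cfsg.Agent.Helper17.TCD.Fi24A_K113
import Cfsg.Agent.Helper17.TCD.Fi24A_K114
import Cfsg.Agent.Helper17.TCD.Fi24A_K115

set_option autoImplicit false

namespace Cfsg.Agent.Helper17.TCD.Fi24A

open Cfsg.Agent.Helper17.TC Cfsg.Spor

set_option maxHeartbeats 1000000 in
theorem small : chkSmall cert = true := by decide +kernel

theorem allT_0 : ∀ v < 84206, chkRow cert v cert.ncols = true := by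
  have h0 : ∀ v < 0, chkRow cert v cert.ncols = true := fun v hv => absurd hv (Nat.not_lt_zero v)
  have h1 : ∀ v < 1173, chkRow cert v cert.ncols = true :=
    cover_step h0 (chkRangeT_spec (c := cert) 0 1173 kT_0) rfl
  have h2 : ∀ v < 2389, chkRow cert v cert.ncols = true :=
    cover_step h1 (chkRangeT_spec (c := cert) 1173 1216 kT_1173) rfl
  have h3 : ∀ v < 3614, chkRow cert v cert.ncols = true :=
    cover_step h2 (chkRangeT_spec (c := cert) 2389 1225 kT_2389) rfl
  have h4 : ∀ v < 4876, chkRow cert v cert.ncols = true :=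
    cover_step h3 (chkRangeT_spec (c := cert) 3614 1262 kT_3614) rfl
  have h5 : ∀ v < 6155, chkRow cert v cert.ncols = true :=
    cover_step h4 (chkRangeT_spec (c := cert) 4876 1279 kT_4876) rfl
  have h6 : ∀ v < 7480, chkRow cert v cert.ncols = true :=
    cover_step h5 (chkRangeT_spec (c := cert) 6155 1325 kT_6155) rfl
  have h7 : ∀ v < 8781, chkRow cert v cert.ncols = true :=
    cover_step h6 (chkRangeT_spec (c := cert) 7480 1301 kT_7480) rfl
  have h8 : ∀ v < 10098, chkRow cert v cert.ncols = true :=
    cover_step h7 (chkRangeT_spec (c := cert) 8781 1317 kT_8781) rfl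
  have h9 : ∀ v < 11437, chkRow cert v cert.ncols = true :=
    cover_step h8 (chkRangeT_spec (c := cert) 10098 1339 kT_10098) rfl
  have h10 : ∀ v < 12771, chkRow cert v cert.ncols = true :=
    cover_step h9 (chkRangeT_spec (c := cert) 11437 1334 kT_11437) rfl
  have h11 : ∀ v < 14062, chkRow cert v cert.ncols = true :=
    cover_step h10 (chkRangeT_spec (c := cert) 12771 1291 kT_12771) rfl
  have h12 : ∀ v < 15445, chkRow cert v cert.ncols = true :=
    cover_step h11 (chkRangeT_spec (c := cert) 14062 1383 kT_14062) rfl
  have h13 : ∀ v < 16752, chkRow cert v cert.ncols = true :=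
    cover_step h12 (chkRangeT_spec (c := cert) 15445 1307 kT_15445) rfl
  have h14 : ∀ v < 18032, chkRow cert v cert.ncols = true :=
    cover_step h13 (chkRangeT_spec (c := cert) 16752 1280 kT_16752) rfl
  have h15 : ∀ v < 19427, chkRow cert v cert.ncols = true :=
    cover_step h14 (chkRangeT_spec (c := cert) 18032 1395 kT_18032) rfl
  have h16 : ∀ v < 20750, chkRow cert v cert.ncols = true :=
    cover_step h15 (chkRangeT_spec (c := cert) 19427 1323 kT_19427) rfl
  have h17 : ∀ v < 22027, chkRow cert v cert.ncols = true :=
    cover_step h16 (chkRangeT_spec (c := cert) 20750 1277 kT_20750) rfl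
  have h18 : ∀ v < 23332, chkRow cert v cert.ncols = true :=
    cover_step h17 (chkRangeT_spec (c := cert) 22027 1305 kT_22027) rfl
  have h19 : ∀ v < 24744, chkRow cert v cert.ncols = true :=
    cover_step h18 (chkRangeT_spec (c := cert) 23332 1412 kT_23332) rfl
  have h20 : ∀ v < 26051, chkRow cert v cert.ncols = true :=
    cover_step h19 (chkRangeT_spec (c := cert) 24744 1307 kT_24744) rfl
  have h21 : ∀ v < 27380, chkRow cert v cert.ncols = true :=
    cover_step h20 (chkRangeT_spec (c := cert) 26051 1329 kT_26051) rfl
  have h22 : ∀ v < 28648, chkRow cert v cert.ncols = true :=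
    cover_step h21 (chkRangeT_spec (c := cert) 27380 1268 kT_27380) rfl
  have h23 : ∀ v < 29967, chkRow cert v cert.ncols = true :=
    cover_step h22 (chkRangeT_spec (c := cert) 28648 1319 kT_28648) rfl
  have h24 : ∀ v < 31393, chkRow cert v cert.ncols = true :=
    cover_step h23 (chkRangeT_spec (c := cert) 29967 1426 kT_29967) rfl
  have h25 : ∀ v < 32692, chkRow cert v cert.ncols = true :=
    cover_step h24 (chkRangeT_spec (c := cert) 31393 1299 kT_31393) rfl
  have h26 : ∀ v < 34028, chkRow cert v cert.ncols = true :=
    cover_step h25 (chkRangeT_spec (c := cert) 32692 1336 kT_32692) rfl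
  have h27 : ∀ v < 35336, chkRow cert v cert.ncols = true :=
    cover_step h26 (chkRangeT_spec (c := cert) 34028 1308 kT_34028) rfl
  have h28 : ∀ v < 36601, chkRow cert v cert.ncols = true :=
    cover_step h27 (chkRangeT_spec (c := cert) 35336 1265 kT_35336) rfl
  have h29 : ∀ v < 37915, chkRow cert v cert.ncols = true :=
    cover_step h28 (chkRangeT_spec (c := cert) 36601 1314 kT_36601) rfl
  have h30 : ∀ v < 39340, chkRow cert v cert.ncols = true :=
    cover_step h29 (chkRangeT_spec (c := cert) 37915 1425 kT_37915) rfl
  have h31 : ∀ v < 40696, chkRow cert v cert.ncols = true :=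
    cover_step h30 (chkRangeT_spec (c := cert) 39340 1356 kT_39340) rfl
  have h32 : ∀ v < 42011, chkRow cert v cert.ncols = true :=
    cover_step h31 (chkRangeT_spec (c := cert) 40696 1315 kT_40696) rfl
  have h33 : ∀ v < 43351, chkRow cert v cert.ncols = true :=
    cover_step h32 (chkRangeT_spec (c := cert) 42011 1340 kT_42011) rfl
  have h34 : ∀ v < 44666, chkRow cert v cert.ncols = true :=
    cover_step h33 (chkRangeT_spec (c := cert) 43351 1315 kT_43351) rfl
  have h35 : ∀ v < 45907, chkRow cert v cert.ncols = true :=
    cover_step h34 (chkRangeT_spec (c := cert) 44666 1241 kT_44666) rfl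
  have h36 : ∀ v < 47197, chkRow cert v cert.ncols = true :=
    cover_step h35 (chkRangeT_spec (c := cert) 45907 1290 kT_45907) rfl
  have h37 : ∀ v < 48572, chkRow cert v cert.ncols = true :=
    cover_step h36 (chkRangeT_spec (c := cert) 47197 1375 kT_47197) rfl
  have h38 : ∀ v < 50027, chkRow cert v cert.ncols = true :=
    cover_step h37 (chkRangeT_spec (c := cert) 48572 1455 kT_48572) rfl
  have h39 : ∀ v < 51359, chkRow cert v cert.ncols = true :=
    cover_step h38 (chkRangeT_spec (c := cert) 50027 1332 kT_50027) rfl
  have h40 : ∀ v < 52679, chkRow cert v cert.ncols = true :=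
    cover_step h39 (chkRangeT_spec (c := cert) 51359 1320 kT_51359) rfl
  have h41 : ∀ v < 54004, chkRow cert v cert.ncols = true :=
    cover_step h40 (chkRangeT_spec (c := cert) 52679 1325 kT_52679) rfl
  have h42 : ∀ v < 55391, chkRow cert v cert.ncols = true :=
    cover_step h41 (chkRangeT_spec (c := cert) 54004 1387 kT_54004) rfl
  have h43 : ∀ v < 56658, chkRow cert v cert.ncols = true :=
    cover_step h42 (chkRangeT_spec (c := cert) 55391 1267 kT_55391) rfl
  have h44 : ∀ v < 57855, chkRow cert v cert.ncols = true :=
    cover_step h43 (chkRangeT_spec (c := cert) 56658 1197 kT_56658) rfl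
  have h45 : ∀ v < 59179, chkRow cert v cert.ncols = true :=
    cover_step h44 (chkRangeT_spec (c := cert) 57855 1324 kT_57855) rfl
  have h46 : ∀ v < 60552, chkRow cert v cert.ncols = true :=
    cover_step h45 (chkRangeT_spec (c := cert) 59179 1373 kT_59179) rfl
  have h47 : ∀ v < 61970, chkRow cert v cert.ncols = true :=
    cover_step h46 (chkRangeT_spec (c := cert) 60552 1418 kT_60552) rfl
  have h48 : ∀ v < 63398, chkRow cert v cert.ncols = true :=
    cover_step h47 (chkRangeT_spec (c := cert) 61970 1428 kT_61970) rfl
  have h49 : ∀ v < 64636, chkRow cert v cert.ncols = true :=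
    cover_step h48 (chkRangeT_spec (c := cert) 63398 1238 kT_63398) rfl
  have h50 : ∀ v < 65928, chkRow cert v cert.ncols = true :=
    cover_step h49 (chkRangeT_spec (c := cert) 64636 1292 kT_64636) rfl
  have h51 : ∀ v < 67185, chkRow cert v cert.ncols = true :=
    cover_step h50 (chkRangeT_spec (c := cert) 65928 1257 kT_65928) rfl
  have h52 : ∀ v < 68539, chkRow cert v cert.ncols = true :=
    cover_step h51 (chkRangeT_spec (c := cert) 67185 1354 kT_67185) rfl
  have h53 : ∀ v < 69891, chkRow cert v cert.ncols = true :=
    cover_step h52 (chkRangeT_spec (c := cert) 68539 1352 kT_68539) rfl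
  have h54 : ∀ v < 71123, chkRow cert v cert.ncols = true :=
    cover_step h53 (chkRangeT_spec (c := cert) 69891 1232 kT_69891) rfl
  have h55 : ∀ v < 72339, chkRow cert v cert.ncols = true :=
    cover_step h54 (chkRangeT_spec (c := cert) 71123 1216 kT_71123) rfl
  have h56 : ∀ v < 73686, chkRow cert v cert.ncols = true :=
    cover_step h55 (chkRangeT_spec (c := cert) 72339 1347 kT_72339) rfl
  have h57 : ∀ v < 75042, chkRow cert v cert.ncols = true :=
    cover_step h56 (chkRangeT_spec (c := cert) 73686 1356 kT_73686) rfl
  have h58 : ∀ v < 76412, chkRow cert v cert.ncols = true :=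
    cover_step h57 (chkRangeT_spec (c := cert) 75042 1370 kT_75042) rfl
  have h59 : ∀ v < 77855, chkRow cert v cert.ncols = true :=
    cover_step h58 (chkRangeT_spec (c := cert) 76412 1443 kT_76412) rfl
  have h60 : ∀ v < 79165, chkRow cert v cert.ncols = true :=
    cover_step h59 (chkRangeT_spec (c := cert) 77855 1310 kT_77855) rfl
  have h61 : ∀ v < 80413, chkRow cert v cert.ncols = true :=
    cover_step h60 (chkRangeT_spec (c := cert) 79165 1248 kT_79165) rfl
  have h62 : ∀ v < 81606, chkRow cert v cert.ncols = true :=
    cover_step h61 (chkRangeT_spec (c := cert) 80413 1193 kT_80413) rfl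
  have h63 : ∀ v < 82893, chkRow cert v cert.ncols = true :=
    cover_step h62 (chkRangeT_spec (c := cert) 81606 1287 kT_81606) rfl
  have h64 : ∀ v < 84206, chkRow cert v cert.ncols = true :=
    cover_step h63 (chkRangeT_spec (c := cert) 82893 1313 kT_82893) rfl
  exact h64

theorem allT_1 : ∀ v < 167566, chkRow cert v cert.ncols = true := by
  have h0 := allT_0
  have h1 : ∀ v < 85543, chkRow cert v cert.ncols = true :=
    cover_step h0 (chkRangeT_spec (c := cert) 84206 1337 kT_84206) rfl
  have h2 : ∀ v < 86809, chkRow cert v cert.ncols = true :=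
    cover_step h1 (chkRangeT_spec (c := cert) 85543 1266 kT_85543) rfl
  have h3 : ∀ v < 88050, chkRow cert v cert.ncols = true :=
    cover_step h2 (chkRangeT_spec (c := cert) 86809 1241 kT_86809) rfl
  have h4 : ∀ v < 89376, chkRow cert v cert.ncols = true :=
    cover_step h3 (chkRangeT_spec (c := cert) 88050 1326 kT_88050) rfl
  have h5 : ∀ v < 90696, chkRow cert v cert.ncols = true :=
    cover_step h4 (chkRangeT_spec (c := cert) 89376 1320 kT_89376) rfl
  have h6 : ∀ v < 92029, chkRow cert v cert.ncols = true :=
    cover_step h5 (chkRangeT_spec (c := cert) 90696 1333 kT_90696) rfl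
  have h7 : ∀ v < 93418, chkRow cert v cert.ncols = true :=
    cover_step h6 (chkRangeT_spec (c := cert) 92029 1389 kT_92029) rfl
  have h8 : ∀ v < 94814, chkRow cert v cert.ncols = true :=
    cover_step h7 (chkRangeT_spec (c := cert) 93418 1396 kT_93418) rfl
  have h9 : ∀ v < 96110, chkRow cert v cert.ncols = true :=
    cover_step h8 (chkRangeT_spec (c := cert) 94814 1296 kT_94814) rfl
  have h10 : ∀ v < 97387, chkRow cert v cert.ncols = true :=
    cover_step h9 (chkRangeT_spec (c := cert) 96110 1277 kT_96110) rfl
  have h11 : ∀ v < 98653, chkRow cert v cert.ncols = true :=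
    cover_step h10 (chkRangeT_spec (c := cert) 97387 1266 kT_97387) rfl
  have h12 : ∀ v < 99902, chkRow cert v cert.ncols = true :=
    cover_step h11 (chkRangeT_spec (c := cert) 98653 1249 kT_98653) rfl
  have h13 : ∀ v < 101212, chkRow cert v cert.ncols = true :=
    cover_step h12 (chkRangeT_spec (c := cert) 99902 1310 kT_99902) rfl
  have h14 : ∀ v < 102562, chkRow cert v cert.ncols = true :=
    cover_step h13 (chkRangeT_spec (c := cert) 101212 1350 kT_101212) rfl
  have h15 : ∀ v < 103856, chkRow cert v cert.ncols = true :=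
    cover_step h14 (chkRangeT_spec (c := cert) 102562 1294 kT_102562) rfl
  have h16 : ∀ v < 105107, chkRow cert v cert.ncols = true :=
    cover_step h15 (chkRangeT_spec (c := cert) 103856 1251 kT_103856) rfl
  have h17 : ∀ v < 106337, chkRow cert v cert.ncols = true :=
    cover_step h16 (chkRangeT_spec (c := cert) 105107 1230 kT_105107) rfl
  have h18 : ∀ v < 107633, chkRow cert v cert.ncols = true :=
    cover_step h17 (chkRangeT_spec (c := cert) 106337 1296 kT_106337) rfl
  have h19 : ∀ v < 108939, chkRow cert v cert.ncols = true :=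
    cover_step h18 (chkRangeT_spec (c := cert) 107633 1306 kT_107633) rfl
  have h20 : ∀ v < 110281, chkRow cert v cert.ncols = true :=
    cover_step h19 (chkRangeT_spec (c := cert) 108939 1342 kT_108939) rfl
  have h21 : ∀ v < 111721, chkRow cert v cert.ncols = true :=
    cover_step h20 (chkRangeT_spec (c := cert) 110281 1440 kT_110281) rfl
  have h22 : ∀ v < 113119, chkRow cert v cert.ncols = true :=
    cover_step h21 (chkRangeT_spec (c := cert) 111721 1398 kT_111721) rfl
  have h23 : ∀ v < 114497, chkRow cert v cert.ncols = true :=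
    cover_step h22 (chkRangeT_spec (c := cert) 113119 1378 kT_113119) rfl
  have h24 : ∀ v < 115727, chkRow cert v cert.ncols = true :=
    cover_step h23 (chkRangeT_spec (c := cert) 114497 1230 kT_114497) rfl
  have h25 : ∀ v < 117036, chkRow cert v cert.ncols = true :=
    cover_step h24 (chkRangeT_spec (c := cert) 115727 1309 kT_115727) rfl
  have h26 : ∀ v < 118276, chkRow cert v cert.ncols = true :=
    cover_step h25 (chkRangeT_spec (c := cert) 117036 1240 kT_117036) rfl
  have h27 : ∀ v < 119573, chkRow cert v cert.ncols = true :=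
    cover_step h26 (chkRangeT_spec (c := cert) 118276 1297 kT_118276) rfl
  have h28 : ∀ v < 120890, chkRow cert v cert.ncols = true :=
    cover_step h27 (chkRangeT_spec (c := cert) 119573 1317 kT_119573) rfl
  have h29 : ∀ v < 122251, chkRow cert v cert.ncols = true :=
    cover_step h28 (chkRangeT_spec (c := cert) 120890 1361 kT_120890) rfl
  have h30 : ∀ v < 123491, chkRow cert v cert.ncols = true :=
    cover_step h29 (chkRangeT_spec (c := cert) 122251 1240 kT_122251) rfl
  have h31 : ∀ v < 124808, chkRow cert v cert.ncols = true :=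
    cover_step h30 (chkRangeT_spec (c := cert) 123491 1317 kT_123491) rfl
  have h32 : ∀ v < 126013, chkRow cert v cert.ncols = true :=
    cover_step h31 (chkRangeT_spec (c := cert) 124808 1205 kT_124808) rfl
  have h33 : ∀ v < 127309, chkRow cert v cert.ncols = true :=
    cover_step h32 (chkRangeT_spec (c := cert) 126013 1296 kT_126013) rfl
  have h34 : ∀ v < 128533, chkRow cert v cert.ncols = true :=
    cover_step h33 (chkRangeT_spec (c := cert) 127309 1224 kT_127309) rfl
  have h35 : ∀ v < 129910, chkRow cert v cert.ncols = true :=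
    cover_step h34 (chkRangeT_spec (c := cert) 128533 1377 kT_128533) rfl
  have h36 : ∀ v < 131293, chkRow cert v cert.ncols = true :=
    cover_step h35 (chkRangeT_spec (c := cert) 129910 1383 kT_129910) rfl
  have h37 : ∀ v < 132672, chkRow cert v cert.ncols = true :=
    cover_step h36 (chkRangeT_spec (c := cert) 131293 1379 kT_131293) rfl
  have h38 : ∀ v < 134071, chkRow cert v cert.ncols = true :=
    cover_step h37 (chkRangeT_spec (c := cert) 132672 1399 kT_132672) rfl
  have h39 : ∀ v < 135396, chkRow cert v cert.ncols = true :=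
    cover_step h38 (chkRangeT_spec (c := cert) 134071 1325 kT_134071) rfl
  have h40 : ∀ v < 136648, chkRow cert v cert.ncols = true :=
    cover_step h39 (chkRangeT_spec (c := cert) 135396 1252 kT_135396) rfl
  have h41 : ∀ v < 137910, chkRow cert v cert.ncols = true :=
    cover_step h40 (chkRangeT_spec (c := cert) 136648 1262 kT_136648) rfl
  have h42 : ∀ v < 139241, chkRow cert v cert.ncols = true :=
    cover_step h41 (chkRangeT_spec (c := cert) 137910 1331 kT_137910) rfl
  have h43 : ∀ v < 140525, chkRow cert v cert.ncols = true :=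
    cover_step h42 (chkRangeT_spec (c := cert) 139241 1284 kT_139241) rfl
  have h44 : ∀ v < 141817, chkRow cert v cert.ncols = true :=
    cover_step h43 (chkRangeT_spec (c := cert) 140525 1292 kT_140525) rfl
  have h45 : ∀ v < 143168, chkRow cert v cert.ncols = true :=
    cover_step h44 (chkRangeT_spec (c := cert) 141817 1351 kT_141817) rfl
  have h46 : ∀ v < 144443, chkRow cert v cert.ncols = true :=
    cover_step h45 (chkRangeT_spec (c := cert) 143168 1275 kT_143168) rfl
  have h47 : ∀ v < 145748, chkRow cert v cert.ncols = true :=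
    cover_step h46 (chkRangeT_spec (c := cert) 144443 1305 kT_144443) rfl
  have h48 : ∀ v < 146959, chkRow cert v cert.ncols = true :=
    cover_step h47 (chkRangeT_spec (c := cert) 145748 1211 kT_145748) rfl
  have h49 : ∀ v < 148164, chkRow cert v cert.ncols = true :=
    cover_step h48 (chkRangeT_spec (c := cert) 146959 1205 kT_146959) rfl
  have h50 : ∀ v < 149411, chkRow cert v cert.ncols = true :=
    cover_step h49 (chkRangeT_spec (c := cert) 148164 1247 kT_148164) rfl
  have h51 : ∀ v < 150760, chkRow cert v cert.ncols = true :=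
    cover_step h50 (chkRangeT_spec (c := cert) 149411 1349 kT_149411) rfl
  have h52 : ∀ v < 152094, chkRow cert v cert.ncols = true :=
    cover_step h51 (chkRangeT_spec (c := cert) 150760 1334 kT_150760) rfl
  have h53 : ∀ v < 153468, chkRow cert v cert.ncols = true :=
    cover_step h52 (chkRangeT_spec (c := cert) 152094 1374 kT_152094) rfl
  have h54 : ∀ v < 154859, chkRow cert v cert.ncols = true :=
    cover_step h53 (chkRangeT_spec (c := cert) 153468 1391 kT_153468) rfl
  have h55 : ∀ v < 156183, chkRow cert v cert.ncols = true :=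
    cover_step h54 (chkRangeT_spec (c := cert) 154859 1324 kT_154859) rfl
  have h56 : ∀ v < 157489, chkRow cert v cert.ncols = true :=
    cover_step h55 (chkRangeT_spec (c := cert) 156183 1306 kT_156183) rfl
  have h57 : ∀ v < 158710, chkRow cert v cert.ncols = true :=
    cover_step h56 (chkRangeT_spec (c := cert) 157489 1221 kT_157489) rfl
  have h58 : ∀ v < 159941, chkRow cert v cert.ncols = true :=
    cover_step h57 (chkRangeT_spec (c := cert) 158710 1231 kT_158710) rfl
  have h59 : ∀ v < 161252, chkRow cert v cert.ncols = true :=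
    cover_step h58 (chkRangeT_spec (c := cert) 159941 1311 kT_159941) rfl
  have h60 : ∀ v < 162461, chkRow cert v cert.ncols = true :=
    cover_step h59 (chkRangeT_spec (c := cert) 161252 1209 kT_161252) rfl
  have h61 : ∀ v < 163787, chkRow cert v cert.ncols = true :=
    cover_step h60 (chkRangeT_spec (c := cert) 162461 1326 kT_162461) rfl
  have h62 : ∀ v < 165118, chkRow cert v cert.ncols = true :=
    cover_step h61 (chkRangeT_spec (c := cert) 163787 1331 kT_163787) rfl
  have h63 : ∀ v < 166408, chkRow cert v cert.ncols = true :=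
    cover_step h62 (chkRangeT_spec (c := cert) 165118 1290 kT_165118) rfl
  have h64 : ∀ v < 167566, chkRow cert v cert.ncols = true :=
    cover_step h63 (chkRangeT_spec (c := cert) 166408 1158 kT_166408) rfl
  exact h64

theorem allT_2 : ∀ v < 243870, chkRow cert v cert.ncols = true := by
  have h0 := allT_1
  have h1 : ∀ v < 168854, chkRow cert v cert.ncols = true :=
    cover_step h0 (chkRangeT_spec (c := cert) 167566 1288 kT_167566) rfl
  have h2 : ∀ v < 169997, chkRow cert v cert.ncols = true :=
    cover_step h1 (chkRangeT_spec (c := cert) 168854 1143 kT_168854) rfl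
  have h3 : ∀ v < 171196, chkRow cert v cert.ncols = true :=
    cover_step h2 (chkRangeT_spec (c := cert) 169997 1199 kT_169997) rfl
  have h4 : ∀ v < 172396, chkRow cert v cert.ncols = true :=
    cover_step h3 (chkRangeT_spec (c := cert) 171196 1200 kT_171196) rfl
  have h5 : ∀ v < 173731, chkRow cert v cert.ncols = true :=
    cover_step h4 (chkRangeT_spec (c := cert) 172396 1335 kT_172396) rfl
  have h6 : ∀ v < 175089, chkRow cert v cert.ncols = true :=
    cover_step h5 (chkRangeT_spec (c := cert) 173731 1358 kT_173731) rfl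
  have h7 : ∀ v < 176386, chkRow cert v cert.ncols = true :=
    cover_step h6 (chkRangeT_spec (c := cert) 175089 1297 kT_175089) rfl
  have h8 : ∀ v < 177784, chkRow cert v cert.ncols = true :=
    cover_step h7 (chkRangeT_spec (c := cert) 176386 1398 kT_176386) rfl
  have h9 : ∀ v < 179075, chkRow cert v cert.ncols = true :=
    cover_step h8 (chkRangeT_spec (c := cert) 177784 1291 kT_177784) rfl
  have h10 : ∀ v < 180400, chkRow cert v cert.ncols = true :=
    cover_step h9 (chkRangeT_spec (c := cert) 179075 1325 kT_179075) rfl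
  have h11 : ∀ v < 181611, chkRow cert v cert.ncols = true :=
    cover_step h10 (chkRangeT_spec (c := cert) 180400 1211 kT_180400) rfl
  have h12 : ∀ v < 182867, chkRow cert v cert.ncols = true :=
    cover_step h11 (chkRangeT_spec (c := cert) 181611 1256 kT_181611) rfl
  have h13 : ∀ v < 184086, chkRow cert v cert.ncols = true :=
    cover_step h12 (chkRangeT_spec (c := cert) 182867 1219 kT_182867) rfl
  have h14 : ∀ v < 185371, chkRow cert v cert.ncols = true :=
    cover_step h13 (chkRangeT_spec (c := cert) 184086 1285 kT_184086) rfl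
  have h15 : ∀ v < 186580, chkRow cert v cert.ncols = true :=
    cover_step h14 (chkRangeT_spec (c := cert) 185371 1209 kT_185371) rfl
  have h16 : ∀ v < 187846, chkRow cert v cert.ncols = true :=
    cover_step h15 (chkRangeT_spec (c := cert) 186580 1266 kT_186580) rfl
  have h17 : ∀ v < 189141, chkRow cert v cert.ncols = true :=
    cover_step h16 (chkRangeT_spec (c := cert) 187846 1295 kT_187846) rfl
  have h18 : ∀ v < 190412, chkRow cert v cert.ncols = true :=
    cover_step h17 (chkRangeT_spec (c := cert) 189141 1271 kT_189141) rfl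
  have h19 : ∀ v < 191540, chkRow cert v cert.ncols = true :=
    cover_step h18 (chkRangeT_spec (c := cert) 190412 1128 kT_190412) rfl
  have h20 : ∀ v < 192756, chkRow cert v cert.ncols = true :=
    cover_step h19 (chkRangeT_spec (c := cert) 191540 1216 kT_191540) rfl
  have h21 : ∀ v < 193940, chkRow cert v cert.ncols = true :=
    cover_step h20 (chkRangeT_spec (c := cert) 192756 1184 kT_192756) rfl
  have h22 : ∀ v < 195105, chkRow cert v cert.ncols = true :=
    cover_step h21 (chkRangeT_spec (c := cert) 193940 1165 kT_193940) rfl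
  have h23 : ∀ v < 196301, chkRow cert v cert.ncols = true :=
    cover_step h22 (chkRangeT_spec (c := cert) 195105 1196 kT_195105) rfl
  have h24 : ∀ v < 197663, chkRow cert v cert.ncols = true :=
    cover_step h23 (chkRangeT_spec (c := cert) 196301 1362 kT_196301) rfl
  have h25 : ∀ v < 198878, chkRow cert v cert.ncols = true :=
    cover_step h24 (chkRangeT_spec (c := cert) 197663 1215 kT_197663) rfl
  have h26 : ∀ v < 200217, chkRow cert v cert.ncols = true :=
    cover_step h25 (chkRangeT_spec (c := cert) 198878 1339 kT_198878) rfl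
  have h27 : ∀ v < 201515, chkRow cert v cert.ncols = true :=
    cover_step h26 (chkRangeT_spec (c := cert) 200217 1298 kT_200217) rfl
  have h28 : ∀ v < 202809, chkRow cert v cert.ncols = true :=
    cover_step h27 (chkRangeT_spec (c := cert) 201515 1294 kT_201515) rfl
  have h29 : ∀ v < 204076, chkRow cert v cert.ncols = true :=
    cover_step h28 (chkRangeT_spec (c := cert) 202809 1267 kT_202809) rfl
  have h30 : ∀ v < 205341, chkRow cert v cert.ncols = true :=
    cover_step h29 (chkRangeT_spec (c := cert) 204076 1265 kT_204076) rfl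
  have h31 : ∀ v < 206485, chkRow cert v cert.ncols = true :=
    cover_step h30 (chkRangeT_spec (c := cert) 205341 1144 kT_205341) rfl
  have h32 : ∀ v < 207719, chkRow cert v cert.ncols = true :=
    cover_step h31 (chkRangeT_spec (c := cert) 206485 1234 kT_206485) rfl
  have h33 : ∀ v < 208888, chkRow cert v cert.ncols = true :=
    cover_step h32 (chkRangeT_spec (c := cert) 207719 1169 kT_207719) rfl
  have h34 : ∀ v < 210093, chkRow cert v cert.ncols = true :=
    cover_step h33 (chkRangeT_spec (c := cert) 208888 1205 kT_208888) rfl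
  have h35 : ∀ v < 211204, chkRow cert v cert.ncols = true :=
    cover_step h34 (chkRangeT_spec (c := cert) 210093 1111 kT_210093) rfl
  have h36 : ∀ v < 212519, chkRow cert v cert.ncols = true :=
    cover_step h35 (chkRangeT_spec (c := cert) 211204 1315 kT_211204) rfl
  have h37 : ∀ v < 213711, chkRow cert v cert.ncols = true :=
    cover_step h36 (chkRangeT_spec (c := cert) 212519 1192 kT_212519) rfl
  have h38 : ∀ v < 215012, chkRow cert v cert.ncols = true :=
    cover_step h37 (chkRangeT_spec (c := cert) 213711 1301 kT_213711) rfl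
  have h39 : ∀ v < 216147, chkRow cert v cert.ncols = true :=
    cover_step h38 (chkRangeT_spec (c := cert) 215012 1135 kT_215012) rfl
  have h40 : ∀ v < 217165, chkRow cert v cert.ncols = true :=
    cover_step h39 (chkRangeT_spec (c := cert) 216147 1018 kT_216147) rfl
  have h41 : ∀ v < 218250, chkRow cert v cert.ncols = true :=
    cover_step h40 (chkRangeT_spec (c := cert) 217165 1085 kT_217165) rfl
  have h42 : ∀ v < 219341, chkRow cert v cert.ncols = true :=
    cover_step h41 (chkRangeT_spec (c := cert) 218250 1091 kT_218250) rfl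
  have h43 : ∀ v < 220439, chkRow cert v cert.ncols = true :=
    cover_step h42 (chkRangeT_spec (c := cert) 219341 1098 kT_219341) rfl
  have h44 : ∀ v < 221615, chkRow cert v cert.ncols = true :=
    cover_step h43 (chkRangeT_spec (c := cert) 220439 1176 kT_220439) rfl
  have h45 : ∀ v < 222935, chkRow cert v cert.ncols = true :=
    cover_step h44 (chkRangeT_spec (c := cert) 221615 1320 kT_221615) rfl
  have h46 : ∀ v < 224133, chkRow cert v cert.ncols = true :=
    cover_step h45 (chkRangeT_spec (c := cert) 222935 1198 kT_222935) rfl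
  have h47 : ∀ v < 225469, chkRow cert v cert.ncols = true :=
    cover_step h46 (chkRangeT_spec (c := cert) 224133 1336 kT_224133) rfl
  have h48 : ∀ v < 226665, chkRow cert v cert.ncols = true :=
    cover_step h47 (chkRangeT_spec (c := cert) 225469 1196 kT_225469) rfl
  have h49 : ∀ v < 227912, chkRow cert v cert.ncols = true :=
    cover_step h48 (chkRangeT_spec (c := cert) 226665 1247 kT_226665) rfl
  have h50 : ∀ v < 229061, chkRow cert v cert.ncols = true :=
    cover_step h49 (chkRangeT_spec (c := cert) 227912 1149 kT_227912) rfl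
  have h51 : ∀ v < 230111, chkRow cert v cert.ncols = true :=
    cover_step h50 (chkRangeT_spec (c := cert) 229061 1050 kT_229061) rfl
  have h52 : ∀ v < 231339, chkRow cert v cert.ncols = true :=
    cover_step h51 (chkRangeT_spec (c := cert) 230111 1228 kT_230111) rfl
  have h53 : ∀ v < 232454, chkRow cert v cert.ncols = true :=
    cover_step h52 (chkRangeT_spec (c := cert) 231339 1115 kT_231339) rfl
  have h54 : ∀ v < 233532, chkRow cert v cert.ncols = true :=
    cover_step h53 (chkRangeT_spec (c := cert) 232454 1078 kT_232454) rfl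
  have h55 : ∀ v < 234594, chkRow cert v cert.ncols = true :=
    cover_step h54 (chkRangeT_spec (c := cert) 233532 1062 kT_233532) rfl
  have h56 : ∀ v < 235718, chkRow cert v cert.ncols = true :=
    cover_step h55 (chkRangeT_spec (c := cert) 234594 1124 kT_234594) rfl
  have h57 : ∀ v < 236676, chkRow cert v cert.ncols = true :=
    cover_step h56 (chkRangeT_spec (c := cert) 235718 958 kT_235718) rfl
  have h58 : ∀ v < 237867, chkRow cert v cert.ncols = true :=
    cover_step h57 (chkRangeT_spec (c := cert) 236676 1191 kT_236676) rfl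
  have h59 : ∀ v < 238967, chkRow cert v cert.ncols = true :=
    cover_step h58 (chkRangeT_spec (c := cert) 237867 1100 kT_237867) rfl
  have h60 : ∀ v < 240133, chkRow cert v cert.ncols = true :=
    cover_step h59 (chkRangeT_spec (c := cert) 238967 1166 kT_238967) rfl
  have h61 : ∀ v < 241200, chkRow cert v cert.ncols = true :=
    cover_step h60 (chkRangeT_spec (c := cert) 240133 1067 kT_240133) rfl
  have h62 : ∀ v < 242118, chkRow cert v cert.ncols = true :=
    cover_step h61 (chkRangeT_spec (c := cert) 241200 918 kT_241200) rfl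
  have h63 : ∀ v < 242874, chkRow cert v cert.ncols = true :=
    cover_step h62 (chkRangeT_spec (c := cert) 242118 756 kT_242118) rfl
  have h64 : ∀ v < 243870, chkRow cert v cert.ncols = true :=
    cover_step h63 (chkRangeT_spec (c := cert) 242874 996 kT_242874) rfl
  exact h64

theorem allT_3 : ∀ v < 296200, chkRow cert v cert.ncols = true := by
  have h0 := allT_2
  have h1 : ∀ v < 244821, chkRow cert v cert.ncols = true :=
    cover_step h0 (chkRangeT_spec (c := cert) 243870 951 kT_243870) rfl
  have h2 : ∀ v < 245918, chkRow cert v cert.ncols = true :=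
    cover_step h1 (chkRangeT_spec (c := cert) 244821 1097 kT_244821) rfl
  have h3 : ∀ v < 247050, chkRow cert v cert.ncols = true :=
    cover_step h2 (chkRangeT_spec (c := cert) 245918 1132 kT_245918) rfl
  have h4 : ∀ v < 248263, chkRow cert v cert.ncols = true :=
    cover_step h3 (chkRangeT_spec (c := cert) 247050 1213 kT_247050) rfl
  have h5 : ∀ v < 249308, chkRow cert v cert.ncols = true :=
    cover_step h4 (chkRangeT_spec (c := cert) 248263 1045 kT_248263) rfl
  have h6 : ∀ v < 250540, chkRow cert v cert.ncols = true :=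
    cover_step h5 (chkRangeT_spec (c := cert) 249308 1232 kT_249308) rfl
  have h7 : ∀ v < 251571, chkRow cert v cert.ncols = true :=
    cover_step h6 (chkRangeT_spec (c := cert) 250540 1031 kT_250540) rfl
  have h8 : ∀ v < 252720, chkRow cert v cert.ncols = true :=
    cover_step h7 (chkRangeT_spec (c := cert) 251571 1149 kT_251571) rfl
  have h9 : ∀ v < 253784, chkRow cert v cert.ncols = true :=
    cover_step h8 (chkRangeT_spec (c := cert) 252720 1064 kT_252720) rfl
  have h10 : ∀ v < 254662, chkRow cert v cert.ncols = true :=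
    cover_step h9 (chkRangeT_spec (c := cert) 253784 878 kT_253784) rfl
  have h11 : ∀ v < 255715, chkRow cert v cert.ncols = true :=
    cover_step h10 (chkRangeT_spec (c := cert) 254662 1053 kT_254662) rfl
  have h12 : ∀ v < 256711, chkRow cert v cert.ncols = true :=
    cover_step h11 (chkRangeT_spec (c := cert) 255715 996 kT_255715) rfl
  have h13 : ∀ v < 257694, chkRow cert v cert.ncols = true :=
    cover_step h12 (chkRangeT_spec (c := cert) 256711 983 kT_256711) rfl
  have h14 : ∀ v < 258526, chkRow cert v cert.ncols = true :=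
    cover_step h13 (chkRangeT_spec (c := cert) 257694 832 kT_257694) rfl
  have h15 : ∀ v < 259579, chkRow cert v cert.ncols = true :=
    cover_step h14 (chkRangeT_spec (c := cert) 258526 1053 kT_258526) rfl
  have h16 : ∀ v < 260381, chkRow cert v cert.ncols = true :=
    cover_step h15 (chkRangeT_spec (c := cert) 259579 802 kT_259579) rfl
  have h17 : ∀ v < 261232, chkRow cert v cert.ncols = true :=
    cover_step h16 (chkRangeT_spec (c := cert) 260381 851 kT_260381) rfl
  have h18 : ∀ v < 262287, chkRow cert v cert.ncols = true :=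
    cover_step h17 (chkRangeT_spec (c := cert) 261232 1055 kT_261232) rfl
  have h19 : ∀ v < 263274, chkRow cert v cert.ncols = true :=
    cover_step h18 (chkRangeT_spec (c := cert) 262287 987 kT_262287) rfl
  have h20 : ∀ v < 264249, chkRow cert v cert.ncols = true :=
    cover_step h19 (chkRangeT_spec (c := cert) 263274 975 kT_263274) rfl
  have h21 : ∀ v < 264996, chkRow cert v cert.ncols = true :=
    cover_step h20 (chkRangeT_spec (c := cert) 264249 747 kT_264249) rfl
  have h22 : ∀ v < 265641, chkRow cert v cert.ncols = true :=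
    cover_step h21 (chkRangeT_spec (c := cert) 264996 645 kT_264996) rfl
  have h23 : ∀ v < 266324, chkRow cert v cert.ncols = true :=
    cover_step h22 (chkRangeT_spec (c := cert) 265641 683 kT_265641) rfl
  have h24 : ∀ v < 267126, chkRow cert v cert.ncols = true :=
    cover_step h23 (chkRangeT_spec (c := cert) 266324 802 kT_266324) rfl
  have h25 : ∀ v < 268054, chkRow cert v cert.ncols = true :=
    cover_step h24 (chkRangeT_spec (c := cert) 267126 928 kT_267126) rfl
  have h26 : ∀ v < 269044, chkRow cert v cert.ncols = true :=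
    cover_step h25 (chkRangeT_spec (c := cert) 268054 990 kT_268054) rfl
  have h27 : ∀ v < 270157, chkRow cert v cert.ncols = true :=
    cover_step h26 (chkRangeT_spec (c := cert) 269044 1113 kT_269044) rfl
  have h28 : ∀ v < 270962, chkRow cert v cert.ncols = true :=
    cover_step h27 (chkRangeT_spec (c := cert) 270157 805 kT_270157) rfl
  have h29 : ∀ v < 272022, chkRow cert v cert.ncols = true :=
    cover_step h28 (chkRangeT_spec (c := cert) 270962 1060 kT_270962) rfl
  have h30 : ∀ v < 272973, chkRow cert v cert.ncols = true :=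
    cover_step h29 (chkRangeT_spec (c := cert) 272022 951 kT_272022) rfl
  have h31 : ∀ v < 273876, chkRow cert v cert.ncols = true :=
    cover_step h30 (chkRangeT_spec (c := cert) 272973 903 kT_272973) rfl
  have h32 : ∀ v < 274744, chkRow cert v cert.ncols = true :=
    cover_step h31 (chkRangeT_spec (c := cert) 273876 868 kT_273876) rfl
  have h33 : ∀ v < 275479, chkRow cert v cert.ncols = true :=
    cover_step h32 (chkRangeT_spec (c := cert) 274744 735 kT_274744) rfl
  have h34 : ∀ v < 276303, chkRow cert v cert.ncols = true :=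
    cover_step h33 (chkRangeT_spec (c := cert) 275479 824 kT_275479) rfl
  have h35 : ∀ v < 277093, chkRow cert v cert.ncols = true :=
    cover_step h34 (chkRangeT_spec (c := cert) 276303 790 kT_276303) rfl
  have h36 : ∀ v < 277942, chkRow cert v cert.ncols = true :=
    cover_step h35 (chkRangeT_spec (c := cert) 277093 849 kT_277093) rfl
  have h37 : ∀ v < 278652, chkRow cert v cert.ncols = true :=
    cover_step h36 (chkRangeT_spec (c := cert) 277942 710 kT_277942) rfl
  have h38 : ∀ v < 279418, chkRow cert v cert.ncols = true :=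
    cover_step h37 (chkRangeT_spec (c := cert) 278652 766 kT_278652) rfl
  have h39 : ∀ v < 280097, chkRow cert v cert.ncols = true :=
    cover_step h38 (chkRangeT_spec (c := cert) 279418 679 kT_279418) rfl
  have h40 : ∀ v < 280898, chkRow cert v cert.ncols = true :=
    cover_step h39 (chkRangeT_spec (c := cert) 280097 801 kT_280097) rfl
  have h41 : ∀ v < 281638, chkRow cert v cert.ncols = true :=
    cover_step h40 (chkRangeT_spec (c := cert) 280898 740 kT_280898) rfl
  have h42 : ∀ v < 282398, chkRow cert v cert.ncols = true :=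
    cover_step h41 (chkRangeT_spec (c := cert) 281638 760 kT_281638) rfl
  have h43 : ∀ v < 283035, chkRow cert v cert.ncols = true :=
    cover_step h42 (chkRangeT_spec (c := cert) 282398 637 kT_282398) rfl
  have h44 : ∀ v < 283565, chkRow cert v cert.ncols = true :=
    cover_step h43 (chkRangeT_spec (c := cert) 283035 530 kT_283035) rfl
  have h45 : ∀ v < 284137, chkRow cert v cert.ncols = true :=
    cover_step h44 (chkRangeT_spec (c := cert) 283565 572 kT_283565) rfl
  have h46 : ∀ v < 284835, chkRow cert v cert.ncols = true :=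
    cover_step h45 (chkRangeT_spec (c := cert) 284137 698 kT_284137) rfl
  have h47 : ∀ v < 285647, chkRow cert v cert.ncols = true :=
    cover_step h46 (chkRangeT_spec (c := cert) 284835 812 kT_284835) rfl
  have h48 : ∀ v < 286483, chkRow cert v cert.ncols = true :=
    cover_step h47 (chkRangeT_spec (c := cert) 285647 836 kT_285647) rfl
  have h49 : ∀ v < 287226, chkRow cert v cert.ncols = true :=
    cover_step h48 (chkRangeT_spec (c := cert) 286483 743 kT_286483) rfl
  have h50 : ∀ v < 287965, chkRow cert v cert.ncols = true :=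
    cover_step h49 (chkRangeT_spec (c := cert) 287226 739 kT_287226) rfl
  have h51 : ∀ v < 288686, chkRow cert v cert.ncols = true :=
    cover_step h50 (chkRangeT_spec (c := cert) 287965 721 kT_287965) rfl
  have h52 : ∀ v < 289389, chkRow cert v cert.ncols = true :=
    cover_step h51 (chkRangeT_spec (c := cert) 288686 703 kT_288686) rfl
  have h53 : ∀ v < 290061, chkRow cert v cert.ncols = true :=
    cover_step h52 (chkRangeT_spec (c := cert) 289389 672 kT_289389) rfl
  have h54 : ∀ v < 290736, chkRow cert v cert.ncols = true :=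
    cover_step h53 (chkRangeT_spec (c := cert) 290061 675 kT_290061) rfl
  have h55 : ∀ v < 291485, chkRow cert v cert.ncols = true :=
    cover_step h54 (chkRangeT_spec (c := cert) 290736 749 kT_290736) rfl
  have h56 : ∀ v < 292038, chkRow cert v cert.ncols = true :=
    cover_step h55 (chkRangeT_spec (c := cert) 291485 553 kT_291485) rfl
  have h57 : ∀ v < 292636, chkRow cert v cert.ncols = true :=
    cover_step h56 (chkRangeT_spec (c := cert) 292038 598 kT_292038) rfl
  have h58 : ∀ v < 293113, chkRow cert v cert.ncols = true :=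
    cover_step h57 (chkRangeT_spec (c := cert) 292636 477 kT_292636) rfl
  have h59 : ∀ v < 293611, chkRow cert v cert.ncols = true :=
    cover_step h58 (chkRangeT_spec (c := cert) 293113 498 kT_293113) rfl
  have h60 : ∀ v < 294202, chkRow cert v cert.ncols = true :=
    cover_step h59 (chkRangeT_spec (c := cert) 293611 591 kT_293611) rfl
  have h61 : ∀ v < 294724, chkRow cert v cert.ncols = true :=
    cover_step h60 (chkRangeT_spec (c := cert) 294202 522 kT_294202) rfl
  have h62 : ∀ v < 295104, chkRow cert v cert.ncols = true :=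
    cover_step h61 (chkRangeT_spec (c := cert) 294724 380 kT_294724) rfl
  have h63 : ∀ v < 295557, chkRow cert v cert.ncols = true :=
    cover_step h62 (chkRangeT_spec (c := cert) 295104 453 kT_295104) rfl
  have h64 : ∀ v < 296200, chkRow cert v cert.ncols = true :=
    cover_step h63 (chkRangeT_spec (c := cert) 295557 643 kT_295557) rfl
  exact h64

theorem allT_4 : ∀ v < 386471, chkRow cert v cert.ncols = true := by
  have h0 := allT_3
  have h1 : ∀ v < 296795, chkRow cert v cert.ncols = true :=
    cover_step h0 (chkRangeT_spec (c := cert) 296200 595 kT_296200) rfl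
  have h2 : ∀ v < 297433, chkRow cert v cert.ncols = true :=
    cover_step h1 (chkRangeT_spec (c := cert) 296795 638 kT_296795) rfl
  have h3 : ∀ v < 297959, chkRow cert v cert.ncols = true :=
    cover_step h2 (chkRangeT_spec (c := cert) 297433 526 kT_297433) rfl
  have h4 : ∀ v < 298495, chkRow cert v cert.ncols = true :=
    cover_step h3 (chkRangeT_spec (c := cert) 297959 536 kT_297959) rfl
  have h5 : ∀ v < 299031, chkRow cert v cert.ncols = true :=
    cover_step h4 (chkRangeT_spec (c := cert) 298495 536 kT_298495) rfl
  have h6 : ∀ v < 299523, chkRow cert v cert.ncols = true :=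
    cover_step h5 (chkRangeT_spec (c := cert) 299031 492 kT_299031) rfl
  have h7 : ∀ v < 300065, chkRow cert v cert.ncols = true :=
    cover_step h6 (chkRangeT_spec (c := cert) 299523 542 kT_299523) rfl
  have h8 : ∀ v < 300529, chkRow cert v cert.ncols = true :=
    cover_step h7 (chkRangeT_spec (c := cert) 300065 464 kT_300065) rfl
  have h9 : ∀ v < 300881, chkRow cert v cert.ncols = true :=
    cover_step h8 (chkRangeT_spec (c := cert) 300529 352 kT_300529) rfl
  have h10 : ∀ v < 301335, chkRow cert v cert.ncols = true :=
    cover_step h9 (chkRangeT_spec (c := cert) 300881 454 kT_300881) rfl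
  have h11 : ∀ v < 301714, chkRow cert v cert.ncols = true :=
    cover_step h10 (chkRangeT_spec (c := cert) 301335 379 kT_301335) rfl
  have h12 : ∀ v < 302162, chkRow cert v cert.ncols = true :=
    cover_step h11 (chkRangeT_spec (c := cert) 301714 448 kT_301714) rfl
  have h13 : ∀ v < 302757, chkRow cert v cert.ncols = true :=
    cover_step h12 (chkRangeT_spec (c := cert) 302162 595 kT_302162) rfl
  have h14 : ∀ v < 303157, chkRow cert v cert.ncols = true :=
    cover_step h13 (chkRangeT_spec (c := cert) 302757 400 kT_302757) rfl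
  have h15 : ∀ v < 303541, chkRow cert v cert.ncols = true :=
    cover_step h14 (chkRangeT_spec (c := cert) 303157 384 kT_303157) rfl
  have h16 : ∀ v < 303938, chkRow cert v cert.ncols = true :=
    cover_step h15 (chkRangeT_spec (c := cert) 303541 397 kT_303541) rfl
  have h17 : ∀ v < 304354, chkRow cert v cert.ncols = true :=
    cover_step h16 (chkRangeT_spec (c := cert) 303938 416 kT_303938) rfl
  have h18 : ∀ v < 304717, chkRow cert v cert.ncols = true :=
    cover_step h17 (chkRangeT_spec (c := cert) 304354 363 kT_304354) rfl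
  have h19 : ∀ v < 305060, chkRow cert v cert.ncols = true :=
    cover_step h18 (chkRangeT_spec (c := cert) 304717 343 kT_304717) rfl
  have h20 : ∀ v < 305521, chkRow cert v cert.ncols = true :=
    cover_step h19 (chkRangeT_spec (c := cert) 305060 461 kT_305060) rfl
  have h21 : ∀ v < 305859, chkRow cert v cert.ncols = true :=
    cover_step h20 (chkRangeT_spec (c := cert) 305521 338 kT_305521) rfl
  have h22 : ∀ v < 306164, chkRow cert v cert.ncols = true :=
    cover_step h21 (chkRangeT_spec (c := cert) 305859 305 kT_305859) rfl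
  have h23 : ∀ v < 306509, chkRow cert v cert.ncols = true :=
    cover_step h22 (chkRangeT_spec (c := cert) 306164 345 kT_306164) rfl
  have h24 : ∀ v < 306793, chkRow cert v cert.ncols = true :=
    cover_step h23 (chkRangeT_spec (c := cert) 306509 284 kT_306509) rfl
  have h25 : ∀ v < 308471, chkRow cert v cert.ncols = true :=
    cover_step h24 (chkRangeT_spec (c := cert) 306793 1678 kT_306793) rfl
  have h26 : ∀ v < 310471, chkRow cert v cert.ncols = true :=
    cover_step h25 (chkRangeT_spec (c := cert) 308471 2000 kT_308471) rfl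
  have h27 : ∀ v < 312471, chkRow cert v cert.ncols = true :=
    cover_step h26 (chkRangeT_spec (c := cert) 310471 2000 kT_310471) rfl
  have h28 : ∀ v < 314471, chkRow cert v cert.ncols = true :=
    cover_step h27 (chkRangeT_spec (c := cert) 312471 2000 kT_312471) rfl
  have h29 : ∀ v < 316471, chkRow cert v cert.ncols = true :=
    cover_step h28 (chkRangeT_spec (c := cert) 314471 2000 kT_314471) rfl
  have h30 : ∀ v < 318471, chkRow cert v cert.ncols = true :=
    cover_step h29 (chkRangeT_spec (c := cert) 316471 2000 kT_316471) rfl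
  have h31 : ∀ v < 320471, chkRow cert v cert.ncols = true :=
    cover_step h30 (chkRangeT_spec (c := cert) 318471 2000 kT_318471) rfl
  have h32 : ∀ v < 322471, chkRow cert v cert.ncols = true :=
    cover_step h31 (chkRangeT_spec (c := cert) 320471 2000 kT_320471) rfl
  have h33 : ∀ v < 324471, chkRow cert v cert.ncols = true :=
    cover_step h32 (chkRangeT_spec (c := cert) 322471 2000 kT_322471) rfl
  have h34 : ∀ v < 326471, chkRow cert v cert.ncols = true :=
    cover_step h33 (chkRangeT_spec (c := cert) 324471 2000 kT_324471) rfl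
  have h35 : ∀ v < 328471, chkRow cert v cert.ncols = true :=
    cover_step h34 (chkRangeT_spec (c := cert) 326471 2000 kT_326471) rfl
  have h36 : ∀ v < 330471, chkRow cert v cert.ncols = true :=
    cover_step h35 (chkRangeT_spec (c := cert) 328471 2000 kT_328471) rfl
  have h37 : ∀ v < 332471, chkRow cert v cert.ncols = true :=
    cover_step h36 (chkRangeT_spec (c := cert) 330471 2000 kT_330471) rfl
  have h38 : ∀ v < 334471, chkRow cert v cert.ncols = true :=
    cover_step h37 (chkRangeT_spec (c := cert) 332471 2000 kT_332471) rfl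
  have h39 : ∀ v < 336471, chkRow cert v cert.ncols = true :=
    cover_step h38 (chkRangeT_spec (c := cert) 334471 2000 kT_334471) rfl
  have h40 : ∀ v < 338471, chkRow cert v cert.ncols = true :=
    cover_step h39 (chkRangeT_spec (c := cert) 336471 2000 kT_336471) rfl
  have h41 : ∀ v < 340471, chkRow cert v cert.ncols = true :=
    cover_step h40 (chkRangeT_spec (c := cert) 338471 2000 kT_338471) rfl
  have h42 : ∀ v < 342471, chkRow cert v cert.ncols = true :=
    cover_step h41 (chkRangeT_spec (c := cert) 340471 2000 kT_340471) rfl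
  have h43 : ∀ v < 344471, chkRow cert v cert.ncols = true :=
    cover_step h42 (chkRangeT_spec (c := cert) 342471 2000 kT_342471) rfl
  have h44 : ∀ v < 346471, chkRow cert v cert.ncols = true :=
    cover_step h43 (chkRangeT_spec (c := cert) 344471 2000 kT_344471) rfl
  have h45 : ∀ v < 348471, chkRow cert v cert.ncols = true :=
    cover_step h44 (chkRangeT_spec (c := cert) 346471 2000 kT_346471) rfl
  have h46 : ∀ v < 350471, chkRow cert v cert.ncols = true :=
    cover_step h45 (chkRangeT_spec (c := cert) 348471 2000 kT_348471) rfl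
  have h47 : ∀ v < 352471, chkRow cert v cert.ncols = true :=
    cover_step h46 (chkRangeT_spec (c := cert) 350471 2000 kT_350471) rfl
  have h48 : ∀ v < 354471, chkRow cert v cert.ncols = true :=
    cover_step h47 (chkRangeT_spec (c := cert) 352471 2000 kT_352471) rfl
  have h49 : ∀ v < 356471, chkRow cert v cert.ncols = true :=
    cover_step h48 (chkRangeT_spec (c := cert) 354471 2000 kT_354471) rfl
  have h50 : ∀ v < 358471, chkRow cert v cert.ncols = true :=
    cover_step h49 (chkRangeT_spec (c := cert) 356471 2000 kT_356471) rfl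
  have h51 : ∀ v < 360471, chkRow cert v cert.ncols = true :=
    cover_step h50 (chkRangeT_spec (c := cert) 358471 2000 kT_358471) rfl
  have h52 : ∀ v < 362471, chkRow cert v cert.ncols = true :=
    cover_step h51 (chkRangeT_spec (c := cert) 360471 2000 kT_360471) rfl
  have h53 : ∀ v < 364471, chkRow cert v cert.ncols = true :=
    cover_step h52 (chkRangeT_spec (c := cert) 362471 2000 kT_362471) rfl
  have h54 : ∀ v < 366471, chkRow cert v cert.ncols = true :=
    cover_step h53 (chkRangeT_spec (c := cert) 364471 2000 kT_364471) rfl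
  have h55 : ∀ v < 368471, chkRow cert v cert.ncols = true :=
    cover_step h54 (chkRangeT_spec (c := cert) 366471 2000 kT_366471) rfl
  have h56 : ∀ v < 370471, chkRow cert v cert.ncols = true :=
    cover_step h55 (chkRangeT_spec (c := cert) 368471 2000 kT_368471) rfl
  have h57 : ∀ v < 372471, chkRow cert v cert.ncols = true :=
    cover_step h56 (chkRangeT_spec (c := cert) 370471 2000 kT_370471) rfl
  have h58 : ∀ v < 374471, chkRow cert v cert.ncols = true :=
    cover_step h57 (chkRangeT_spec (c := cert) 372471 2000 kT_372471) rfl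
  have h59 : ∀ v < 376471, chkRow cert v cert.ncols = true :=
    cover_step h58 (chkRangeT_spec (c := cert) 374471 2000 kT_374471) rfl
  have h60 : ∀ v < 378471, chkRow cert v cert.ncols = true :=
    cover_step h59 (chkRangeT_spec (c := cert) 376471 2000 kT_376471) rfl
  have h61 : ∀ v < 380471, chkRow cert v cert.ncols = true :=
    cover_step h60 (chkRangeT_spec (c := cert) 378471 2000 kT_378471) rfl
  have h62 : ∀ v < 382471, chkRow cert v cert.ncols = true :=
    cover_step h61 (chkRangeT_spec (c := cert) 380471 2000 kT_380471) rfl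
  have h63 : ∀ v < 384471, chkRow cert v cert.ncols = true :=
    cover_step h62 (chkRangeT_spec (c := cert) 382471 2000 kT_382471) rfl
  have h64 : ∀ v < 386471, chkRow cert v cert.ncols = true :=
    cover_step h63 (chkRangeT_spec (c := cert) 384471 2000 kT_384471) rfl
  exact h64

theorem allT : ∀ v < 466452, chkRow cert v cert.ncols = true := by
  have h0 := allT_4
  have h1 : ∀ v < 388471, chkRow cert v cert.ncols = true :=
    cover_step h0 (chkRangeT_spec (c := cert) 386471 2000 kT_386471) rfl
  have h2 : ∀ v < 390471, chkRow cert v cert.ncols = true :=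
    cover_step h1 (chkRangeT_spec (c := cert) 388471 2000 kT_388471) rfl
  have h3 : ∀ v < 392471, chkRow cert v cert.ncols = true :=
    cover_step h2 (chkRangeT_spec (c := cert) 390471 2000 kT_390471) rfl
  have h4 : ∀ v < 394471, chkRow cert v cert.ncols = true :=
    cover_step h3 (chkRangeT_spec (c := cert) 392471 2000 kT_392471) rfl
  have h5 : ∀ v < 396471, chkRow cert v cert.ncols = true :=
    cover_step h4 (chkRangeT_spec (c := cert) 394471 2000 kT_394471) rfl
  have h6 : ∀ v < 398471, chkRow cert v cert.ncols = true :=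
    cover_step h5 (chkRangeT_spec (c := cert) 396471 2000 kT_396471) rfl
  have h7 : ∀ v < 400471, chkRow cert v cert.ncols = true :=
    cover_step h6 (chkRangeT_spec (c := cert) 398471 2000 kT_398471) rfl
  have h8 : ∀ v < 402471, chkRow cert v cert.ncols = true :=
    cover_step h7 (chkRangeT_spec (c := cert) 400471 2000 kT_400471) rfl
  have h9 : ∀ v < 404471, chkRow cert v cert.ncols = true :=
    cover_step h8 (chkRangeT_spec (c := cert) 402471 2000 kT_402471) rfl
  have h10 : ∀ v < 406471, chkRow cert v cert.ncols = true :=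
    cover_step h9 (chkRangeT_spec (c := cert) 404471 2000 kT_404471) rfl
  have h11 : ∀ v < 408471, chkRow cert v cert.ncols = true :=
    cover_step h10 (chkRangeT_spec (c := cert) 406471 2000 kT_406471) rfl
  have h12 : ∀ v < 410471, chkRow cert v cert.ncols = true :=
    cover_step h11 (chkRangeT_spec (c := cert) 408471 2000 kT_408471) rfl
  have h13 : ∀ v < 412471, chkRow cert v cert.ncols = true :=
    cover_step h12 (chkRangeT_spec (c := cert) 410471 2000 kT_410471) rfl
  have h14 : ∀ v < 414471, chkRow cert v cert.ncols = true :=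
    cover_step h13 (chkRangeT_spec (c := cert) 412471 2000 kT_412471) rfl
  have h15 : ∀ v < 416471, chkRow cert v cert.ncols = true :=
    cover_step h14 (chkRangeT_spec (c := cert) 414471 2000 kT_414471) rfl
  have h16 : ∀ v < 418471, chkRow cert v cert.ncols = true :=
    cover_step h15 (chkRangeT_spec (c := cert) 416471 2000 kT_416471) rfl
  have h17 : ∀ v < 420471, chkRow cert v cert.ncols = true :=
    cover_step h16 (chkRangeT_spec (c := cert) 418471 2000 kT_418471) rfl
  have h18 : ∀ v < 422471, chkRow cert v cert.ncols = true :=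
    cover_step h17 (chkRangeT_spec (c := cert) 420471 2000 kT_420471) rfl
  have h19 : ∀ v < 424471, chkRow cert v cert.ncols = true :=
    cover_step h18 (chkRangeT_spec (c := cert) 422471 2000 kT_422471) rfl
  have h20 : ∀ v < 426471, chkRow cert v cert.ncols = true :=
    cover_step h19 (chkRangeT_spec (c := cert) 424471 2000 kT_424471) rfl
  have h21 : ∀ v < 428471, chkRow cert v cert.ncols = true :=
    cover_step h20 (chkRangeT_spec (c := cert) 426471 2000 kT_426471) rfl
  have h22 : ∀ v < 430471, chkRow cert v cert.ncols = true :=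
    cover_step h21 (chkRangeT_spec (c := cert) 428471 2000 kT_428471) rfl
  have h23 : ∀ v < 432471, chkRow cert v cert.ncols = true :=
    cover_step h22 (chkRangeT_spec (c := cert) 430471 2000 kT_430471) rfl
  have h24 : ∀ v < 434471, chkRow cert v cert.ncols = true :=
    cover_step h23 (chkRangeT_spec (c := cert) 432471 2000 kT_432471) rfl
  have h25 : ∀ v < 436471, chkRow cert v cert.ncols = true :=
    cover_step h24 (chkRangeT_spec (c := cert) 434471 2000 kT_434471) rfl
  have h26 : ∀ v < 438471, chkRow cert v cert.ncols = true :=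
    cover_step h25 (chkRangeT_spec (c := cert) 436471 2000 kT_436471) rfl
  have h27 : ∀ v < 440471, chkRow cert v cert.ncols = true :=
    cover_step h26 (chkRangeT_spec (c := cert) 438471 2000 kT_438471) rfl
  have h28 : ∀ v < 442471, chkRow cert v cert.ncols = true :=
    cover_step h27 (chkRangeT_spec (c := cert) 440471 2000 kT_440471) rfl
  have h29 : ∀ v < 444471, chkRow cert v cert.ncols = true :=
    cover_step h28 (chkRangeT_spec (c := cert) 442471 2000 kT_442471) rfl
  have h30 : ∀ v < 446471, chkRow cert v cert.ncols = true :=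
    cover_step h29 (chkRangeT_spec (c := cert) 444471 2000 kT_444471) rfl
  have h31 : ∀ v < 448471, chkRow cert v cert.ncols = true :=
    cover_step h30 (chkRangeT_spec (c := cert) 446471 2000 kT_446471) rfl
  have h32 : ∀ v < 450471, chkRow cert v cert.ncols = true :=
    cover_step h31 (chkRangeT_spec (c := cert) 448471 2000 kT_448471) rfl
  have h33 : ∀ v < 452471, chkRow cert v cert.ncols = true :=
    cover_step h32 (chkRangeT_spec (c := cert) 450471 2000 kT_450471) rfl
  have h34 : ∀ v < 454471, chkRow cert v cert.ncols = true :=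
    cover_step h33 (chkRangeT_spec (c := cert) 452471 2000 kT_452471) rfl
  have h35 : ∀ v < 456471, chkRow cert v cert.ncols = true :=
    cover_step h34 (chkRangeT_spec (c := cert) 454471 2000 kT_454471) rfl
  have h36 : ∀ v < 458471, chkRow cert v cert.ncols = true :=
    cover_step h35 (chkRangeT_spec (c := cert) 456471 2000 kT_456471) rfl
  have h37 : ∀ v < 460471, chkRow cert v cert.ncols = true :=
    cover_step h36 (chkRangeT_spec (c := cert) 458471 2000 kT_458471) rfl
  have h38 : ∀ v < 462471, chkRow cert v cert.ncols = true :=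
    cover_step h37 (chkRangeT_spec (c := cert) 460471 2000 kT_460471) rfl
  have h39 : ∀ v < 464471, chkRow cert v cert.ncols = true :=
    cover_step h38 (chkRangeT_spec (c := cert) 462471 2000 kT_462471) rfl
  have h40 : ∀ v < 466452, chkRow cert v cert.ncols = true :=
    cover_step h39 (chkRangeT_spec (c := cert) 464471 1981 kT_464471) rfl
  exact h40

theorem allF_0 : ∀ v < 14720, chkVF cert v = true := by
  have h0 : ∀ v < 0, chkVF cert v = true := fun v hv => absurd hv (Nat.not_lt_zero v)
  have h1 : ∀ v < 230, chkVF cert v = true :=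
    cover_step h0 (chkRangeF_spec (c := cert) 0 230 kF_0) rfl
  have h2 : ∀ v < 460, chkVF cert v = true :=
    cover_step h1 (chkRangeF_spec (c := cert) 230 230 kF_230) rfl
  have h3 : ∀ v < 690, chkVF cert v = true :=
    cover_step h2 (chkRangeF_spec (c := cert) 460 230 kF_460) rfl
  have h4 : ∀ v < 920, chkVF cert v = true :=
    cover_step h3 (chkRangeF_spec (c := cert) 690 230 kF_690) rfl
  have h5 : ∀ v < 1150, chkVF cert v = true :=
    cover_step h4 (chkRangeF_spec (c := cert) 920 230 kF_920) rfl
  have h6 : ∀ v < 1380, chkVF cert v = true :=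
    cover_step h5 (chkRangeF_spec (c := cert) 1150 230 kF_1150) rfl
  have h7 : ∀ v < 1610, chkVF cert v = true :=
    cover_step h6 (chkRangeF_spec (c := cert) 1380 230 kF_1380) rfl
  have h8 : ∀ v < 1840, chkVF cert v = true :=
    cover_step h7 (chkRangeF_spec (c := cert) 1610 230 kF_1610) rfl
  have h9 : ∀ v < 2070, chkVF cert v = true :=
    cover_step h8 (chkRangeF_spec (c := cert) 1840 230 kF_1840) rfl
  have h10 : ∀ v < 2300, chkVF cert v = true :=
    cover_step h9 (chkRangeF_spec (c := cert) 2070 230 kF_2070) rfl
  have h11 : ∀ v < 2530, chkVF cert v = true :=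
    cover_step h10 (chkRangeF_spec (c := cert) 2300 230 kF_2300) rfl
  have h12 : ∀ v < 2760, chkVF cert v = true :=
    cover_step h11 (chkRangeF_spec (c := cert) 2530 230 kF_2530) rfl
  have h13 : ∀ v < 2990, chkVF cert v = true :=
    cover_step h12 (chkRangeF_spec (c := cert) 2760 230 kF_2760) rfl
  have h14 : ∀ v < 3220, chkVF cert v = true :=
    cover_step h13 (chkRangeF_spec (c := cert) 2990 230 kF_2990) rfl
  have h15 : ∀ v < 3450, chkVF cert v = true :=
    cover_step h14 (chkRangeF_spec (c := cert) 3220 230 kF_3220) rfl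
  have h16 : ∀ v < 3680, chkVF cert v = true :=
    cover_step h15 (chkRangeF_spec (c := cert) 3450 230 kF_3450) rfl
  have h17 : ∀ v < 3910, chkVF cert v = true :=
    cover_step h16 (chkRangeF_spec (c := cert) 3680 230 kF_3680) rfl
  have h18 : ∀ v < 4140, chkVF cert v = true :=
    cover_step h17 (chkRangeF_spec (c := cert) 3910 230 kF_3910) rfl
  have h19 : ∀ v < 4370, chkVF cert v = true :=
    cover_step h18 (chkRangeF_spec (c := cert) 4140 230 kF_4140) rfl
  have h20 : ∀ v < 4600, chkVF cert v = true :=
    cover_step h19 (chkRangeF_spec (c := cert) 4370 230 kF_4370) rfl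
  have h21 : ∀ v < 4830, chkVF cert v = true :=
    cover_step h20 (chkRangeF_spec (c := cert) 4600 230 kF_4600) rfl
  have h22 : ∀ v < 5060, chkVF cert v = true :=
    cover_step h21 (chkRangeF_spec (c := cert) 4830 230 kF_4830) rfl
  have h23 : ∀ v < 5290, chkVF cert v = true :=
    cover_step h22 (chkRangeF_spec (c := cert) 5060 230 kF_5060) rfl
  have h24 : ∀ v < 5520, chkVF cert v = true :=
    cover_step h23 (chkRangeF_spec (c := cert) 5290 230 kF_5290) rfl
  have h25 : ∀ v < 5750, chkVF cert v = true :=
    cover_step h24 (chkRangeF_spec (c := cert) 5520 230 kF_5520) rfl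
  have h26 : ∀ v < 5980, chkVF cert v = true :=
    cover_step h25 (chkRangeF_spec (c := cert) 5750 230 kF_5750) rfl
  have h27 : ∀ v < 6210, chkVF cert v = true :=
    cover_step h26 (chkRangeF_spec (c := cert) 5980 230 kF_5980) rfl
  have h28 : ∀ v < 6440, chkVF cert v = true :=
    cover_step h27 (chkRangeF_spec (c := cert) 6210 230 kF_6210) rfl
  have h29 : ∀ v < 6670, chkVF cert v = true :=
    cover_step h28 (chkRangeF_spec (c := cert) 6440 230 kF_6440) rfl
  have h30 : ∀ v < 6900, chkVF cert v = true :=
    cover_step h29 (chkRangeF_spec (c := cert) 6670 230 kF_6670) rfl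
  have h31 : ∀ v < 7130, chkVF cert v = true :=
    cover_step h30 (chkRangeF_spec (c := cert) 6900 230 kF_6900) rfl
  have h32 : ∀ v < 7360, chkVF cert v = true :=
    cover_step h31 (chkRangeF_spec (c := cert) 7130 230 kF_7130) rfl
  have h33 : ∀ v < 7590, chkVF cert v = true :=
    cover_step h32 (chkRangeF_spec (c := cert) 7360 230 kF_7360) rfl
  have h34 : ∀ v < 7820, chkVF cert v = true :=
    cover_step h33 (chkRangeF_spec (c := cert) 7590 230 kF_7590) rfl
  have h35 : ∀ v < 8050, chkVF cert v = true :=
    cover_step h34 (chkRangeF_spec (c := cert) 7820 230 kF_7820) rfl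
  have h36 : ∀ v < 8280, chkVF cert v = true :=
    cover_step h35 (chkRangeF_spec (c := cert) 8050 230 kF_8050) rfl
  have h37 : ∀ v < 8510, chkVF cert v = true :=
    cover_step h36 (chkRangeF_spec (c := cert) 8280 230 kF_8280) rfl
  have h38 : ∀ v < 8740, chkVF cert v = true :=
    cover_step h37 (chkRangeF_spec (c := cert) 8510 230 kF_8510) rfl
  have h39 : ∀ v < 8970, chkVF cert v = true :=
    cover_step h38 (chkRangeF_spec (c := cert) 8740 230 kF_8740) rfl
  have h40 : ∀ v < 9200, chkVF cert v = true :=
    cover_step h39 (chkRangeF_spec (c := cert) 8970 230 kF_8970) rfl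
  have h41 : ∀ v < 9430, chkVF cert v = true :=
    cover_step h40 (chkRangeF_spec (c := cert) 9200 230 kF_9200) rfl
  have h42 : ∀ v < 9660, chkVF cert v = true :=
    cover_step h41 (chkRangeF_spec (c := cert) 9430 230 kF_9430) rfl
  have h43 : ∀ v < 9890, chkVF cert v = true :=
    cover_step h42 (chkRangeF_spec (c := cert) 9660 230 kF_9660) rfl
  have h44 : ∀ v < 10120, chkVF cert v = true :=
    cover_step h43 (chkRangeF_spec (c := cert) 9890 230 kF_9890) rfl
  have h45 : ∀ v < 10350, chkVF cert v = true :=
    cover_step h44 (chkRangeF_spec (c := cert) 10120 230 kF_10120) rfl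
  have h46 : ∀ v < 10580, chkVF cert v = true :=
    cover_step h45 (chkRangeF_spec (c := cert) 10350 230 kF_10350) rfl
  have h47 : ∀ v < 10810, chkVF cert v = true :=
    cover_step h46 (chkRangeF_spec (c := cert) 10580 230 kF_10580) rfl
  have h48 : ∀ v < 11040, chkVF cert v = true :=
    cover_step h47 (chkRangeF_spec (c := cert) 10810 230 kF_10810) rfl
  have h49 : ∀ v < 11270, chkVF cert v = true :=
    cover_step h48 (chkRangeF_spec (c := cert) 11040 230 kF_11040) rfl
  have h50 : ∀ v < 11500, chkVF cert v = true :=
    cover_step h49 (chkRangeF_spec (c := cert) 11270 230 kF_11270) rfl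
  have h51 : ∀ v < 11730, chkVF cert v = true :=
    cover_step h50 (chkRangeF_spec (c := cert) 11500 230 kF_11500) rfl
  have h52 : ∀ v < 11960, chkVF cert v = true :=
    cover_step h51 (chkRangeF_spec (c := cert) 11730 230 kF_11730) rfl
  have h53 : ∀ v < 12190, chkVF cert v = true :=
    cover_step h52 (chkRangeF_spec (c := cert) 11960 230 kF_11960) rfl
  have h54 : ∀ v < 12420, chkVF cert v = true :=
    cover_step h53 (chkRangeF_spec (c := cert) 12190 230 kF_12190) rfl
  have h55 : ∀ v < 12650, chkVF cert v = true :=
    cover_step h54 (chkRangeF_spec (c := cert) 12420 230 kF_12420) rfl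
  have h56 : ∀ v < 12880, chkVF cert v = true :=
    cover_step h55 (chkRangeF_spec (c := cert) 12650 230 kF_12650) rfl
  have h57 : ∀ v < 13110, chkVF cert v = true :=
    cover_step h56 (chkRangeF_spec (c := cert) 12880 230 kF_12880) rfl
  have h58 : ∀ v < 13340, chkVF cert v = true :=
    cover_step h57 (chkRangeF_spec (c := cert) 13110 230 kF_13110) rfl
  have h59 : ∀ v < 13570, chkVF cert v = true :=
    cover_step h58 (chkRangeF_spec (c := cert) 13340 230 kF_13340) rfl
  have h60 : ∀ v < 13800, chkVF cert v = true :=
    cover_step h59 (chkRangeF_spec (c := cert) 13570 230 kF_13570) rfl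
  have h61 : ∀ v < 14030, chkVF cert v = true :=
    cover_step h60 (chkRangeF_spec (c := cert) 13800 230 kF_13800) rfl
  have h62 : ∀ v < 14260, chkVF cert v = true :=
    cover_step h61 (chkRangeF_spec (c := cert) 14030 230 kF_14030) rfl
  have h63 : ∀ v < 14490, chkVF cert v = true :=
    cover_step h62 (chkRangeF_spec (c := cert) 14260 230 kF_14260) rfl
  have h64 : ∀ v < 14720, chkVF cert v = true :=
    cover_step h63 (chkRangeF_spec (c := cert) 14490 230 kF_14490) rfl
  exact h64

theorem allF_1 : ∀ v < 29440, chkVF cert v = true := by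
  have h0 := allF_0
  have h1 : ∀ v < 14950, chkVF cert v = true :=
    cover_step h0 (chkRangeF_spec (c := cert) 14720 230 kF_14720) rfl
  have h2 : ∀ v < 15180, chkVF cert v = true :=
    cover_step h1 (chkRangeF_spec (c := cert) 14950 230 kF_14950) rfl
  have h3 : ∀ v < 15410, chkVF cert v = true :=
    cover_step h2 (chkRangeF_spec (c := cert) 15180 230 kF_15180) rfl
  have h4 : ∀ v < 15640, chkVF cert v = true :=
    cover_step h3 (chkRangeF_spec (c := cert) 15410 230 kF_15410) rfl
  have h5 : ∀ v < 15870, chkVF cert v = true :=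
    cover_step h4 (chkRangeF_spec (c := cert) 15640 230 kF_15640) rfl
  have h6 : ∀ v < 16100, chkVF cert v = true :=
    cover_step h5 (chkRangeF_spec (c := cert) 15870 230 kF_15870) rfl
  have h7 : ∀ v < 16330, chkVF cert v = true :=
    cover_step h6 (chkRangeF_spec (c := cert) 16100 230 kF_16100) rfl
  have h8 : ∀ v < 16560, chkVF cert v = true :=
    cover_step h7 (chkRangeF_spec (c := cert) 16330 230 kF_16330) rfl
  have h9 : ∀ v < 16790, chkVF cert v = true :=
    cover_step h8 (chkRangeF_spec (c := cert) 16560 230 kF_16560) rfl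
  have h10 : ∀ v < 17020, chkVF cert v = true :=
    cover_step h9 (chkRangeF_spec (c := cert) 16790 230 kF_16790) rfl
  have h11 : ∀ v < 17250, chkVF cert v = true :=
    cover_step h10 (chkRangeF_spec (c := cert) 17020 230 kF_17020) rfl
  have h12 : ∀ v < 17480, chkVF cert v = true :=
    cover_step h11 (chkRangeF_spec (c := cert) 17250 230 kF_17250) rfl
  have h13 : ∀ v < 17710, chkVF cert v = true :=
    cover_step h12 (chkRangeF_spec (c := cert) 17480 230 kF_17480) rfl
  have h14 : ∀ v < 17940, chkVF cert v = true :=
    cover_step h13 (chkRangeF_spec (c := cert) 17710 230 kF_17710) rfl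
  have h15 : ∀ v < 18170, chkVF cert v = true :=
    cover_step h14 (chkRangeF_spec (c := cert) 17940 230 kF_17940) rfl
  have h16 : ∀ v < 18400, chkVF cert v = true :=
    cover_step h15 (chkRangeF_spec (c := cert) 18170 230 kF_18170) rfl
  have h17 : ∀ v < 18630, chkVF cert v = true :=
    cover_step h16 (chkRangeF_spec (c := cert) 18400 230 kF_18400) rfl
  have h18 : ∀ v < 18860, chkVF cert v = true :=
    cover_step h17 (chkRangeF_spec (c := cert) 18630 230 kF_18630) rfl
  have h19 : ∀ v < 19090, chkVF cert v = true :=
    cover_step h18 (chkRangeF_spec (c := cert) 18860 230 kF_18860) rfl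
  have h20 : ∀ v < 19320, chkVF cert v = true :=
    cover_step h19 (chkRangeF_spec (c := cert) 19090 230 kF_19090) rfl
  have h21 : ∀ v < 19550, chkVF cert v = true :=
    cover_step h20 (chkRangeF_spec (c := cert) 19320 230 kF_19320) rfl
  have h22 : ∀ v < 19780, chkVF cert v = true :=
    cover_step h21 (chkRangeF_spec (c := cert) 19550 230 kF_19550) rfl
  have h23 : ∀ v < 20010, chkVF cert v = true :=
    cover_step h22 (chkRangeF_spec (c := cert) 19780 230 kF_19780) rfl
  have h24 : ∀ v < 20240, chkVF cert v = true :=
    cover_step h23 (chkRangeF_spec (c := cert) 20010 230 kF_20010) rfl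
  have h25 : ∀ v < 20470, chkVF cert v = true :=
    cover_step h24 (chkRangeF_spec (c := cert) 20240 230 kF_20240) rfl
  have h26 : ∀ v < 20700, chkVF cert v = true :=
    cover_step h25 (chkRangeF_spec (c := cert) 20470 230 kF_20470) rfl
  have h27 : ∀ v < 20930, chkVF cert v = true :=
    cover_step h26 (chkRangeF_spec (c := cert) 20700 230 kF_20700) rfl
  have h28 : ∀ v < 21160, chkVF cert v = true :=
    cover_step h27 (chkRangeF_spec (c := cert) 20930 230 kF_20930) rfl
  have h29 : ∀ v < 21390, chkVF cert v = true :=
    cover_step h28 (chkRangeF_spec (c := cert) 21160 230 kF_21160) rfl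
  have h30 : ∀ v < 21620, chkVF cert v = true :=
    cover_step h29 (chkRangeF_spec (c := cert) 21390 230 kF_21390) rfl
  have h31 : ∀ v < 21850, chkVF cert v = true :=
    cover_step h30 (chkRangeF_spec (c := cert) 21620 230 kF_21620) rfl
  have h32 : ∀ v < 22080, chkVF cert v = true :=
    cover_step h31 (chkRangeF_spec (c := cert) 21850 230 kF_21850) rfl
  have h33 : ∀ v < 22310, chkVF cert v = true :=
    cover_step h32 (chkRangeF_spec (c := cert) 22080 230 kF_22080) rfl
  have h34 : ∀ v < 22540, chkVF cert v = true :=
    cover_step h33 (chkRangeF_spec (c := cert) 22310 230 kF_22310) rfl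
  have h35 : ∀ v < 22770, chkVF cert v = true :=
    cover_step h34 (chkRangeF_spec (c := cert) 22540 230 kF_22540) rfl
  have h36 : ∀ v < 23000, chkVF cert v = true :=
    cover_step h35 (chkRangeF_spec (c := cert) 22770 230 kF_22770) rfl
  have h37 : ∀ v < 23230, chkVF cert v = true :=
    cover_step h36 (chkRangeF_spec (c := cert) 23000 230 kF_23000) rfl
  have h38 : ∀ v < 23460, chkVF cert v = true :=
    cover_step h37 (chkRangeF_spec (c := cert) 23230 230 kF_23230) rfl
  have h39 : ∀ v < 23690, chkVF cert v = true :=
    cover_step h38 (chkRangeF_spec (c := cert) 23460 230 kF_23460) rfl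
  have h40 : ∀ v < 23920, chkVF cert v = true :=
    cover_step h39 (chkRangeF_spec (c := cert) 23690 230 kF_23690) rfl
  have h41 : ∀ v < 24150, chkVF cert v = true :=
    cover_step h40 (chkRangeF_spec (c := cert) 23920 230 kF_23920) rfl
  have h42 : ∀ v < 24380, chkVF cert v = true :=
    cover_step h41 (chkRangeF_spec (c := cert) 24150 230 kF_24150) rfl
  have h43 : ∀ v < 24610, chkVF cert v = true :=
    cover_step h42 (chkRangeF_spec (c := cert) 24380 230 kF_24380) rfl
  have h44 : ∀ v < 24840, chkVF cert v = true :=
    cover_step h43 (chkRangeF_spec (c := cert) 24610 230 kF_24610) rfl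
  have h45 : ∀ v < 25070, chkVF cert v = true :=
    cover_step h44 (chkRangeF_spec (c := cert) 24840 230 kF_24840) rfl
  have h46 : ∀ v < 25300, chkVF cert v = true :=
    cover_step h45 (chkRangeF_spec (c := cert) 25070 230 kF_25070) rfl
  have h47 : ∀ v < 25530, chkVF cert v = true :=
    cover_step h46 (chkRangeF_spec (c := cert) 25300 230 kF_25300) rfl
  have h48 : ∀ v < 25760, chkVF cert v = true :=
    cover_step h47 (chkRangeF_spec (c := cert) 25530 230 kF_25530) rfl
  have h49 : ∀ v < 25990, chkVF cert v = true :=
    cover_step h48 (chkRangeF_spec (c := cert) 25760 230 kF_25760) rfl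
  have h50 : ∀ v < 26220, chkVF cert v = true :=
    cover_step h49 (chkRangeF_spec (c := cert) 25990 230 kF_25990) rfl
  have h51 : ∀ v < 26450, chkVF cert v = true :=
    cover_step h50 (chkRangeF_spec (c := cert) 26220 230 kF_26220) rfl
  have h52 : ∀ v < 26680, chkVF cert v = true :=
    cover_step h51 (chkRangeF_spec (c := cert) 26450 230 kF_26450) rfl
  have h53 : ∀ v < 26910, chkVF cert v = true :=
    cover_step h52 (chkRangeF_spec (c := cert) 26680 230 kF_26680) rfl
  have h54 : ∀ v < 27140, chkVF cert v = true :=
    cover_step h53 (chkRangeF_spec (c := cert) 26910 230 kF_26910) rfl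
  have h55 : ∀ v < 27370, chkVF cert v = true :=
    cover_step h54 (chkRangeF_spec (c := cert) 27140 230 kF_27140) rfl
  have h56 : ∀ v < 27600, chkVF cert v = true :=
    cover_step h55 (chkRangeF_spec (c := cert) 27370 230 kF_27370) rfl
  have h57 : ∀ v < 27830, chkVF cert v = true :=
    cover_step h56 (chkRangeF_spec (c := cert) 27600 230 kF_27600) rfl
  have h58 : ∀ v < 28060, chkVF cert v = true :=
    cover_step h57 (chkRangeF_spec (c := cert) 27830 230 kF_27830) rfl
  have h59 : ∀ v < 28290, chkVF cert v = true :=
    cover_step h58 (chkRangeF_spec (c := cert) 28060 230 kF_28060) rfl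
  have h60 : ∀ v < 28520, chkVF cert v = true :=
    cover_step h59 (chkRangeF_spec (c := cert) 28290 230 kF_28290) rfl
  have h61 : ∀ v < 28750, chkVF cert v = true :=
    cover_step h60 (chkRangeF_spec (c := cert) 28520 230 kF_28520) rfl
  have h62 : ∀ v < 28980, chkVF cert v = true :=
    cover_step h61 (chkRangeF_spec (c := cert) 28750 230 kF_28750) rfl
  have h63 : ∀ v < 29210, chkVF cert v = true :=
    cover_step h62 (chkRangeF_spec (c := cert) 28980 230 kF_28980) rfl
  have h64 : ∀ v < 29440, chkVF cert v = true :=
    cover_step h63 (chkRangeF_spec (c := cert) 29210 230 kF_29210) rfl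
  exact h64

theorem allF_2 : ∀ v < 44160, chkVF cert v = true := by
  have h0 := allF_1
  have h1 : ∀ v < 29670, chkVF cert v = true :=
    cover_step h0 (chkRangeF_spec (c := cert) 29440 230 kF_29440) rfl
  have h2 : ∀ v < 29900, chkVF cert v = true :=
    cover_step h1 (chkRangeF_spec (c := cert) 29670 230 kF_29670) rfl
  have h3 : ∀ v < 30130, chkVF cert v = true :=
    cover_step h2 (chkRangeF_spec (c := cert) 29900 230 kF_29900) rfl
  have h4 : ∀ v < 30360, chkVF cert v = true :=
    cover_step h3 (chkRangeF_spec (c := cert) 30130 230 kF_30130) rfl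
  have h5 : ∀ v < 30590, chkVF cert v = true :=
    cover_step h4 (chkRangeF_spec (c := cert) 30360 230 kF_30360) rfl
  have h6 : ∀ v < 30820, chkVF cert v = true :=
    cover_step h5 (chkRangeF_spec (c := cert) 30590 230 kF_30590) rfl
  have h7 : ∀ v < 31050, chkVF cert v = true :=
    cover_step h6 (chkRangeF_spec (c := cert) 30820 230 kF_30820) rfl
  have h8 : ∀ v < 31280, chkVF cert v = true :=
    cover_step h7 (chkRangeF_spec (c := cert) 31050 230 kF_31050) rfl
  have h9 : ∀ v < 31510, chkVF cert v = true :=
    cover_step h8 (chkRangeF_spec (c := cert) 31280 230 kF_31280) rfl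
  have h10 : ∀ v < 31740, chkVF cert v = true :=
    cover_step h9 (chkRangeF_spec (c := cert) 31510 230 kF_31510) rfl
  have h11 : ∀ v < 31970, chkVF cert v = true :=
    cover_step h10 (chkRangeF_spec (c := cert) 31740 230 kF_31740) rfl
  have h12 : ∀ v < 32200, chkVF cert v = true :=
    cover_step h11 (chkRangeF_spec (c := cert) 31970 230 kF_31970) rfl
  have h13 : ∀ v < 32430, chkVF cert v = true :=
    cover_step h12 (chkRangeF_spec (c := cert) 32200 230 kF_32200) rfl
  have h14 : ∀ v < 32660, chkVF cert v = true :=
    cover_step h13 (chkRangeF_spec (c := cert) 32430 230 kF_32430) rfl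
  have h15 : ∀ v < 32890, chkVF cert v = true :=
    cover_step h14 (chkRangeF_spec (c := cert) 32660 230 kF_32660) rfl
  have h16 : ∀ v < 33120, chkVF cert v = true :=
    cover_step h15 (chkRangeF_spec (c := cert) 32890 230 kF_32890) rfl
  have h17 : ∀ v < 33350, chkVF cert v = true :=
    cover_step h16 (chkRangeF_spec (c := cert) 33120 230 kF_33120) rfl
  have h18 : ∀ v < 33580, chkVF cert v = true :=
    cover_step h17 (chkRangeF_spec (c := cert) 33350 230 kF_33350) rfl
  have h19 : ∀ v < 33810, chkVF cert v = true :=
    cover_step h18 (chkRangeF_spec (c := cert) 33580 230 kF_33580) rfl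
  have h20 : ∀ v < 34040, chkVF cert v = true :=
    cover_step h19 (chkRangeF_spec (c := cert) 33810 230 kF_33810) rfl
  have h21 : ∀ v < 34270, chkVF cert v = true :=
    cover_step h20 (chkRangeF_spec (c := cert) 34040 230 kF_34040) rfl
  have h22 : ∀ v < 34500, chkVF cert v = true :=
    cover_step h21 (chkRangeF_spec (c := cert) 34270 230 kF_34270) rfl
  have h23 : ∀ v < 34730, chkVF cert v = true :=
    cover_step h22 (chkRangeF_spec (c := cert) 34500 230 kF_34500) rfl
  have h24 : ∀ v < 34960, chkVF cert v = true :=
    cover_step h23 (chkRangeF_spec (c := cert) 34730 230 kF_34730) rfl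
  have h25 : ∀ v < 35190, chkVF cert v = true :=
    cover_step h24 (chkRangeF_spec (c := cert) 34960 230 kF_34960) rfl
  have h26 : ∀ v < 35420, chkVF cert v = true :=
    cover_step h25 (chkRangeF_spec (c := cert) 35190 230 kF_35190) rfl
  have h27 : ∀ v < 35650, chkVF cert v = true :=
    cover_step h26 (chkRangeF_spec (c := cert) 35420 230 kF_35420) rfl
  have h28 : ∀ v < 35880, chkVF cert v = true :=
    cover_step h27 (chkRangeF_spec (c := cert) 35650 230 kF_35650) rfl
  have h29 : ∀ v < 36110, chkVF cert v = true :=
    cover_step h28 (chkRangeF_spec (c := cert) 35880 230 kF_35880) rfl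
  have h30 : ∀ v < 36340, chkVF cert v = true :=
    cover_step h29 (chkRangeF_spec (c := cert) 36110 230 kF_36110) rfl
  have h31 : ∀ v < 36570, chkVF cert v = true :=
    cover_step h30 (chkRangeF_spec (c := cert) 36340 230 kF_36340) rfl
  have h32 : ∀ v < 36800, chkVF cert v = true :=
    cover_step h31 (chkRangeF_spec (c := cert) 36570 230 kF_36570) rfl
  have h33 : ∀ v < 37030, chkVF cert v = true :=
    cover_step h32 (chkRangeF_spec (c := cert) 36800 230 kF_36800) rfl
  have h34 : ∀ v < 37260, chkVF cert v = true :=
    cover_step h33 (chkRangeF_spec (c := cert) 37030 230 kF_37030) rfl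
  have h35 : ∀ v < 37490, chkVF cert v = true :=
    cover_step h34 (chkRangeF_spec (c := cert) 37260 230 kF_37260) rfl
  have h36 : ∀ v < 37720, chkVF cert v = true :=
    cover_step h35 (chkRangeF_spec (c := cert) 37490 230 kF_37490) rfl
  have h37 : ∀ v < 37950, chkVF cert v = true :=
    cover_step h36 (chkRangeF_spec (c := cert) 37720 230 kF_37720) rfl
  have h38 : ∀ v < 38180, chkVF cert v = true :=
    cover_step h37 (chkRangeF_spec (c := cert) 37950 230 kF_37950) rfl
  have h39 : ∀ v < 38410, chkVF cert v = true :=
    cover_step h38 (chkRangeF_spec (c := cert) 38180 230 kF_38180) rfl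
  have h40 : ∀ v < 38640, chkVF cert v = true :=
    cover_step h39 (chkRangeF_spec (c := cert) 38410 230 kF_38410) rfl
  have h41 : ∀ v < 38870, chkVF cert v = true :=
    cover_step h40 (chkRangeF_spec (c := cert) 38640 230 kF_38640) rfl
  have h42 : ∀ v < 39100, chkVF cert v = true :=
    cover_step h41 (chkRangeF_spec (c := cert) 38870 230 kF_38870) rfl
  have h43 : ∀ v < 39330, chkVF cert v = true :=
    cover_step h42 (chkRangeF_spec (c := cert) 39100 230 kF_39100) rfl
  have h44 : ∀ v < 39560, chkVF cert v = true :=
    cover_step h43 (chkRangeF_spec (c := cert) 39330 230 kF_39330) rfl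
  have h45 : ∀ v < 39790, chkVF cert v = true :=
    cover_step h44 (chkRangeF_spec (c := cert) 39560 230 kF_39560) rfl
  have h46 : ∀ v < 40020, chkVF cert v = true :=
    cover_step h45 (chkRangeF_spec (c := cert) 39790 230 kF_39790) rfl
  have h47 : ∀ v < 40250, chkVF cert v = true :=
    cover_step h46 (chkRangeF_spec (c := cert) 40020 230 kF_40020) rfl
  have h48 : ∀ v < 40480, chkVF cert v = true :=
    cover_step h47 (chkRangeF_spec (c := cert) 40250 230 kF_40250) rfl
  have h49 : ∀ v < 40710, chkVF cert v = true :=
    cover_step h48 (chkRangeF_spec (c := cert) 40480 230 kF_40480) rfl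
  have h50 : ∀ v < 40940, chkVF cert v = true :=
    cover_step h49 (chkRangeF_spec (c := cert) 40710 230 kF_40710) rfl
  have h51 : ∀ v < 41170, chkVF cert v = true :=
    cover_step h50 (chkRangeF_spec (c := cert) 40940 230 kF_40940) rfl
  have h52 : ∀ v < 41400, chkVF cert v = true :=
    cover_step h51 (chkRangeF_spec (c := cert) 41170 230 kF_41170) rfl
  have h53 : ∀ v < 41630, chkVF cert v = true :=
    cover_step h52 (chkRangeF_spec (c := cert) 41400 230 kF_41400) rfl
  have h54 : ∀ v < 41860, chkVF cert v = true :=
    cover_step h53 (chkRangeF_spec (c := cert) 41630 230 kF_41630) rfl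
  have h55 : ∀ v < 42090, chkVF cert v = true :=
    cover_step h54 (chkRangeF_spec (c := cert) 41860 230 kF_41860) rfl
  have h56 : ∀ v < 42320, chkVF cert v = true :=
    cover_step h55 (chkRangeF_spec (c := cert) 42090 230 kF_42090) rfl
  have h57 : ∀ v < 42550, chkVF cert v = true :=
    cover_step h56 (chkRangeF_spec (c := cert) 42320 230 kF_42320) rfl
  have h58 : ∀ v < 42780, chkVF cert v = true :=
    cover_step h57 (chkRangeF_spec (c := cert) 42550 230 kF_42550) rfl
  have h59 : ∀ v < 43010, chkVF cert v = true :=
    cover_step h58 (chkRangeF_spec (c := cert) 42780 230 kF_42780) rfl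
  have h60 : ∀ v < 43240, chkVF cert v = true :=
    cover_step h59 (chkRangeF_spec (c := cert) 43010 230 kF_43010) rfl
  have h61 : ∀ v < 43470, chkVF cert v = true :=
    cover_step h60 (chkRangeF_spec (c := cert) 43240 230 kF_43240) rfl
  have h62 : ∀ v < 43700, chkVF cert v = true :=
    cover_step h61 (chkRangeF_spec (c := cert) 43470 230 kF_43470) rfl
  have h63 : ∀ v < 43930, chkVF cert v = true :=
    cover_step h62 (chkRangeF_spec (c := cert) 43700 230 kF_43700) rfl
  have h64 : ∀ v < 44160, chkVF cert v = true :=
    cover_step h63 (chkRangeF_spec (c := cert) 43930 230 kF_43930) rfl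
  exact h64

theorem allF_3 : ∀ v < 58880, chkVF cert v = true := by
  have h0 := allF_2
  have h1 : ∀ v < 44390, chkVF cert v = true :=
    cover_step h0 (chkRangeF_spec (c := cert) 44160 230 kF_44160) rfl
  have h2 : ∀ v < 44620, chkVF cert v = true :=
    cover_step h1 (chkRangeF_spec (c := cert) 44390 230 kF_44390) rfl
  have h3 : ∀ v < 44850, chkVF cert v = true :=
    cover_step h2 (chkRangeF_spec (c := cert) 44620 230 kF_44620) rfl
  have h4 : ∀ v < 45080, chkVF cert v = true :=
    cover_step h3 (chkRangeF_spec (c := cert) 44850 230 kF_44850) rfl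
  have h5 : ∀ v < 45310, chkVF cert v = true :=
    cover_step h4 (chkRangeF_spec (c := cert) 45080 230 kF_45080) rfl
  have h6 : ∀ v < 45540, chkVF cert v = true :=
    cover_step h5 (chkRangeF_spec (c := cert) 45310 230 kF_45310) rfl
  have h7 : ∀ v < 45770, chkVF cert v = true :=
    cover_step h6 (chkRangeF_spec (c := cert) 45540 230 kF_45540) rfl
  have h8 : ∀ v < 46000, chkVF cert v = true :=
    cover_step h7 (chkRangeF_spec (c := cert) 45770 230 kF_45770) rfl
  have h9 : ∀ v < 46230, chkVF cert v = true :=
    cover_step h8 (chkRangeF_spec (c := cert) 46000 230 kF_46000) rfl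
  have h10 : ∀ v < 46460, chkVF cert v = true :=
    cover_step h9 (chkRangeF_spec (c := cert) 46230 230 kF_46230) rfl
  have h11 : ∀ v < 46690, chkVF cert v = true :=
    cover_step h10 (chkRangeF_spec (c := cert) 46460 230 kF_46460) rfl
  have h12 : ∀ v < 46920, chkVF cert v = true :=
    cover_step h11 (chkRangeF_spec (c := cert) 46690 230 kF_46690) rfl
  have h13 : ∀ v < 47150, chkVF cert v = true :=
    cover_step h12 (chkRangeF_spec (c := cert) 46920 230 kF_46920) rfl
  have h14 : ∀ v < 47380, chkVF cert v = true :=
    cover_step h13 (chkRangeF_spec (c := cert) 47150 230 kF_47150) rfl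
  have h15 : ∀ v < 47610, chkVF cert v = true :=
    cover_step h14 (chkRangeF_spec (c := cert) 47380 230 kF_47380) rfl
  have h16 : ∀ v < 47840, chkVF cert v = true :=
    cover_step h15 (chkRangeF_spec (c := cert) 47610 230 kF_47610) rfl
  have h17 : ∀ v < 48070, chkVF cert v = true :=
    cover_step h16 (chkRangeF_spec (c := cert) 47840 230 kF_47840) rfl
  have h18 : ∀ v < 48300, chkVF cert v = true :=
    cover_step h17 (chkRangeF_spec (c := cert) 48070 230 kF_48070) rfl
  have h19 : ∀ v < 48530, chkVF cert v = true :=
    cover_step h18 (chkRangeF_spec (c := cert) 48300 230 kF_48300) rfl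
  have h20 : ∀ v < 48760, chkVF cert v = true :=
    cover_step h19 (chkRangeF_spec (c := cert) 48530 230 kF_48530) rfl
  have h21 : ∀ v < 48990, chkVF cert v = true :=
    cover_step h20 (chkRangeF_spec (c := cert) 48760 230 kF_48760) rfl
  have h22 : ∀ v < 49220, chkVF cert v = true :=
    cover_step h21 (chkRangeF_spec (c := cert) 48990 230 kF_48990) rfl
  have h23 : ∀ v < 49450, chkVF cert v = true :=
    cover_step h22 (chkRangeF_spec (c := cert) 49220 230 kF_49220) rfl
  have h24 : ∀ v < 49680, chkVF cert v = true :=
    cover_step h23 (chkRangeF_spec (c := cert) 49450 230 kF_49450) rfl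
  have h25 : ∀ v < 49910, chkVF cert v = true :=
    cover_step h24 (chkRangeF_spec (c := cert) 49680 230 kF_49680) rfl
  have h26 : ∀ v < 50140, chkVF cert v = true :=
    cover_step h25 (chkRangeF_spec (c := cert) 49910 230 kF_49910) rfl
  have h27 : ∀ v < 50370, chkVF cert v = true :=
    cover_step h26 (chkRangeF_spec (c := cert) 50140 230 kF_50140) rfl
  have h28 : ∀ v < 50600, chkVF cert v = true :=
    cover_step h27 (chkRangeF_spec (c := cert) 50370 230 kF_50370) rfl
  have h29 : ∀ v < 50830, chkVF cert v = true :=
    cover_step h28 (chkRangeF_spec (c := cert) 50600 230 kF_50600) rfl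
  have h30 : ∀ v < 51060, chkVF cert v = true :=
    cover_step h29 (chkRangeF_spec (c := cert) 50830 230 kF_50830) rfl
  have h31 : ∀ v < 51290, chkVF cert v = true :=
    cover_step h30 (chkRangeF_spec (c := cert) 51060 230 kF_51060) rfl
  have h32 : ∀ v < 51520, chkVF cert v = true :=
    cover_step h31 (chkRangeF_spec (c := cert) 51290 230 kF_51290) rfl
  have h33 : ∀ v < 51750, chkVF cert v = true :=
    cover_step h32 (chkRangeF_spec (c := cert) 51520 230 kF_51520) rfl
  have h34 : ∀ v < 51980, chkVF cert v = true :=
    cover_step h33 (chkRangeF_spec (c := cert) 51750 230 kF_51750) rfl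
  have h35 : ∀ v < 52210, chkVF cert v = true :=
    cover_step h34 (chkRangeF_spec (c := cert) 51980 230 kF_51980) rfl
  have h36 : ∀ v < 52440, chkVF cert v = true :=
    cover_step h35 (chkRangeF_spec (c := cert) 52210 230 kF_52210) rfl
  have h37 : ∀ v < 52670, chkVF cert v = true :=
    cover_step h36 (chkRangeF_spec (c := cert) 52440 230 kF_52440) rfl
  have h38 : ∀ v < 52900, chkVF cert v = true :=
    cover_step h37 (chkRangeF_spec (c := cert) 52670 230 kF_52670) rfl
  have h39 : ∀ v < 53130, chkVF cert v = true :=
    cover_step h38 (chkRangeF_spec (c := cert) 52900 230 kF_52900) rfl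
  have h40 : ∀ v < 53360, chkVF cert v = true :=
    cover_step h39 (chkRangeF_spec (c := cert) 53130 230 kF_53130) rfl
  have h41 : ∀ v < 53590, chkVF cert v = true :=
    cover_step h40 (chkRangeF_spec (c := cert) 53360 230 kF_53360) rfl
  have h42 : ∀ v < 53820, chkVF cert v = true :=
    cover_step h41 (chkRangeF_spec (c := cert) 53590 230 kF_53590) rfl
  have h43 : ∀ v < 54050, chkVF cert v = true :=
    cover_step h42 (chkRangeF_spec (c := cert) 53820 230 kF_53820) rfl
  have h44 : ∀ v < 54280, chkVF cert v = true :=
    cover_step h43 (chkRangeF_spec (c := cert) 54050 230 kF_54050) rfl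
  have h45 : ∀ v < 54510, chkVF cert v = true :=
    cover_step h44 (chkRangeF_spec (c := cert) 54280 230 kF_54280) rfl
  have h46 : ∀ v < 54740, chkVF cert v = true :=
    cover_step h45 (chkRangeF_spec (c := cert) 54510 230 kF_54510) rfl
  have h47 : ∀ v < 54970, chkVF cert v = true :=
    cover_step h46 (chkRangeF_spec (c := cert) 54740 230 kF_54740) rfl
  have h48 : ∀ v < 55200, chkVF cert v = true :=
    cover_step h47 (chkRangeF_spec (c := cert) 54970 230 kF_54970) rfl
  have h49 : ∀ v < 55430, chkVF cert v = true :=
    cover_step h48 (chkRangeF_spec (c := cert) 55200 230 kF_55200) rfl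
  have h50 : ∀ v < 55660, chkVF cert v = true :=
    cover_step h49 (chkRangeF_spec (c := cert) 55430 230 kF_55430) rfl
  have h51 : ∀ v < 55890, chkVF cert v = true :=
    cover_step h50 (chkRangeF_spec (c := cert) 55660 230 kF_55660) rfl
  have h52 : ∀ v < 56120, chkVF cert v = true :=
    cover_step h51 (chkRangeF_spec (c := cert) 55890 230 kF_55890) rfl
  have h53 : ∀ v < 56350, chkVF cert v = true :=
    cover_step h52 (chkRangeF_spec (c := cert) 56120 230 kF_56120) rfl
  have h54 : ∀ v < 56580, chkVF cert v = true :=
    cover_step h53 (chkRangeF_spec (c := cert) 56350 230 kF_56350) rfl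
  have h55 : ∀ v < 56810, chkVF cert v = true :=
    cover_step h54 (chkRangeF_spec (c := cert) 56580 230 kF_56580) rfl
  have h56 : ∀ v < 57040, chkVF cert v = true :=
    cover_step h55 (chkRangeF_spec (c := cert) 56810 230 kF_56810) rfl
  have h57 : ∀ v < 57270, chkVF cert v = true :=
    cover_step h56 (chkRangeF_spec (c := cert) 57040 230 kF_57040) rfl
  have h58 : ∀ v < 57500, chkVF cert v = true :=
    cover_step h57 (chkRangeF_spec (c := cert) 57270 230 kF_57270) rfl
  have h59 : ∀ v < 57730, chkVF cert v = true :=
    cover_step h58 (chkRangeF_spec (c := cert) 57500 230 kF_57500) rfl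
  have h60 : ∀ v < 57960, chkVF cert v = true :=
    cover_step h59 (chkRangeF_spec (c := cert) 57730 230 kF_57730) rfl
  have h61 : ∀ v < 58190, chkVF cert v = true :=
    cover_step h60 (chkRangeF_spec (c := cert) 57960 230 kF_57960) rfl
  have h62 : ∀ v < 58420, chkVF cert v = true :=
    cover_step h61 (chkRangeF_spec (c := cert) 58190 230 kF_58190) rfl
  have h63 : ∀ v < 58650, chkVF cert v = true :=
    cover_step h62 (chkRangeF_spec (c := cert) 58420 230 kF_58420) rfl
  have h64 : ∀ v < 58880, chkVF cert v = true :=
    cover_step h63 (chkRangeF_spec (c := cert) 58650 230 kF_58650) rfl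
  exact h64

theorem allF_4 : ∀ v < 73600, chkVF cert v = true := by
  have h0 := allF_3
  have h1 : ∀ v < 59110, chkVF cert v = true :=
    cover_step h0 (chkRangeF_spec (c := cert) 58880 230 kF_58880) rfl
  have h2 : ∀ v < 59340, chkVF cert v = true :=
    cover_step h1 (chkRangeF_spec (c := cert) 59110 230 kF_59110) rfl
  have h3 : ∀ v < 59570, chkVF cert v = true :=
    cover_step h2 (chkRangeF_spec (c := cert) 59340 230 kF_59340) rfl
  have h4 : ∀ v < 59800, chkVF cert v = true :=
    cover_step h3 (chkRangeF_spec (c := cert) 59570 230 kF_59570) rfl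
  have h5 : ∀ v < 60030, chkVF cert v = true :=
    cover_step h4 (chkRangeF_spec (c := cert) 59800 230 kF_59800) rfl
  have h6 : ∀ v < 60260, chkVF cert v = true :=
    cover_step h5 (chkRangeF_spec (c := cert) 60030 230 kF_60030) rfl
  have h7 : ∀ v < 60490, chkVF cert v = true :=
    cover_step h6 (chkRangeF_spec (c := cert) 60260 230 kF_60260) rfl
  have h8 : ∀ v < 60720, chkVF cert v = true :=
    cover_step h7 (chkRangeF_spec (c := cert) 60490 230 kF_60490) rfl
  have h9 : ∀ v < 60950, chkVF cert v = true :=
    cover_step h8 (chkRangeF_spec (c := cert) 60720 230 kF_60720) rfl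
  have h10 : ∀ v < 61180, chkVF cert v = true :=
    cover_step h9 (chkRangeF_spec (c := cert) 60950 230 kF_60950) rfl
  have h11 : ∀ v < 61410, chkVF cert v = true :=
    cover_step h10 (chkRangeF_spec (c := cert) 61180 230 kF_61180) rfl
  have h12 : ∀ v < 61640, chkVF cert v = true :=
    cover_step h11 (chkRangeF_spec (c := cert) 61410 230 kF_61410) rfl
  have h13 : ∀ v < 61870, chkVF cert v = true :=
    cover_step h12 (chkRangeF_spec (c := cert) 61640 230 kF_61640) rfl
  have h14 : ∀ v < 62100, chkVF cert v = true :=
    cover_step h13 (chkRangeF_spec (c := cert) 61870 230 kF_61870) rfl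
  have h15 : ∀ v < 62330, chkVF cert v = true :=
    cover_step h14 (chkRangeF_spec (c := cert) 62100 230 kF_62100) rfl
  have h16 : ∀ v < 62560, chkVF cert v = true :=
    cover_step h15 (chkRangeF_spec (c := cert) 62330 230 kF_62330) rfl
  have h17 : ∀ v < 62790, chkVF cert v = true :=
    cover_step h16 (chkRangeF_spec (c := cert) 62560 230 kF_62560) rfl
  have h18 : ∀ v < 63020, chkVF cert v = true :=
    cover_step h17 (chkRangeF_spec (c := cert) 62790 230 kF_62790) rfl
  have h19 : ∀ v < 63250, chkVF cert v = true :=
    cover_step h18 (chkRangeF_spec (c := cert) 63020 230 kF_63020) rfl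
  have h20 : ∀ v < 63480, chkVF cert v = true :=
    cover_step h19 (chkRangeF_spec (c := cert) 63250 230 kF_63250) rfl
  have h21 : ∀ v < 63710, chkVF cert v = true :=
    cover_step h20 (chkRangeF_spec (c := cert) 63480 230 kF_63480) rfl
  have h22 : ∀ v < 63940, chkVF cert v = true :=
    cover_step h21 (chkRangeF_spec (c := cert) 63710 230 kF_63710) rfl
  have h23 : ∀ v < 64170, chkVF cert v = true :=
    cover_step h22 (chkRangeF_spec (c := cert) 63940 230 kF_63940) rfl
  have h24 : ∀ v < 64400, chkVF cert v = true :=
    cover_step h23 (chkRangeF_spec (c := cert) 64170 230 kF_64170) rfl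
  have h25 : ∀ v < 64630, chkVF cert v = true :=
    cover_step h24 (chkRangeF_spec (c := cert) 64400 230 kF_64400) rfl
  have h26 : ∀ v < 64860, chkVF cert v = true :=
    cover_step h25 (chkRangeF_spec (c := cert) 64630 230 kF_64630) rfl
  have h27 : ∀ v < 65090, chkVF cert v = true :=
    cover_step h26 (chkRangeF_spec (c := cert) 64860 230 kF_64860) rfl
  have h28 : ∀ v < 65320, chkVF cert v = true :=
    cover_step h27 (chkRangeF_spec (c := cert) 65090 230 kF_65090) rfl
  have h29 : ∀ v < 65550, chkVF cert v = true :=
    cover_step h28 (chkRangeF_spec (c := cert) 65320 230 kF_65320) rfl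
  have h30 : ∀ v < 65780, chkVF cert v = true :=
    cover_step h29 (chkRangeF_spec (c := cert) 65550 230 kF_65550) rfl
  have h31 : ∀ v < 66010, chkVF cert v = true :=
    cover_step h30 (chkRangeF_spec (c := cert) 65780 230 kF_65780) rfl
  have h32 : ∀ v < 66240, chkVF cert v = true :=
    cover_step h31 (chkRangeF_spec (c := cert) 66010 230 kF_66010) rfl
  have h33 : ∀ v < 66470, chkVF cert v = true :=
    cover_step h32 (chkRangeF_spec (c := cert) 66240 230 kF_66240) rfl
  have h34 : ∀ v < 66700, chkVF cert v = true :=
    cover_step h33 (chkRangeF_spec (c := cert) 66470 230 kF_66470) rfl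
  have h35 : ∀ v < 66930, chkVF cert v = true :=
    cover_step h34 (chkRangeF_spec (c := cert) 66700 230 kF_66700) rfl
  have h36 : ∀ v < 67160, chkVF cert v = true :=
    cover_step h35 (chkRangeF_spec (c := cert) 66930 230 kF_66930) rfl
  have h37 : ∀ v < 67390, chkVF cert v = true :=
    cover_step h36 (chkRangeF_spec (c := cert) 67160 230 kF_67160) rfl
  have h38 : ∀ v < 67620, chkVF cert v = true :=
    cover_step h37 (chkRangeF_spec (c := cert) 67390 230 kF_67390) rfl
  have h39 : ∀ v < 67850, chkVF cert v = true :=
    cover_step h38 (chkRangeF_spec (c := cert) 67620 230 kF_67620) rfl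
  have h40 : ∀ v < 68080, chkVF cert v = true :=
    cover_step h39 (chkRangeF_spec (c := cert) 67850 230 kF_67850) rfl
  have h41 : ∀ v < 68310, chkVF cert v = true :=
    cover_step h40 (chkRangeF_spec (c := cert) 68080 230 kF_68080) rfl
  have h42 : ∀ v < 68540, chkVF cert v = true :=
    cover_step h41 (chkRangeF_spec (c := cert) 68310 230 kF_68310) rfl
  have h43 : ∀ v < 68770, chkVF cert v = true :=
    cover_step h42 (chkRangeF_spec (c := cert) 68540 230 kF_68540) rfl
  have h44 : ∀ v < 69000, chkVF cert v = true :=
    cover_step h43 (chkRangeF_spec (c := cert) 68770 230 kF_68770) rfl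
  have h45 : ∀ v < 69230, chkVF cert v = true :=
    cover_step h44 (chkRangeF_spec (c := cert) 69000 230 kF_69000) rfl
  have h46 : ∀ v < 69460, chkVF cert v = true :=
    cover_step h45 (chkRangeF_spec (c := cert) 69230 230 kF_69230) rfl
  have h47 : ∀ v < 69690, chkVF cert v = true :=
    cover_step h46 (chkRangeF_spec (c := cert) 69460 230 kF_69460) rfl
  have h48 : ∀ v < 69920, chkVF cert v = true :=
    cover_step h47 (chkRangeF_spec (c := cert) 69690 230 kF_69690) rfl
  have h49 : ∀ v < 70150, chkVF cert v = true :=
    cover_step h48 (chkRangeF_spec (c := cert) 69920 230 kF_69920) rfl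
  have h50 : ∀ v < 70380, chkVF cert v = true :=
    cover_step h49 (chkRangeF_spec (c := cert) 70150 230 kF_70150) rfl
  have h51 : ∀ v < 70610, chkVF cert v = true :=
    cover_step h50 (chkRangeF_spec (c := cert) 70380 230 kF_70380) rfl
  have h52 : ∀ v < 70840, chkVF cert v = true :=
    cover_step h51 (chkRangeF_spec (c := cert) 70610 230 kF_70610) rfl
  have h53 : ∀ v < 71070, chkVF cert v = true :=
    cover_step h52 (chkRangeF_spec (c := cert) 70840 230 kF_70840) rfl
  have h54 : ∀ v < 71300, chkVF cert v = true :=
    cover_step h53 (chkRangeF_spec (c := cert) 71070 230 kF_71070) rfl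
  have h55 : ∀ v < 71530, chkVF cert v = true :=
    cover_step h54 (chkRangeF_spec (c := cert) 71300 230 kF_71300) rfl
  have h56 : ∀ v < 71760, chkVF cert v = true :=
    cover_step h55 (chkRangeF_spec (c := cert) 71530 230 kF_71530) rfl
  have h57 : ∀ v < 71990, chkVF cert v = true :=
    cover_step h56 (chkRangeF_spec (c := cert) 71760 230 kF_71760) rfl
  have h58 : ∀ v < 72220, chkVF cert v = true :=
    cover_step h57 (chkRangeF_spec (c := cert) 71990 230 kF_71990) rfl
  have h59 : ∀ v < 72450, chkVF cert v = true :=
    cover_step h58 (chkRangeF_spec (c := cert) 72220 230 kF_72220) rfl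
  have h60 : ∀ v < 72680, chkVF cert v = true :=
    cover_step h59 (chkRangeF_spec (c := cert) 72450 230 kF_72450) rfl
  have h61 : ∀ v < 72910, chkVF cert v = true :=
    cover_step h60 (chkRangeF_spec (c := cert) 72680 230 kF_72680) rfl
  have h62 : ∀ v < 73140, chkVF cert v = true :=
    cover_step h61 (chkRangeF_spec (c := cert) 72910 230 kF_72910) rfl
  have h63 : ∀ v < 73370, chkVF cert v = true :=
    cover_step h62 (chkRangeF_spec (c := cert) 73140 230 kF_73140) rfl
  have h64 : ∀ v < 73600, chkVF cert v = true :=
    cover_step h63 (chkRangeF_spec (c := cert) 73370 230 kF_73370) rfl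
  exact h64

theorem allF_5 : ∀ v < 88320, chkVF cert v = true := by
  have h0 := allF_4
  have h1 : ∀ v < 73830, chkVF cert v = true :=
    cover_step h0 (chkRangeF_spec (c := cert) 73600 230 kF_73600) rfl
  have h2 : ∀ v < 74060, chkVF cert v = true :=
    cover_step h1 (chkRangeF_spec (c := cert) 73830 230 kF_73830) rfl
  have h3 : ∀ v < 74290, chkVF cert v = true :=
    cover_step h2 (chkRangeF_spec (c := cert) 74060 230 kF_74060) rfl
  have h4 : ∀ v < 74520, chkVF cert v = true :=
    cover_step h3 (chkRangeF_spec (c := cert) 74290 230 kF_74290) rfl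
  have h5 : ∀ v < 74750, chkVF cert v = true :=
    cover_step h4 (chkRangeF_spec (c := cert) 74520 230 kF_74520) rfl
  have h6 : ∀ v < 74980, chkVF cert v = true :=
    cover_step h5 (chkRangeF_spec (c := cert) 74750 230 kF_74750) rfl
  have h7 : ∀ v < 75210, chkVF cert v = true :=
    cover_step h6 (chkRangeF_spec (c := cert) 74980 230 kF_74980) rfl
  have h8 : ∀ v < 75440, chkVF cert v = true :=
    cover_step h7 (chkRangeF_spec (c := cert) 75210 230 kF_75210) rfl
  have h9 : ∀ v < 75670, chkVF cert v = true :=
    cover_step h8 (chkRangeF_spec (c := cert) 75440 230 kF_75440) rfl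
  have h10 : ∀ v < 75900, chkVF cert v = true :=
    cover_step h9 (chkRangeF_spec (c := cert) 75670 230 kF_75670) rfl
  have h11 : ∀ v < 76130, chkVF cert v = true :=
    cover_step h10 (chkRangeF_spec (c := cert) 75900 230 kF_75900) rfl
  have h12 : ∀ v < 76360, chkVF cert v = true :=
    cover_step h11 (chkRangeF_spec (c := cert) 76130 230 kF_76130) rfl
  have h13 : ∀ v < 76590, chkVF cert v = true :=
    cover_step h12 (chkRangeF_spec (c := cert) 76360 230 kF_76360) rfl
  have h14 : ∀ v < 76820, chkVF cert v = true :=
    cover_step h13 (chkRangeF_spec (c := cert) 76590 230 kF_76590) rfl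
  have h15 : ∀ v < 77050, chkVF cert v = true :=
    cover_step h14 (chkRangeF_spec (c := cert) 76820 230 kF_76820) rfl
  have h16 : ∀ v < 77280, chkVF cert v = true :=
    cover_step h15 (chkRangeF_spec (c := cert) 77050 230 kF_77050) rfl
  have h17 : ∀ v < 77510, chkVF cert v = true :=
    cover_step h16 (chkRangeF_spec (c := cert) 77280 230 kF_77280) rfl
  have h18 : ∀ v < 77740, chkVF cert v = true :=
    cover_step h17 (chkRangeF_spec (c := cert) 77510 230 kF_77510) rfl
  have h19 : ∀ v < 77970, chkVF cert v = true :=
    cover_step h18 (chkRangeF_spec (c := cert) 77740 230 kF_77740) rfl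
  have h20 : ∀ v < 78200, chkVF cert v = true :=
    cover_step h19 (chkRangeF_spec (c := cert) 77970 230 kF_77970) rfl
  have h21 : ∀ v < 78430, chkVF cert v = true :=
    cover_step h20 (chkRangeF_spec (c := cert) 78200 230 kF_78200) rfl
  have h22 : ∀ v < 78660, chkVF cert v = true :=
    cover_step h21 (chkRangeF_spec (c := cert) 78430 230 kF_78430) rfl
  have h23 : ∀ v < 78890, chkVF cert v = true :=
    cover_step h22 (chkRangeF_spec (c := cert) 78660 230 kF_78660) rfl
  have h24 : ∀ v < 79120, chkVF cert v = true :=
    cover_step h23 (chkRangeF_spec (c := cert) 78890 230 kF_78890) rfl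
  have h25 : ∀ v < 79350, chkVF cert v = true :=
    cover_step h24 (chkRangeF_spec (c := cert) 79120 230 kF_79120) rfl
  have h26 : ∀ v < 79580, chkVF cert v = true :=
    cover_step h25 (chkRangeF_spec (c := cert) 79350 230 kF_79350) rfl
  have h27 : ∀ v < 79810, chkVF cert v = true :=
    cover_step h26 (chkRangeF_spec (c := cert) 79580 230 kF_79580) rfl
  have h28 : ∀ v < 80040, chkVF cert v = true :=
    cover_step h27 (chkRangeF_spec (c := cert) 79810 230 kF_79810) rfl
  have h29 : ∀ v < 80270, chkVF cert v = true :=
    cover_step h28 (chkRangeF_spec (c := cert) 80040 230 kF_80040) rfl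
  have h30 : ∀ v < 80500, chkVF cert v = true :=
    cover_step h29 (chkRangeF_spec (c := cert) 80270 230 kF_80270) rfl
  have h31 : ∀ v < 80730, chkVF cert v = true :=
    cover_step h30 (chkRangeF_spec (c := cert) 80500 230 kF_80500) rfl
  have h32 : ∀ v < 80960, chkVF cert v = true :=
    cover_step h31 (chkRangeF_spec (c := cert) 80730 230 kF_80730) rfl
  have h33 : ∀ v < 81190, chkVF cert v = true :=
    cover_step h32 (chkRangeF_spec (c := cert) 80960 230 kF_80960) rfl
  have h34 : ∀ v < 81420, chkVF cert v = true :=
    cover_step h33 (chkRangeF_spec (c := cert) 81190 230 kF_81190) rfl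
  have h35 : ∀ v < 81650, chkVF cert v = true :=
    cover_step h34 (chkRangeF_spec (c := cert) 81420 230 kF_81420) rfl
  have h36 : ∀ v < 81880, chkVF cert v = true :=
    cover_step h35 (chkRangeF_spec (c := cert) 81650 230 kF_81650) rfl
  have h37 : ∀ v < 82110, chkVF cert v = true :=
    cover_step h36 (chkRangeF_spec (c := cert) 81880 230 kF_81880) rfl
  have h38 : ∀ v < 82340, chkVF cert v = true :=
    cover_step h37 (chkRangeF_spec (c := cert) 82110 230 kF_82110) rfl
  have h39 : ∀ v < 82570, chkVF cert v = true :=
    cover_step h38 (chkRangeF_spec (c := cert) 82340 230 kF_82340) rfl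
  have h40 : ∀ v < 82800, chkVF cert v = true :=
    cover_step h39 (chkRangeF_spec (c := cert) 82570 230 kF_82570) rfl
  have h41 : ∀ v < 83030, chkVF cert v = true :=
    cover_step h40 (chkRangeF_spec (c := cert) 82800 230 kF_82800) rfl
  have h42 : ∀ v < 83260, chkVF cert v = true :=
    cover_step h41 (chkRangeF_spec (c := cert) 83030 230 kF_83030) rfl
  have h43 : ∀ v < 83490, chkVF cert v = true :=
    cover_step h42 (chkRangeF_spec (c := cert) 83260 230 kF_83260) rfl
  have h44 : ∀ v < 83720, chkVF cert v = true :=
    cover_step h43 (chkRangeF_spec (c := cert) 83490 230 kF_83490) rfl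
  have h45 : ∀ v < 83950, chkVF cert v = true :=
    cover_step h44 (chkRangeF_spec (c := cert) 83720 230 kF_83720) rfl
  have h46 : ∀ v < 84180, chkVF cert v = true :=
    cover_step h45 (chkRangeF_spec (c := cert) 83950 230 kF_83950) rfl
  have h47 : ∀ v < 84410, chkVF cert v = true :=
    cover_step h46 (chkRangeF_spec (c := cert) 84180 230 kF_84180) rfl
  have h48 : ∀ v < 84640, chkVF cert v = true :=
    cover_step h47 (chkRangeF_spec (c := cert) 84410 230 kF_84410) rfl
  have h49 : ∀ v < 84870, chkVF cert v = true :=
    cover_step h48 (chkRangeF_spec (c := cert) 84640 230 kF_84640) rfl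
  have h50 : ∀ v < 85100, chkVF cert v = true :=
    cover_step h49 (chkRangeF_spec (c := cert) 84870 230 kF_84870) rfl
  have h51 : ∀ v < 85330, chkVF cert v = true :=
    cover_step h50 (chkRangeF_spec (c := cert) 85100 230 kF_85100) rfl
  have h52 : ∀ v < 85560, chkVF cert v = true :=
    cover_step h51 (chkRangeF_spec (c := cert) 85330 230 kF_85330) rfl
  have h53 : ∀ v < 85790, chkVF cert v = true :=
    cover_step h52 (chkRangeF_spec (c := cert) 85560 230 kF_85560) rfl
  have h54 : ∀ v < 86020, chkVF cert v = true :=
    cover_step h53 (chkRangeF_spec (c := cert) 85790 230 kF_85790) rfl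
  have h55 : ∀ v < 86250, chkVF cert v = true :=
    cover_step h54 (chkRangeF_spec (c := cert) 86020 230 kF_86020) rfl
  have h56 : ∀ v < 86480, chkVF cert v = true :=
    cover_step h55 (chkRangeF_spec (c := cert) 86250 230 kF_86250) rfl
  have h57 : ∀ v < 86710, chkVF cert v = true :=
    cover_step h56 (chkRangeF_spec (c := cert) 86480 230 kF_86480) rfl
  have h58 : ∀ v < 86940, chkVF cert v = true :=
    cover_step h57 (chkRangeF_spec (c := cert) 86710 230 kF_86710) rfl
  have h59 : ∀ v < 87170, chkVF cert v = true :=
    cover_step h58 (chkRangeF_spec (c := cert) 86940 230 kF_86940) rfl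
  have h60 : ∀ v < 87400, chkVF cert v = true :=
    cover_step h59 (chkRangeF_spec (c := cert) 87170 230 kF_87170) rfl
  have h61 : ∀ v < 87630, chkVF cert v = true :=
    cover_step h60 (chkRangeF_spec (c := cert) 87400 230 kF_87400) rfl
  have h62 : ∀ v < 87860, chkVF cert v = true :=
    cover_step h61 (chkRangeF_spec (c := cert) 87630 230 kF_87630) rfl
  have h63 : ∀ v < 88090, chkVF cert v = true :=
    cover_step h62 (chkRangeF_spec (c := cert) 87860 230 kF_87860) rfl
  have h64 : ∀ v < 88320, chkVF cert v = true :=
    cover_step h63 (chkRangeF_spec (c := cert) 88090 230 kF_88090) rfl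
  exact h64

theorem allF_6 : ∀ v < 103040, chkVF cert v = true := by
  have h0 := allF_5
  have h1 : ∀ v < 88550, chkVF cert v = true :=
    cover_step h0 (chkRangeF_spec (c := cert) 88320 230 kF_88320) rfl
  have h2 : ∀ v < 88780, chkVF cert v = true :=
    cover_step h1 (chkRangeF_spec (c := cert) 88550 230 kF_88550) rfl
  have h3 : ∀ v < 89010, chkVF cert v = true :=
    cover_step h2 (chkRangeF_spec (c := cert) 88780 230 kF_88780) rfl
  have h4 : ∀ v < 89240, chkVF cert v = true :=
    cover_step h3 (chkRangeF_spec (c := cert) 89010 230 kF_89010) rfl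
  have h5 : ∀ v < 89470, chkVF cert v = true :=
    cover_step h4 (chkRangeF_spec (c := cert) 89240 230 kF_89240) rfl
  have h6 : ∀ v < 89700, chkVF cert v = true :=
    cover_step h5 (chkRangeF_spec (c := cert) 89470 230 kF_89470) rfl
  have h7 : ∀ v < 89930, chkVF cert v = true :=
    cover_step h6 (chkRangeF_spec (c := cert) 89700 230 kF_89700) rfl
  have h8 : ∀ v < 90160, chkVF cert v = true :=
    cover_step h7 (chkRangeF_spec (c := cert) 89930 230 kF_89930) rfl
  have h9 : ∀ v < 90390, chkVF cert v = true :=
    cover_step h8 (chkRangeF_spec (c := cert) 90160 230 kF_90160) rfl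
  have h10 : ∀ v < 90620, chkVF cert v = true :=
    cover_step h9 (chkRangeF_spec (c := cert) 90390 230 kF_90390) rfl
  have h11 : ∀ v < 90850, chkVF cert v = true :=
    cover_step h10 (chkRangeF_spec (c := cert) 90620 230 kF_90620) rfl
  have h12 : ∀ v < 91080, chkVF cert v = true :=
    cover_step h11 (chkRangeF_spec (c := cert) 90850 230 kF_90850) rfl
  have h13 : ∀ v < 91310, chkVF cert v = true :=
    cover_step h12 (chkRangeF_spec (c := cert) 91080 230 kF_91080) rfl
  have h14 : ∀ v < 91540, chkVF cert v = true :=
    cover_step h13 (chkRangeF_spec (c := cert) 91310 230 kF_91310) rfl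
  have h15 : ∀ v < 91770, chkVF cert v = true :=
    cover_step h14 (chkRangeF_spec (c := cert) 91540 230 kF_91540) rfl
  have h16 : ∀ v < 92000, chkVF cert v = true :=
    cover_step h15 (chkRangeF_spec (c := cert) 91770 230 kF_91770) rfl
  have h17 : ∀ v < 92230, chkVF cert v = true :=
    cover_step h16 (chkRangeF_spec (c := cert) 92000 230 kF_92000) rfl
  have h18 : ∀ v < 92460, chkVF cert v = true :=
    cover_step h17 (chkRangeF_spec (c := cert) 92230 230 kF_92230) rfl
  have h19 : ∀ v < 92690, chkVF cert v = true :=
    cover_step h18 (chkRangeF_spec (c := cert) 92460 230 kF_92460) rfl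
  have h20 : ∀ v < 92920, chkVF cert v = true :=
    cover_step h19 (chkRangeF_spec (c := cert) 92690 230 kF_92690) rfl
  have h21 : ∀ v < 93150, chkVF cert v = true :=
    cover_step h20 (chkRangeF_spec (c := cert) 92920 230 kF_92920) rfl
  have h22 : ∀ v < 93380, chkVF cert v = true :=
    cover_step h21 (chkRangeF_spec (c := cert) 93150 230 kF_93150) rfl
  have h23 : ∀ v < 93610, chkVF cert v = true :=
    cover_step h22 (chkRangeF_spec (c := cert) 93380 230 kF_93380) rfl
  have h24 : ∀ v < 93840, chkVF cert v = true :=
    cover_step h23 (chkRangeF_spec (c := cert) 93610 230 kF_93610) rfl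
  have h25 : ∀ v < 94070, chkVF cert v = true :=
    cover_step h24 (chkRangeF_spec (c := cert) 93840 230 kF_93840) rfl
  have h26 : ∀ v < 94300, chkVF cert v = true :=
    cover_step h25 (chkRangeF_spec (c := cert) 94070 230 kF_94070) rfl
  have h27 : ∀ v < 94530, chkVF cert v = true :=
    cover_step h26 (chkRangeF_spec (c := cert) 94300 230 kF_94300) rfl
  have h28 : ∀ v < 94760, chkVF cert v = true :=
    cover_step h27 (chkRangeF_spec (c := cert) 94530 230 kF_94530) rfl
  have h29 : ∀ v < 94990, chkVF cert v = true :=
    cover_step h28 (chkRangeF_spec (c := cert) 94760 230 kF_94760) rfl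
  have h30 : ∀ v < 95220, chkVF cert v = true :=
    cover_step h29 (chkRangeF_spec (c := cert) 94990 230 kF_94990) rfl
  have h31 : ∀ v < 95450, chkVF cert v = true :=
    cover_step h30 (chkRangeF_spec (c := cert) 95220 230 kF_95220) rfl
  have h32 : ∀ v < 95680, chkVF cert v = true :=
    cover_step h31 (chkRangeF_spec (c := cert) 95450 230 kF_95450) rfl
  have h33 : ∀ v < 95910, chkVF cert v = true :=
    cover_step h32 (chkRangeF_spec (c := cert) 95680 230 kF_95680) rfl
  have h34 : ∀ v < 96140, chkVF cert v = true :=
    cover_step h33 (chkRangeF_spec (c := cert) 95910 230 kF_95910) rfl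
  have h35 : ∀ v < 96370, chkVF cert v = true :=
    cover_step h34 (chkRangeF_spec (c := cert) 96140 230 kF_96140) rfl
  have h36 : ∀ v < 96600, chkVF cert v = true :=
    cover_step h35 (chkRangeF_spec (c := cert) 96370 230 kF_96370) rfl
  have h37 : ∀ v < 96830, chkVF cert v = true :=
    cover_step h36 (chkRangeF_spec (c := cert) 96600 230 kF_96600) rfl
  have h38 : ∀ v < 97060, chkVF cert v = true :=
    cover_step h37 (chkRangeF_spec (c := cert) 96830 230 kF_96830) rfl
  have h39 : ∀ v < 97290, chkVF cert v = true :=
    cover_step h38 (chkRangeF_spec (c := cert) 97060 230 kF_97060) rfl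
  have h40 : ∀ v < 97520, chkVF cert v = true :=
    cover_step h39 (chkRangeF_spec (c := cert) 97290 230 kF_97290) rfl
  have h41 : ∀ v < 97750, chkVF cert v = true :=
    cover_step h40 (chkRangeF_spec (c := cert) 97520 230 kF_97520) rfl
  have h42 : ∀ v < 97980, chkVF cert v = true :=
    cover_step h41 (chkRangeF_spec (c := cert) 97750 230 kF_97750) rfl
  have h43 : ∀ v < 98210, chkVF cert v = true :=
    cover_step h42 (chkRangeF_spec (c := cert) 97980 230 kF_97980) rfl
  have h44 : ∀ v < 98440, chkVF cert v = true :=
    cover_step h43 (chkRangeF_spec (c := cert) 98210 230 kF_98210) rfl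
  have h45 : ∀ v < 98670, chkVF cert v = true :=
    cover_step h44 (chkRangeF_spec (c := cert) 98440 230 kF_98440) rfl
  have h46 : ∀ v < 98900, chkVF cert v = true :=
    cover_step h45 (chkRangeF_spec (c := cert) 98670 230 kF_98670) rfl
  have h47 : ∀ v < 99130, chkVF cert v = true :=
    cover_step h46 (chkRangeF_spec (c := cert) 98900 230 kF_98900) rfl
  have h48 : ∀ v < 99360, chkVF cert v = true :=
    cover_step h47 (chkRangeF_spec (c := cert) 99130 230 kF_99130) rfl
  have h49 : ∀ v < 99590, chkVF cert v = true :=
    cover_step h48 (chkRangeF_spec (c := cert) 99360 230 kF_99360) rfl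
  have h50 : ∀ v < 99820, chkVF cert v = true :=
    cover_step h49 (chkRangeF_spec (c := cert) 99590 230 kF_99590) rfl
  have h51 : ∀ v < 100050, chkVF cert v = true :=
    cover_step h50 (chkRangeF_spec (c := cert) 99820 230 kF_99820) rfl
  have h52 : ∀ v < 100280, chkVF cert v = true :=
    cover_step h51 (chkRangeF_spec (c := cert) 100050 230 kF_100050) rfl
  have h53 : ∀ v < 100510, chkVF cert v = true :=
    cover_step h52 (chkRangeF_spec (c := cert) 100280 230 kF_100280) rfl
  have h54 : ∀ v < 100740, chkVF cert v = true :=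
    cover_step h53 (chkRangeF_spec (c := cert) 100510 230 kF_100510) rfl
  have h55 : ∀ v < 100970, chkVF cert v = true :=
    cover_step h54 (chkRangeF_spec (c := cert) 100740 230 kF_100740) rfl
  have h56 : ∀ v < 101200, chkVF cert v = true :=
    cover_step h55 (chkRangeF_spec (c := cert) 100970 230 kF_100970) rfl
  have h57 : ∀ v < 101430, chkVF cert v = true :=
    cover_step h56 (chkRangeF_spec (c := cert) 101200 230 kF_101200) rfl
  have h58 : ∀ v < 101660, chkVF cert v = true :=
    cover_step h57 (chkRangeF_spec (c := cert) 101430 230 kF_101430) rfl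
  have h59 : ∀ v < 101890, chkVF cert v = true :=
    cover_step h58 (chkRangeF_spec (c := cert) 101660 230 kF_101660) rfl
  have h60 : ∀ v < 102120, chkVF cert v = true :=
    cover_step h59 (chkRangeF_spec (c := cert) 101890 230 kF_101890) rfl
  have h61 : ∀ v < 102350, chkVF cert v = true :=
    cover_step h60 (chkRangeF_spec (c := cert) 102120 230 kF_102120) rfl
  have h62 : ∀ v < 102580, chkVF cert v = true :=
    cover_step h61 (chkRangeF_spec (c := cert) 102350 230 kF_102350) rfl
  have h63 : ∀ v < 102810, chkVF cert v = true :=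
    cover_step h62 (chkRangeF_spec (c := cert) 102580 230 kF_102580) rfl
  have h64 : ∀ v < 103040, chkVF cert v = true :=
    cover_step h63 (chkRangeF_spec (c := cert) 102810 230 kF_102810) rfl
  exact h64

theorem allF_7 : ∀ v < 117760, chkVF cert v = true := by
  have h0 := allF_6
  have h1 : ∀ v < 103270, chkVF cert v = true :=
    cover_step h0 (chkRangeF_spec (c := cert) 103040 230 kF_103040) rfl
  have h2 : ∀ v < 103500, chkVF cert v = true :=
    cover_step h1 (chkRangeF_spec (c := cert) 103270 230 kF_103270) rfl
  have h3 : ∀ v < 103730, chkVF cert v = true :=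
    cover_step h2 (chkRangeF_spec (c := cert) 103500 230 kF_103500) rfl
  have h4 : ∀ v < 103960, chkVF cert v = true :=
    cover_step h3 (chkRangeF_spec (c := cert) 103730 230 kF_103730) rfl
  have h5 : ∀ v < 104190, chkVF cert v = true :=
    cover_step h4 (chkRangeF_spec (c := cert) 103960 230 kF_103960) rfl
  have h6 : ∀ v < 104420, chkVF cert v = true :=
    cover_step h5 (chkRangeF_spec (c := cert) 104190 230 kF_104190) rfl
  have h7 : ∀ v < 104650, chkVF cert v = true :=
    cover_step h6 (chkRangeF_spec (c := cert) 104420 230 kF_104420) rfl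
  have h8 : ∀ v < 104880, chkVF cert v = true :=
    cover_step h7 (chkRangeF_spec (c := cert) 104650 230 kF_104650) rfl
  have h9 : ∀ v < 105110, chkVF cert v = true :=
    cover_step h8 (chkRangeF_spec (c := cert) 104880 230 kF_104880) rfl
  have h10 : ∀ v < 105340, chkVF cert v = true :=
    cover_step h9 (chkRangeF_spec (c := cert) 105110 230 kF_105110) rfl
  have h11 : ∀ v < 105570, chkVF cert v = true :=
    cover_step h10 (chkRangeF_spec (c := cert) 105340 230 kF_105340) rfl
  have h12 : ∀ v < 105800, chkVF cert v = true :=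
    cover_step h11 (chkRangeF_spec (c := cert) 105570 230 kF_105570) rfl
  have h13 : ∀ v < 106030, chkVF cert v = true :=
    cover_step h12 (chkRangeF_spec (c := cert) 105800 230 kF_105800) rfl
  have h14 : ∀ v < 106260, chkVF cert v = true :=
    cover_step h13 (chkRangeF_spec (c := cert) 106030 230 kF_106030) rfl
  have h15 : ∀ v < 106490, chkVF cert v = true :=
    cover_step h14 (chkRangeF_spec (c := cert) 106260 230 kF_106260) rfl
  have h16 : ∀ v < 106720, chkVF cert v = true :=
    cover_step h15 (chkRangeF_spec (c := cert) 106490 230 kF_106490) rfl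
  have h17 : ∀ v < 106950, chkVF cert v = true :=
    cover_step h16 (chkRangeF_spec (c := cert) 106720 230 kF_106720) rfl
  have h18 : ∀ v < 107180, chkVF cert v = true :=
    cover_step h17 (chkRangeF_spec (c := cert) 106950 230 kF_106950) rfl
  have h19 : ∀ v < 107410, chkVF cert v = true :=
    cover_step h18 (chkRangeF_spec (c := cert) 107180 230 kF_107180) rfl
  have h20 : ∀ v < 107640, chkVF cert v = true :=
    cover_step h19 (chkRangeF_spec (c := cert) 107410 230 kF_107410) rfl
  have h21 : ∀ v < 107870, chkVF cert v = true :=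
    cover_step h20 (chkRangeF_spec (c := cert) 107640 230 kF_107640) rfl
  have h22 : ∀ v < 108100, chkVF cert v = true :=
    cover_step h21 (chkRangeF_spec (c := cert) 107870 230 kF_107870) rfl
  have h23 : ∀ v < 108330, chkVF cert v = true :=
    cover_step h22 (chkRangeF_spec (c := cert) 108100 230 kF_108100) rfl
  have h24 : ∀ v < 108560, chkVF cert v = true :=
    cover_step h23 (chkRangeF_spec (c := cert) 108330 230 kF_108330) rfl
  have h25 : ∀ v < 108790, chkVF cert v = true :=
    cover_step h24 (chkRangeF_spec (c := cert) 108560 230 kF_108560) rfl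
  have h26 : ∀ v < 109020, chkVF cert v = true :=
    cover_step h25 (chkRangeF_spec (c := cert) 108790 230 kF_108790) rfl
  have h27 : ∀ v < 109250, chkVF cert v = true :=
    cover_step h26 (chkRangeF_spec (c := cert) 109020 230 kF_109020) rfl
  have h28 : ∀ v < 109480, chkVF cert v = true :=
    cover_step h27 (chkRangeF_spec (c := cert) 109250 230 kF_109250) rfl
  have h29 : ∀ v < 109710, chkVF cert v = true :=
    cover_step h28 (chkRangeF_spec (c := cert) 109480 230 kF_109480) rfl
  have h30 : ∀ v < 109940, chkVF cert v = true :=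
    cover_step h29 (chkRangeF_spec (c := cert) 109710 230 kF_109710) rfl
  have h31 : ∀ v < 110170, chkVF cert v = true :=
    cover_step h30 (chkRangeF_spec (c := cert) 109940 230 kF_109940) rfl
  have h32 : ∀ v < 110400, chkVF cert v = true :=
    cover_step h31 (chkRangeF_spec (c := cert) 110170 230 kF_110170) rfl
  have h33 : ∀ v < 110630, chkVF cert v = true :=
    cover_step h32 (chkRangeF_spec (c := cert) 110400 230 kF_110400) rfl
  have h34 : ∀ v < 110860, chkVF cert v = true :=
    cover_step h33 (chkRangeF_spec (c := cert) 110630 230 kF_110630) rfl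
  have h35 : ∀ v < 111090, chkVF cert v = true :=
    cover_step h34 (chkRangeF_spec (c := cert) 110860 230 kF_110860) rfl
  have h36 : ∀ v < 111320, chkVF cert v = true :=
    cover_step h35 (chkRangeF_spec (c := cert) 111090 230 kF_111090) rfl
  have h37 : ∀ v < 111550, chkVF cert v = true :=
    cover_step h36 (chkRangeF_spec (c := cert) 111320 230 kF_111320) rfl
  have h38 : ∀ v < 111780, chkVF cert v = true :=
    cover_step h37 (chkRangeF_spec (c := cert) 111550 230 kF_111550) rfl
  have h39 : ∀ v < 112010, chkVF cert v = true :=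
    cover_step h38 (chkRangeF_spec (c := cert) 111780 230 kF_111780) rfl
  have h40 : ∀ v < 112240, chkVF cert v = true :=
    cover_step h39 (chkRangeF_spec (c := cert) 112010 230 kF_112010) rfl
  have h41 : ∀ v < 112470, chkVF cert v = true :=
    cover_step h40 (chkRangeF_spec (c := cert) 112240 230 kF_112240) rfl
  have h42 : ∀ v < 112700, chkVF cert v = true :=
    cover_step h41 (chkRangeF_spec (c := cert) 112470 230 kF_112470) rfl
  have h43 : ∀ v < 112930, chkVF cert v = true :=
    cover_step h42 (chkRangeF_spec (c := cert) 112700 230 kF_112700) rfl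
  have h44 : ∀ v < 113160, chkVF cert v = true :=
    cover_step h43 (chkRangeF_spec (c := cert) 112930 230 kF_112930) rfl
  have h45 : ∀ v < 113390, chkVF cert v = true :=
    cover_step h44 (chkRangeF_spec (c := cert) 113160 230 kF_113160) rfl
  have h46 : ∀ v < 113620, chkVF cert v = true :=
    cover_step h45 (chkRangeF_spec (c := cert) 113390 230 kF_113390) rfl
  have h47 : ∀ v < 113850, chkVF cert v = true :=
    cover_step h46 (chkRangeF_spec (c := cert) 113620 230 kF_113620) rfl
  have h48 : ∀ v < 114080, chkVF cert v = true :=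
    cover_step h47 (chkRangeF_spec (c := cert) 113850 230 kF_113850) rfl
  have h49 : ∀ v < 114310, chkVF cert v = true :=
    cover_step h48 (chkRangeF_spec (c := cert) 114080 230 kF_114080) rfl
  have h50 : ∀ v < 114540, chkVF cert v = true :=
    cover_step h49 (chkRangeF_spec (c := cert) 114310 230 kF_114310) rfl
  have h51 : ∀ v < 114770, chkVF cert v = true :=
    cover_step h50 (chkRangeF_spec (c := cert) 114540 230 kF_114540) rfl
  have h52 : ∀ v < 115000, chkVF cert v = true :=
    cover_step h51 (chkRangeF_spec (c := cert) 114770 230 kF_114770) rfl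
  have h53 : ∀ v < 115230, chkVF cert v = true :=
    cover_step h52 (chkRangeF_spec (c := cert) 115000 230 kF_115000) rfl
  have h54 : ∀ v < 115460, chkVF cert v = true :=
    cover_step h53 (chkRangeF_spec (c := cert) 115230 230 kF_115230) rfl
  have h55 : ∀ v < 115690, chkVF cert v = true :=
    cover_step h54 (chkRangeF_spec (c := cert) 115460 230 kF_115460) rfl
  have h56 : ∀ v < 115920, chkVF cert v = true :=
    cover_step h55 (chkRangeF_spec (c := cert) 115690 230 kF_115690) rfl
  have h57 : ∀ v < 116150, chkVF cert v = true :=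
    cover_step h56 (chkRangeF_spec (c := cert) 115920 230 kF_115920) rfl
  have h58 : ∀ v < 116380, chkVF cert v = true :=
    cover_step h57 (chkRangeF_spec (c := cert) 116150 230 kF_116150) rfl
  have h59 : ∀ v < 116610, chkVF cert v = true :=
    cover_step h58 (chkRangeF_spec (c := cert) 116380 230 kF_116380) rfl
  have h60 : ∀ v < 116840, chkVF cert v = true :=
    cover_step h59 (chkRangeF_spec (c := cert) 116610 230 kF_116610) rfl
  have h61 : ∀ v < 117070, chkVF cert v = true :=
    cover_step h60 (chkRangeF_spec (c := cert) 116840 230 kF_116840) rfl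
  have h62 : ∀ v < 117300, chkVF cert v = true :=
    cover_step h61 (chkRangeF_spec (c := cert) 117070 230 kF_117070) rfl
  have h63 : ∀ v < 117530, chkVF cert v = true :=
    cover_step h62 (chkRangeF_spec (c := cert) 117300 230 kF_117300) rfl
  have h64 : ∀ v < 117760, chkVF cert v = true :=
    cover_step h63 (chkRangeF_spec (c := cert) 117530 230 kF_117530) rfl
  exact h64

theorem allF_8 : ∀ v < 132480, chkVF cert v = true := by
  have h0 := allF_7
  have h1 : ∀ v < 117990, chkVF cert v = true :=
    cover_step h0 (chkRangeF_spec (c := cert) 117760 230 kF_117760) rfl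
  have h2 : ∀ v < 118220, chkVF cert v = true :=
    cover_step h1 (chkRangeF_spec (c := cert) 117990 230 kF_117990) rfl
  have h3 : ∀ v < 118450, chkVF cert v = true :=
    cover_step h2 (chkRangeF_spec (c := cert) 118220 230 kF_118220) rfl
  have h4 : ∀ v < 118680, chkVF cert v = true :=
    cover_step h3 (chkRangeF_spec (c := cert) 118450 230 kF_118450) rfl
  have h5 : ∀ v < 118910, chkVF cert v = true :=
    cover_step h4 (chkRangeF_spec (c := cert) 118680 230 kF_118680) rfl
  have h6 : ∀ v < 119140, chkVF cert v = true :=
    cover_step h5 (chkRangeF_spec (c := cert) 118910 230 kF_118910) rfl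
  have h7 : ∀ v < 119370, chkVF cert v = true :=
    cover_step h6 (chkRangeF_spec (c := cert) 119140 230 kF_119140) rfl
  have h8 : ∀ v < 119600, chkVF cert v = true :=
    cover_step h7 (chkRangeF_spec (c := cert) 119370 230 kF_119370) rfl
  have h9 : ∀ v < 119830, chkVF cert v = true :=
    cover_step h8 (chkRangeF_spec (c := cert) 119600 230 kF_119600) rfl
  have h10 : ∀ v < 120060, chkVF cert v = true :=
    cover_step h9 (chkRangeF_spec (c := cert) 119830 230 kF_119830) rfl
  have h11 : ∀ v < 120290, chkVF cert v = true :=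
    cover_step h10 (chkRangeF_spec (c := cert) 120060 230 kF_120060) rfl
  have h12 : ∀ v < 120520, chkVF cert v = true :=
    cover_step h11 (chkRangeF_spec (c := cert) 120290 230 kF_120290) rfl
  have h13 : ∀ v < 120750, chkVF cert v = true :=
    cover_step h12 (chkRangeF_spec (c := cert) 120520 230 kF_120520) rfl
  have h14 : ∀ v < 120980, chkVF cert v = true :=
    cover_step h13 (chkRangeF_spec (c := cert) 120750 230 kF_120750) rfl
  have h15 : ∀ v < 121210, chkVF cert v = true :=
    cover_step h14 (chkRangeF_spec (c := cert) 120980 230 kF_120980) rfl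
  have h16 : ∀ v < 121440, chkVF cert v = true :=
    cover_step h15 (chkRangeF_spec (c := cert) 121210 230 kF_121210) rfl
  have h17 : ∀ v < 121670, chkVF cert v = true :=
    cover_step h16 (chkRangeF_spec (c := cert) 121440 230 kF_121440) rfl
  have h18 : ∀ v < 121900, chkVF cert v = true :=
    cover_step h17 (chkRangeF_spec (c := cert) 121670 230 kF_121670) rfl
  have h19 : ∀ v < 122130, chkVF cert v = true :=
    cover_step h18 (chkRangeF_spec (c := cert) 121900 230 kF_121900) rfl
  have h20 : ∀ v < 122360, chkVF cert v = true :=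
    cover_step h19 (chkRangeF_spec (c := cert) 122130 230 kF_122130) rfl
  have h21 : ∀ v < 122590, chkVF cert v = true :=
    cover_step h20 (chkRangeF_spec (c := cert) 122360 230 kF_122360) rfl
  have h22 : ∀ v < 122820, chkVF cert v = true :=
    cover_step h21 (chkRangeF_spec (c := cert) 122590 230 kF_122590) rfl
  have h23 : ∀ v < 123050, chkVF cert v = true :=
    cover_step h22 (chkRangeF_spec (c := cert) 122820 230 kF_122820) rfl
  have h24 : ∀ v < 123280, chkVF cert v = true :=
    cover_step h23 (chkRangeF_spec (c := cert) 123050 230 kF_123050) rfl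
  have h25 : ∀ v < 123510, chkVF cert v = true :=
    cover_step h24 (chkRangeF_spec (c := cert) 123280 230 kF_123280) rfl
  have h26 : ∀ v < 123740, chkVF cert v = true :=
    cover_step h25 (chkRangeF_spec (c := cert) 123510 230 kF_123510) rfl
  have h27 : ∀ v < 123970, chkVF cert v = true :=
    cover_step h26 (chkRangeF_spec (c := cert) 123740 230 kF_123740) rfl
  have h28 : ∀ v < 124200, chkVF cert v = true :=
    cover_step h27 (chkRangeF_spec (c := cert) 123970 230 kF_123970) rfl
  have h29 : ∀ v < 124430, chkVF cert v = true :=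
    cover_step h28 (chkRangeF_spec (c := cert) 124200 230 kF_124200) rfl
  have h30 : ∀ v < 124660, chkVF cert v = true :=
    cover_step h29 (chkRangeF_spec (c := cert) 124430 230 kF_124430) rfl
  have h31 : ∀ v < 124890, chkVF cert v = true :=
    cover_step h30 (chkRangeF_spec (c := cert) 124660 230 kF_124660) rfl
  have h32 : ∀ v < 125120, chkVF cert v = true :=
    cover_step h31 (chkRangeF_spec (c := cert) 124890 230 kF_124890) rfl
  have h33 : ∀ v < 125350, chkVF cert v = true :=
    cover_step h32 (chkRangeF_spec (c := cert) 125120 230 kF_125120) rfl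
  have h34 : ∀ v < 125580, chkVF cert v = true :=
    cover_step h33 (chkRangeF_spec (c := cert) 125350 230 kF_125350) rfl
  have h35 : ∀ v < 125810, chkVF cert v = true :=
    cover_step h34 (chkRangeF_spec (c := cert) 125580 230 kF_125580) rfl
  have h36 : ∀ v < 126040, chkVF cert v = true :=
    cover_step h35 (chkRangeF_spec (c := cert) 125810 230 kF_125810) rfl
  have h37 : ∀ v < 126270, chkVF cert v = true :=
    cover_step h36 (chkRangeF_spec (c := cert) 126040 230 kF_126040) rfl
  have h38 : ∀ v < 126500, chkVF cert v = true :=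
    cover_step h37 (chkRangeF_spec (c := cert) 126270 230 kF_126270) rfl
  have h39 : ∀ v < 126730, chkVF cert v = true :=
    cover_step h38 (chkRangeF_spec (c := cert) 126500 230 kF_126500) rfl
  have h40 : ∀ v < 126960, chkVF cert v = true :=
    cover_step h39 (chkRangeF_spec (c := cert) 126730 230 kF_126730) rfl
  have h41 : ∀ v < 127190, chkVF cert v = true :=
    cover_step h40 (chkRangeF_spec (c := cert) 126960 230 kF_126960) rfl
  have h42 : ∀ v < 127420, chkVF cert v = true :=
    cover_step h41 (chkRangeF_spec (c := cert) 127190 230 kF_127190) rfl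
  have h43 : ∀ v < 127650, chkVF cert v = true :=
    cover_step h42 (chkRangeF_spec (c := cert) 127420 230 kF_127420) rfl
  have h44 : ∀ v < 127880, chkVF cert v = true :=
    cover_step h43 (chkRangeF_spec (c := cert) 127650 230 kF_127650) rfl
  have h45 : ∀ v < 128110, chkVF cert v = true :=
    cover_step h44 (chkRangeF_spec (c := cert) 127880 230 kF_127880) rfl
  have h46 : ∀ v < 128340, chkVF cert v = true :=
    cover_step h45 (chkRangeF_spec (c := cert) 128110 230 kF_128110) rfl
  have h47 : ∀ v < 128570, chkVF cert v = true :=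
    cover_step h46 (chkRangeF_spec (c := cert) 128340 230 kF_128340) rfl
  have h48 : ∀ v < 128800, chkVF cert v = true :=
    cover_step h47 (chkRangeF_spec (c := cert) 128570 230 kF_128570) rfl
  have h49 : ∀ v < 129030, chkVF cert v = true :=
    cover_step h48 (chkRangeF_spec (c := cert) 128800 230 kF_128800) rfl
  have h50 : ∀ v < 129260, chkVF cert v = true :=
    cover_step h49 (chkRangeF_spec (c := cert) 129030 230 kF_129030) rfl
  have h51 : ∀ v < 129490, chkVF cert v = true :=
    cover_step h50 (chkRangeF_spec (c := cert) 129260 230 kF_129260) rfl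
  have h52 : ∀ v < 129720, chkVF cert v = true :=
    cover_step h51 (chkRangeF_spec (c := cert) 129490 230 kF_129490) rfl
  have h53 : ∀ v < 129950, chkVF cert v = true :=
    cover_step h52 (chkRangeF_spec (c := cert) 129720 230 kF_129720) rfl
  have h54 : ∀ v < 130180, chkVF cert v = true :=
    cover_step h53 (chkRangeF_spec (c := cert) 129950 230 kF_129950) rfl
  have h55 : ∀ v < 130410, chkVF cert v = true :=
    cover_step h54 (chkRangeF_spec (c := cert) 130180 230 kF_130180) rfl
  have h56 : ∀ v < 130640, chkVF cert v = true :=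
    cover_step h55 (chkRangeF_spec (c := cert) 130410 230 kF_130410) rfl
  have h57 : ∀ v < 130870, chkVF cert v = true :=
    cover_step h56 (chkRangeF_spec (c := cert) 130640 230 kF_130640) rfl
  have h58 : ∀ v < 131100, chkVF cert v = true :=
    cover_step h57 (chkRangeF_spec (c := cert) 130870 230 kF_130870) rfl
  have h59 : ∀ v < 131330, chkVF cert v = true :=
    cover_step h58 (chkRangeF_spec (c := cert) 131100 230 kF_131100) rfl
  have h60 : ∀ v < 131560, chkVF cert v = true :=
    cover_step h59 (chkRangeF_spec (c := cert) 131330 230 kF_131330) rfl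
  have h61 : ∀ v < 131790, chkVF cert v = true :=
    cover_step h60 (chkRangeF_spec (c := cert) 131560 230 kF_131560) rfl
  have h62 : ∀ v < 132020, chkVF cert v = true :=
    cover_step h61 (chkRangeF_spec (c := cert) 131790 230 kF_131790) rfl
  have h63 : ∀ v < 132250, chkVF cert v = true :=
    cover_step h62 (chkRangeF_spec (c := cert) 132020 230 kF_132020) rfl
  have h64 : ∀ v < 132480, chkVF cert v = true :=
    cover_step h63 (chkRangeF_spec (c := cert) 132250 230 kF_132250) rfl
  exact h64

theorem allF_9 : ∀ v < 147200, chkVF cert v = true := by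
  have h0 := allF_8
  have h1 : ∀ v < 132710, chkVF cert v = true :=
    cover_step h0 (chkRangeF_spec (c := cert) 132480 230 kF_132480) rfl
  have h2 : ∀ v < 132940, chkVF cert v = true :=
    cover_step h1 (chkRangeF_spec (c := cert) 132710 230 kF_132710) rfl
  have h3 : ∀ v < 133170, chkVF cert v = true :=
    cover_step h2 (chkRangeF_spec (c := cert) 132940 230 kF_132940) rfl
  have h4 : ∀ v < 133400, chkVF cert v = true :=
    cover_step h3 (chkRangeF_spec (c := cert) 133170 230 kF_133170) rfl
  have h5 : ∀ v < 133630, chkVF cert v = true :=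
    cover_step h4 (chkRangeF_spec (c := cert) 133400 230 kF_133400) rfl
  have h6 : ∀ v < 133860, chkVF cert v = true :=
    cover_step h5 (chkRangeF_spec (c := cert) 133630 230 kF_133630) rfl
  have h7 : ∀ v < 134090, chkVF cert v = true :=
    cover_step h6 (chkRangeF_spec (c := cert) 133860 230 kF_133860) rfl
  have h8 : ∀ v < 134320, chkVF cert v = true :=
    cover_step h7 (chkRangeF_spec (c := cert) 134090 230 kF_134090) rfl
  have h9 : ∀ v < 134550, chkVF cert v = true :=
    cover_step h8 (chkRangeF_spec (c := cert) 134320 230 kF_134320) rfl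
  have h10 : ∀ v < 134780, chkVF cert v = true :=
    cover_step h9 (chkRangeF_spec (c := cert) 134550 230 kF_134550) rfl
  have h11 : ∀ v < 135010, chkVF cert v = true :=
    cover_step h10 (chkRangeF_spec (c := cert) 134780 230 kF_134780) rfl
  have h12 : ∀ v < 135240, chkVF cert v = true :=
    cover_step h11 (chkRangeF_spec (c := cert) 135010 230 kF_135010) rfl
  have h13 : ∀ v < 135470, chkVF cert v = true :=
    cover_step h12 (chkRangeF_spec (c := cert) 135240 230 kF_135240) rfl
  have h14 : ∀ v < 135700, chkVF cert v = true :=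
    cover_step h13 (chkRangeF_spec (c := cert) 135470 230 kF_135470) rfl
  have h15 : ∀ v < 135930, chkVF cert v = true :=
    cover_step h14 (chkRangeF_spec (c := cert) 135700 230 kF_135700) rfl
  have h16 : ∀ v < 136160, chkVF cert v = true :=
    cover_step h15 (chkRangeF_spec (c := cert) 135930 230 kF_135930) rfl
  have h17 : ∀ v < 136390, chkVF cert v = true :=
    cover_step h16 (chkRangeF_spec (c := cert) 136160 230 kF_136160) rfl
  have h18 : ∀ v < 136620, chkVF cert v = true :=
    cover_step h17 (chkRangeF_spec (c := cert) 136390 230 kF_136390) rfl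
  have h19 : ∀ v < 136850, chkVF cert v = true :=
    cover_step h18 (chkRangeF_spec (c := cert) 136620 230 kF_136620) rfl
  have h20 : ∀ v < 137080, chkVF cert v = true :=
    cover_step h19 (chkRangeF_spec (c := cert) 136850 230 kF_136850) rfl
  have h21 : ∀ v < 137310, chkVF cert v = true :=
    cover_step h20 (chkRangeF_spec (c := cert) 137080 230 kF_137080) rfl
  have h22 : ∀ v < 137540, chkVF cert v = true :=
    cover_step h21 (chkRangeF_spec (c := cert) 137310 230 kF_137310) rfl
  have h23 : ∀ v < 137770, chkVF cert v = true :=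
    cover_step h22 (chkRangeF_spec (c := cert) 137540 230 kF_137540) rfl
  have h24 : ∀ v < 138000, chkVF cert v = true :=
    cover_step h23 (chkRangeF_spec (c := cert) 137770 230 kF_137770) rfl
  have h25 : ∀ v < 138230, chkVF cert v = true :=
    cover_step h24 (chkRangeF_spec (c := cert) 138000 230 kF_138000) rfl
  have h26 : ∀ v < 138460, chkVF cert v = true :=
    cover_step h25 (chkRangeF_spec (c := cert) 138230 230 kF_138230) rfl
  have h27 : ∀ v < 138690, chkVF cert v = true :=
    cover_step h26 (chkRangeF_spec (c := cert) 138460 230 kF_138460) rfl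
  have h28 : ∀ v < 138920, chkVF cert v = true :=
    cover_step h27 (chkRangeF_spec (c := cert) 138690 230 kF_138690) rfl
  have h29 : ∀ v < 139150, chkVF cert v = true :=
    cover_step h28 (chkRangeF_spec (c := cert) 138920 230 kF_138920) rfl
  have h30 : ∀ v < 139380, chkVF cert v = true :=
    cover_step h29 (chkRangeF_spec (c := cert) 139150 230 kF_139150) rfl
  have h31 : ∀ v < 139610, chkVF cert v = true :=
    cover_step h30 (chkRangeF_spec (c := cert) 139380 230 kF_139380) rfl
  have h32 : ∀ v < 139840, chkVF cert v = true :=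
    cover_step h31 (chkRangeF_spec (c := cert) 139610 230 kF_139610) rfl
  have h33 : ∀ v < 140070, chkVF cert v = true :=
    cover_step h32 (chkRangeF_spec (c := cert) 139840 230 kF_139840) rfl
  have h34 : ∀ v < 140300, chkVF cert v = true :=
    cover_step h33 (chkRangeF_spec (c := cert) 140070 230 kF_140070) rfl
  have h35 : ∀ v < 140530, chkVF cert v = true :=
    cover_step h34 (chkRangeF_spec (c := cert) 140300 230 kF_140300) rfl
  have h36 : ∀ v < 140760, chkVF cert v = true :=
    cover_step h35 (chkRangeF_spec (c := cert) 140530 230 kF_140530) rfl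
  have h37 : ∀ v < 140990, chkVF cert v = true :=
    cover_step h36 (chkRangeF_spec (c := cert) 140760 230 kF_140760) rfl
  have h38 : ∀ v < 141220, chkVF cert v = true :=
    cover_step h37 (chkRangeF_spec (c := cert) 140990 230 kF_140990) rfl
  have h39 : ∀ v < 141450, chkVF cert v = true :=
    cover_step h38 (chkRangeF_spec (c := cert) 141220 230 kF_141220) rfl
  have h40 : ∀ v < 141680, chkVF cert v = true :=
    cover_step h39 (chkRangeF_spec (c := cert) 141450 230 kF_141450) rfl
  have h41 : ∀ v < 141910, chkVF cert v = true :=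
    cover_step h40 (chkRangeF_spec (c := cert) 141680 230 kF_141680) rfl
  have h42 : ∀ v < 142140, chkVF cert v = true :=
    cover_step h41 (chkRangeF_spec (c := cert) 141910 230 kF_141910) rfl
  have h43 : ∀ v < 142370, chkVF cert v = true :=
    cover_step h42 (chkRangeF_spec (c := cert) 142140 230 kF_142140) rfl
  have h44 : ∀ v < 142600, chkVF cert v = true :=
    cover_step h43 (chkRangeF_spec (c := cert) 142370 230 kF_142370) rfl
  have h45 : ∀ v < 142830, chkVF cert v = true :=
    cover_step h44 (chkRangeF_spec (c := cert) 142600 230 kF_142600) rfl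
  have h46 : ∀ v < 143060, chkVF cert v = true :=
    cover_step h45 (chkRangeF_spec (c := cert) 142830 230 kF_142830) rfl
  have h47 : ∀ v < 143290, chkVF cert v = true :=
    cover_step h46 (chkRangeF_spec (c := cert) 143060 230 kF_143060) rfl
  have h48 : ∀ v < 143520, chkVF cert v = true :=
    cover_step h47 (chkRangeF_spec (c := cert) 143290 230 kF_143290) rfl
  have h49 : ∀ v < 143750, chkVF cert v = true :=
    cover_step h48 (chkRangeF_spec (c := cert) 143520 230 kF_143520) rfl
  have h50 : ∀ v < 143980, chkVF cert v = true :=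
    cover_step h49 (chkRangeF_spec (c := cert) 143750 230 kF_143750) rfl
  have h51 : ∀ v < 144210, chkVF cert v = true :=
    cover_step h50 (chkRangeF_spec (c := cert) 143980 230 kF_143980) rfl
  have h52 : ∀ v < 144440, chkVF cert v = true :=
    cover_step h51 (chkRangeF_spec (c := cert) 144210 230 kF_144210) rfl
  have h53 : ∀ v < 144670, chkVF cert v = true :=
    cover_step h52 (chkRangeF_spec (c := cert) 144440 230 kF_144440) rfl
  have h54 : ∀ v < 144900, chkVF cert v = true :=
    cover_step h53 (chkRangeF_spec (c := cert) 144670 230 kF_144670) rfl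
  have h55 : ∀ v < 145130, chkVF cert v = true :=
    cover_step h54 (chkRangeF_spec (c := cert) 144900 230 kF_144900) rfl
  have h56 : ∀ v < 145360, chkVF cert v = true :=
    cover_step h55 (chkRangeF_spec (c := cert) 145130 230 kF_145130) rfl
  have h57 : ∀ v < 145590, chkVF cert v = true :=
    cover_step h56 (chkRangeF_spec (c := cert) 145360 230 kF_145360) rfl
  have h58 : ∀ v < 145820, chkVF cert v = true :=
    cover_step h57 (chkRangeF_spec (c := cert) 145590 230 kF_145590) rfl
  have h59 : ∀ v < 146050, chkVF cert v = true :=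
    cover_step h58 (chkRangeF_spec (c := cert) 145820 230 kF_145820) rfl
  have h60 : ∀ v < 146280, chkVF cert v = true :=
    cover_step h59 (chkRangeF_spec (c := cert) 146050 230 kF_146050) rfl
  have h61 : ∀ v < 146510, chkVF cert v = true :=
    cover_step h60 (chkRangeF_spec (c := cert) 146280 230 kF_146280) rfl
  have h62 : ∀ v < 146740, chkVF cert v = true :=
    cover_step h61 (chkRangeF_spec (c := cert) 146510 230 kF_146510) rfl
  have h63 : ∀ v < 146970, chkVF cert v = true :=
    cover_step h62 (chkRangeF_spec (c := cert) 146740 230 kF_146740) rfl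
  have h64 : ∀ v < 147200, chkVF cert v = true :=
    cover_step h63 (chkRangeF_spec (c := cert) 146970 230 kF_146970) rfl
  exact h64

theorem allF_10 : ∀ v < 161920, chkVF cert v = true := by
  have h0 := allF_9
  have h1 : ∀ v < 147430, chkVF cert v = true :=
    cover_step h0 (chkRangeF_spec (c := cert) 147200 230 kF_147200) rfl
  have h2 : ∀ v < 147660, chkVF cert v = true :=
    cover_step h1 (chkRangeF_spec (c := cert) 147430 230 kF_147430) rfl
  have h3 : ∀ v < 147890, chkVF cert v = true :=
    cover_step h2 (chkRangeF_spec (c := cert) 147660 230 kF_147660) rfl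
  have h4 : ∀ v < 148120, chkVF cert v = true :=
    cover_step h3 (chkRangeF_spec (c := cert) 147890 230 kF_147890) rfl
  have h5 : ∀ v < 148350, chkVF cert v = true :=
    cover_step h4 (chkRangeF_spec (c := cert) 148120 230 kF_148120) rfl
  have h6 : ∀ v < 148580, chkVF cert v = true :=
    cover_step h5 (chkRangeF_spec (c := cert) 148350 230 kF_148350) rfl
  have h7 : ∀ v < 148810, chkVF cert v = true :=
    cover_step h6 (chkRangeF_spec (c := cert) 148580 230 kF_148580) rfl
  have h8 : ∀ v < 149040, chkVF cert v = true :=
    cover_step h7 (chkRangeF_spec (c := cert) 148810 230 kF_148810) rfl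
  have h9 : ∀ v < 149270, chkVF cert v = true :=
    cover_step h8 (chkRangeF_spec (c := cert) 149040 230 kF_149040) rfl
  have h10 : ∀ v < 149500, chkVF cert v = true :=
    cover_step h9 (chkRangeF_spec (c := cert) 149270 230 kF_149270) rfl
  have h11 : ∀ v < 149730, chkVF cert v = true :=
    cover_step h10 (chkRangeF_spec (c := cert) 149500 230 kF_149500) rfl
  have h12 : ∀ v < 149960, chkVF cert v = true :=
    cover_step h11 (chkRangeF_spec (c := cert) 149730 230 kF_149730) rfl
  have h13 : ∀ v < 150190, chkVF cert v = true :=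
    cover_step h12 (chkRangeF_spec (c := cert) 149960 230 kF_149960) rfl
  have h14 : ∀ v < 150420, chkVF cert v = true :=
    cover_step h13 (chkRangeF_spec (c := cert) 150190 230 kF_150190) rfl
  have h15 : ∀ v < 150650, chkVF cert v = true :=
    cover_step h14 (chkRangeF_spec (c := cert) 150420 230 kF_150420) rfl
  have h16 : ∀ v < 150880, chkVF cert v = true :=
    cover_step h15 (chkRangeF_spec (c := cert) 150650 230 kF_150650) rfl
  have h17 : ∀ v < 151110, chkVF cert v = true :=
    cover_step h16 (chkRangeF_spec (c := cert) 150880 230 kF_150880) rfl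
  have h18 : ∀ v < 151340, chkVF cert v = true :=
    cover_step h17 (chkRangeF_spec (c := cert) 151110 230 kF_151110) rfl
  have h19 : ∀ v < 151570, chkVF cert v = true :=
    cover_step h18 (chkRangeF_spec (c := cert) 151340 230 kF_151340) rfl
  have h20 : ∀ v < 151800, chkVF cert v = true :=
    cover_step h19 (chkRangeF_spec (c := cert) 151570 230 kF_151570) rfl
  have h21 : ∀ v < 152030, chkVF cert v = true :=
    cover_step h20 (chkRangeF_spec (c := cert) 151800 230 kF_151800) rfl
  have h22 : ∀ v < 152260, chkVF cert v = true :=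
    cover_step h21 (chkRangeF_spec (c := cert) 152030 230 kF_152030) rfl
  have h23 : ∀ v < 152490, chkVF cert v = true :=
    cover_step h22 (chkRangeF_spec (c := cert) 152260 230 kF_152260) rfl
  have h24 : ∀ v < 152720, chkVF cert v = true :=
    cover_step h23 (chkRangeF_spec (c := cert) 152490 230 kF_152490) rfl
  have h25 : ∀ v < 152950, chkVF cert v = true :=
    cover_step h24 (chkRangeF_spec (c := cert) 152720 230 kF_152720) rfl
  have h26 : ∀ v < 153180, chkVF cert v = true :=
    cover_step h25 (chkRangeF_spec (c := cert) 152950 230 kF_152950) rfl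
  have h27 : ∀ v < 153410, chkVF cert v = true :=
    cover_step h26 (chkRangeF_spec (c := cert) 153180 230 kF_153180) rfl
  have h28 : ∀ v < 153640, chkVF cert v = true :=
    cover_step h27 (chkRangeF_spec (c := cert) 153410 230 kF_153410) rfl
  have h29 : ∀ v < 153870, chkVF cert v = true :=
    cover_step h28 (chkRangeF_spec (c := cert) 153640 230 kF_153640) rfl
  have h30 : ∀ v < 154100, chkVF cert v = true :=
    cover_step h29 (chkRangeF_spec (c := cert) 153870 230 kF_153870) rfl
  have h31 : ∀ v < 154330, chkVF cert v = true :=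
    cover_step h30 (chkRangeF_spec (c := cert) 154100 230 kF_154100) rfl
  have h32 : ∀ v < 154560, chkVF cert v = true :=
    cover_step h31 (chkRangeF_spec (c := cert) 154330 230 kF_154330) rfl
  have h33 : ∀ v < 154790, chkVF cert v = true :=
    cover_step h32 (chkRangeF_spec (c := cert) 154560 230 kF_154560) rfl
  have h34 : ∀ v < 155020, chkVF cert v = true :=
    cover_step h33 (chkRangeF_spec (c := cert) 154790 230 kF_154790) rfl
  have h35 : ∀ v < 155250, chkVF cert v = true :=
    cover_step h34 (chkRangeF_spec (c := cert) 155020 230 kF_155020) rfl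
  have h36 : ∀ v < 155480, chkVF cert v = true :=
    cover_step h35 (chkRangeF_spec (c := cert) 155250 230 kF_155250) rfl
  have h37 : ∀ v < 155710, chkVF cert v = true :=
    cover_step h36 (chkRangeF_spec (c := cert) 155480 230 kF_155480) rfl
  have h38 : ∀ v < 155940, chkVF cert v = true :=
    cover_step h37 (chkRangeF_spec (c := cert) 155710 230 kF_155710) rfl
  have h39 : ∀ v < 156170, chkVF cert v = true :=
    cover_step h38 (chkRangeF_spec (c := cert) 155940 230 kF_155940) rfl
  have h40 : ∀ v < 156400, chkVF cert v = true :=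
    cover_step h39 (chkRangeF_spec (c := cert) 156170 230 kF_156170) rfl
  have h41 : ∀ v < 156630, chkVF cert v = true :=
    cover_step h40 (chkRangeF_spec (c := cert) 156400 230 kF_156400) rfl
  have h42 : ∀ v < 156860, chkVF cert v = true :=
    cover_step h41 (chkRangeF_spec (c := cert) 156630 230 kF_156630) rfl
  have h43 : ∀ v < 157090, chkVF cert v = true :=
    cover_step h42 (chkRangeF_spec (c := cert) 156860 230 kF_156860) rfl
  have h44 : ∀ v < 157320, chkVF cert v = true :=
    cover_step h43 (chkRangeF_spec (c := cert) 157090 230 kF_157090) rfl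
  have h45 : ∀ v < 157550, chkVF cert v = true :=
    cover_step h44 (chkRangeF_spec (c := cert) 157320 230 kF_157320) rfl
  have h46 : ∀ v < 157780, chkVF cert v = true :=
    cover_step h45 (chkRangeF_spec (c := cert) 157550 230 kF_157550) rfl
  have h47 : ∀ v < 158010, chkVF cert v = true :=
    cover_step h46 (chkRangeF_spec (c := cert) 157780 230 kF_157780) rfl
  have h48 : ∀ v < 158240, chkVF cert v = true :=
    cover_step h47 (chkRangeF_spec (c := cert) 158010 230 kF_158010) rfl
  have h49 : ∀ v < 158470, chkVF cert v = true :=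
    cover_step h48 (chkRangeF_spec (c := cert) 158240 230 kF_158240) rfl
  have h50 : ∀ v < 158700, chkVF cert v = true :=
    cover_step h49 (chkRangeF_spec (c := cert) 158470 230 kF_158470) rfl
  have h51 : ∀ v < 158930, chkVF cert v = true :=
    cover_step h50 (chkRangeF_spec (c := cert) 158700 230 kF_158700) rfl
  have h52 : ∀ v < 159160, chkVF cert v = true :=
    cover_step h51 (chkRangeF_spec (c := cert) 158930 230 kF_158930) rfl
  have h53 : ∀ v < 159390, chkVF cert v = true :=
    cover_step h52 (chkRangeF_spec (c := cert) 159160 230 kF_159160) rfl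
  have h54 : ∀ v < 159620, chkVF cert v = true :=
    cover_step h53 (chkRangeF_spec (c := cert) 159390 230 kF_159390) rfl
  have h55 : ∀ v < 159850, chkVF cert v = true :=
    cover_step h54 (chkRangeF_spec (c := cert) 159620 230 kF_159620) rfl
  have h56 : ∀ v < 160080, chkVF cert v = true :=
    cover_step h55 (chkRangeF_spec (c := cert) 159850 230 kF_159850) rfl
  have h57 : ∀ v < 160310, chkVF cert v = true :=
    cover_step h56 (chkRangeF_spec (c := cert) 160080 230 kF_160080) rfl
  have h58 : ∀ v < 160540, chkVF cert v = true :=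
    cover_step h57 (chkRangeF_spec (c := cert) 160310 230 kF_160310) rfl
  have h59 : ∀ v < 160770, chkVF cert v = true :=
    cover_step h58 (chkRangeF_spec (c := cert) 160540 230 kF_160540) rfl
  have h60 : ∀ v < 161000, chkVF cert v = true :=
    cover_step h59 (chkRangeF_spec (c := cert) 160770 230 kF_160770) rfl
  have h61 : ∀ v < 161230, chkVF cert v = true :=
    cover_step h60 (chkRangeF_spec (c := cert) 161000 230 kF_161000) rfl
  have h62 : ∀ v < 161460, chkVF cert v = true :=
    cover_step h61 (chkRangeF_spec (c := cert) 161230 230 kF_161230) rfl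
  have h63 : ∀ v < 161690, chkVF cert v = true :=
    cover_step h62 (chkRangeF_spec (c := cert) 161460 230 kF_161460) rfl
  have h64 : ∀ v < 161920, chkVF cert v = true :=
    cover_step h63 (chkRangeF_spec (c := cert) 161690 230 kF_161690) rfl
  exact h64

theorem allF_11 : ∀ v < 176640, chkVF cert v = true := by
  have h0 := allF_10
  have h1 : ∀ v < 162150, chkVF cert v = true :=
    cover_step h0 (chkRangeF_spec (c := cert) 161920 230 kF_161920) rfl
  have h2 : ∀ v < 162380, chkVF cert v = true :=
    cover_step h1 (chkRangeF_spec (c := cert) 162150 230 kF_162150) rfl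
  have h3 : ∀ v < 162610, chkVF cert v = true :=
    cover_step h2 (chkRangeF_spec (c := cert) 162380 230 kF_162380) rfl
  have h4 : ∀ v < 162840, chkVF cert v = true :=
    cover_step h3 (chkRangeF_spec (c := cert) 162610 230 kF_162610) rfl
  have h5 : ∀ v < 163070, chkVF cert v = true :=
    cover_step h4 (chkRangeF_spec (c := cert) 162840 230 kF_162840) rfl
  have h6 : ∀ v < 163300, chkVF cert v = true :=
    cover_step h5 (chkRangeF_spec (c := cert) 163070 230 kF_163070) rfl
  have h7 : ∀ v < 163530, chkVF cert v = true :=
    cover_step h6 (chkRangeF_spec (c := cert) 163300 230 kF_163300) rfl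
  have h8 : ∀ v < 163760, chkVF cert v = true :=
    cover_step h7 (chkRangeF_spec (c := cert) 163530 230 kF_163530) rfl
  have h9 : ∀ v < 163990, chkVF cert v = true :=
    cover_step h8 (chkRangeF_spec (c := cert) 163760 230 kF_163760) rfl
  have h10 : ∀ v < 164220, chkVF cert v = true :=
    cover_step h9 (chkRangeF_spec (c := cert) 163990 230 kF_163990) rfl
  have h11 : ∀ v < 164450, chkVF cert v = true :=
    cover_step h10 (chkRangeF_spec (c := cert) 164220 230 kF_164220) rfl
  have h12 : ∀ v < 164680, chkVF cert v = true :=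
    cover_step h11 (chkRangeF_spec (c := cert) 164450 230 kF_164450) rfl
  have h13 : ∀ v < 164910, chkVF cert v = true :=
    cover_step h12 (chkRangeF_spec (c := cert) 164680 230 kF_164680) rfl
  have h14 : ∀ v < 165140, chkVF cert v = true :=
    cover_step h13 (chkRangeF_spec (c := cert) 164910 230 kF_164910) rfl
  have h15 : ∀ v < 165370, chkVF cert v = true :=
    cover_step h14 (chkRangeF_spec (c := cert) 165140 230 kF_165140) rfl
  have h16 : ∀ v < 165600, chkVF cert v = true :=
    cover_step h15 (chkRangeF_spec (c := cert) 165370 230 kF_165370) rfl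
  have h17 : ∀ v < 165830, chkVF cert v = true :=
    cover_step h16 (chkRangeF_spec (c := cert) 165600 230 kF_165600) rfl
  have h18 : ∀ v < 166060, chkVF cert v = true :=
    cover_step h17 (chkRangeF_spec (c := cert) 165830 230 kF_165830) rfl
  have h19 : ∀ v < 166290, chkVF cert v = true :=
    cover_step h18 (chkRangeF_spec (c := cert) 166060 230 kF_166060) rfl
  have h20 : ∀ v < 166520, chkVF cert v = true :=
    cover_step h19 (chkRangeF_spec (c := cert) 166290 230 kF_166290) rfl
  have h21 : ∀ v < 166750, chkVF cert v = true :=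
    cover_step h20 (chkRangeF_spec (c := cert) 166520 230 kF_166520) rfl
  have h22 : ∀ v < 166980, chkVF cert v = true :=
    cover_step h21 (chkRangeF_spec (c := cert) 166750 230 kF_166750) rfl
  have h23 : ∀ v < 167210, chkVF cert v = true :=
    cover_step h22 (chkRangeF_spec (c := cert) 166980 230 kF_166980) rfl
  have h24 : ∀ v < 167440, chkVF cert v = true :=
    cover_step h23 (chkRangeF_spec (c := cert) 167210 230 kF_167210) rfl
  have h25 : ∀ v < 167670, chkVF cert v = true :=
    cover_step h24 (chkRangeF_spec (c := cert) 167440 230 kF_167440) rfl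
  have h26 : ∀ v < 167900, chkVF cert v = true :=
    cover_step h25 (chkRangeF_spec (c := cert) 167670 230 kF_167670) rfl
  have h27 : ∀ v < 168130, chkVF cert v = true :=
    cover_step h26 (chkRangeF_spec (c := cert) 167900 230 kF_167900) rfl
  have h28 : ∀ v < 168360, chkVF cert v = true :=
    cover_step h27 (chkRangeF_spec (c := cert) 168130 230 kF_168130) rfl
  have h29 : ∀ v < 168590, chkVF cert v = true :=
    cover_step h28 (chkRangeF_spec (c := cert) 168360 230 kF_168360) rfl
  have h30 : ∀ v < 168820, chkVF cert v = true :=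
    cover_step h29 (chkRangeF_spec (c := cert) 168590 230 kF_168590) rfl
  have h31 : ∀ v < 169050, chkVF cert v = true :=
    cover_step h30 (chkRangeF_spec (c := cert) 168820 230 kF_168820) rfl
  have h32 : ∀ v < 169280, chkVF cert v = true :=
    cover_step h31 (chkRangeF_spec (c := cert) 169050 230 kF_169050) rfl
  have h33 : ∀ v < 169510, chkVF cert v = true :=
    cover_step h32 (chkRangeF_spec (c := cert) 169280 230 kF_169280) rfl
  have h34 : ∀ v < 169740, chkVF cert v = true :=
    cover_step h33 (chkRangeF_spec (c := cert) 169510 230 kF_169510) rfl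
  have h35 : ∀ v < 169970, chkVF cert v = true :=
    cover_step h34 (chkRangeF_spec (c := cert) 169740 230 kF_169740) rfl
  have h36 : ∀ v < 170200, chkVF cert v = true :=
    cover_step h35 (chkRangeF_spec (c := cert) 169970 230 kF_169970) rfl
  have h37 : ∀ v < 170430, chkVF cert v = true :=
    cover_step h36 (chkRangeF_spec (c := cert) 170200 230 kF_170200) rfl
  have h38 : ∀ v < 170660, chkVF cert v = true :=
    cover_step h37 (chkRangeF_spec (c := cert) 170430 230 kF_170430) rfl
  have h39 : ∀ v < 170890, chkVF cert v = true :=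
    cover_step h38 (chkRangeF_spec (c := cert) 170660 230 kF_170660) rfl
  have h40 : ∀ v < 171120, chkVF cert v = true :=
    cover_step h39 (chkRangeF_spec (c := cert) 170890 230 kF_170890) rfl
  have h41 : ∀ v < 171350, chkVF cert v = true :=
    cover_step h40 (chkRangeF_spec (c := cert) 171120 230 kF_171120) rfl
  have h42 : ∀ v < 171580, chkVF cert v = true :=
    cover_step h41 (chkRangeF_spec (c := cert) 171350 230 kF_171350) rfl
  have h43 : ∀ v < 171810, chkVF cert v = true :=
    cover_step h42 (chkRangeF_spec (c := cert) 171580 230 kF_171580) rfl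
  have h44 : ∀ v < 172040, chkVF cert v = true :=
    cover_step h43 (chkRangeF_spec (c := cert) 171810 230 kF_171810) rfl
  have h45 : ∀ v < 172270, chkVF cert v = true :=
    cover_step h44 (chkRangeF_spec (c := cert) 172040 230 kF_172040) rfl
  have h46 : ∀ v < 172500, chkVF cert v = true :=
    cover_step h45 (chkRangeF_spec (c := cert) 172270 230 kF_172270) rfl
  have h47 : ∀ v < 172730, chkVF cert v = true :=
    cover_step h46 (chkRangeF_spec (c := cert) 172500 230 kF_172500) rfl
  have h48 : ∀ v < 172960, chkVF cert v = true :=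
    cover_step h47 (chkRangeF_spec (c := cert) 172730 230 kF_172730) rfl
  have h49 : ∀ v < 173190, chkVF cert v = true :=
    cover_step h48 (chkRangeF_spec (c := cert) 172960 230 kF_172960) rfl
  have h50 : ∀ v < 173420, chkVF cert v = true :=
    cover_step h49 (chkRangeF_spec (c := cert) 173190 230 kF_173190) rfl
  have h51 : ∀ v < 173650, chkVF cert v = true :=
    cover_step h50 (chkRangeF_spec (c := cert) 173420 230 kF_173420) rfl
  have h52 : ∀ v < 173880, chkVF cert v = true :=
    cover_step h51 (chkRangeF_spec (c := cert) 173650 230 kF_173650) rfl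
  have h53 : ∀ v < 174110, chkVF cert v = true :=
    cover_step h52 (chkRangeF_spec (c := cert) 173880 230 kF_173880) rfl
  have h54 : ∀ v < 174340, chkVF cert v = true :=
    cover_step h53 (chkRangeF_spec (c := cert) 174110 230 kF_174110) rfl
  have h55 : ∀ v < 174570, chkVF cert v = true :=
    cover_step h54 (chkRangeF_spec (c := cert) 174340 230 kF_174340) rfl
  have h56 : ∀ v < 174800, chkVF cert v = true :=
    cover_step h55 (chkRangeF_spec (c := cert) 174570 230 kF_174570) rfl
  have h57 : ∀ v < 175030, chkVF cert v = true :=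
    cover_step h56 (chkRangeF_spec (c := cert) 174800 230 kF_174800) rfl
  have h58 : ∀ v < 175260, chkVF cert v = true :=
    cover_step h57 (chkRangeF_spec (c := cert) 175030 230 kF_175030) rfl
  have h59 : ∀ v < 175490, chkVF cert v = true :=
    cover_step h58 (chkRangeF_spec (c := cert) 175260 230 kF_175260) rfl
  have h60 : ∀ v < 175720, chkVF cert v = true :=
    cover_step h59 (chkRangeF_spec (c := cert) 175490 230 kF_175490) rfl
  have h61 : ∀ v < 175950, chkVF cert v = true :=
    cover_step h60 (chkRangeF_spec (c := cert) 175720 230 kF_175720) rfl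
  have h62 : ∀ v < 176180, chkVF cert v = true :=
    cover_step h61 (chkRangeF_spec (c := cert) 175950 230 kF_175950) rfl
  have h63 : ∀ v < 176410, chkVF cert v = true :=
    cover_step h62 (chkRangeF_spec (c := cert) 176180 230 kF_176180) rfl
  have h64 : ∀ v < 176640, chkVF cert v = true :=
    cover_step h63 (chkRangeF_spec (c := cert) 176410 230 kF_176410) rfl
  exact h64

theorem allF_12 : ∀ v < 191360, chkVF cert v = true := by
  have h0 := allF_11
  have h1 : ∀ v < 176870, chkVF cert v = true :=
    cover_step h0 (chkRangeF_spec (c := cert) 176640 230 kF_176640) rfl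
  have h2 : ∀ v < 177100, chkVF cert v = true :=
    cover_step h1 (chkRangeF_spec (c := cert) 176870 230 kF_176870) rfl
  have h3 : ∀ v < 177330, chkVF cert v = true :=
    cover_step h2 (chkRangeF_spec (c := cert) 177100 230 kF_177100) rfl
  have h4 : ∀ v < 177560, chkVF cert v = true :=
    cover_step h3 (chkRangeF_spec (c := cert) 177330 230 kF_177330) rfl
  have h5 : ∀ v < 177790, chkVF cert v = true :=
    cover_step h4 (chkRangeF_spec (c := cert) 177560 230 kF_177560) rfl
  have h6 : ∀ v < 178020, chkVF cert v = true :=
    cover_step h5 (chkRangeF_spec (c := cert) 177790 230 kF_177790) rfl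
  have h7 : ∀ v < 178250, chkVF cert v = true :=
    cover_step h6 (chkRangeF_spec (c := cert) 178020 230 kF_178020) rfl
  have h8 : ∀ v < 178480, chkVF cert v = true :=
    cover_step h7 (chkRangeF_spec (c := cert) 178250 230 kF_178250) rfl
  have h9 : ∀ v < 178710, chkVF cert v = true :=
    cover_step h8 (chkRangeF_spec (c := cert) 178480 230 kF_178480) rfl
  have h10 : ∀ v < 178940, chkVF cert v = true :=
    cover_step h9 (chkRangeF_spec (c := cert) 178710 230 kF_178710) rfl
  have h11 : ∀ v < 179170, chkVF cert v = true :=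
    cover_step h10 (chkRangeF_spec (c := cert) 178940 230 kF_178940) rfl
  have h12 : ∀ v < 179400, chkVF cert v = true :=
    cover_step h11 (chkRangeF_spec (c := cert) 179170 230 kF_179170) rfl
  have h13 : ∀ v < 179630, chkVF cert v = true :=
    cover_step h12 (chkRangeF_spec (c := cert) 179400 230 kF_179400) rfl
  have h14 : ∀ v < 179860, chkVF cert v = true :=
    cover_step h13 (chkRangeF_spec (c := cert) 179630 230 kF_179630) rfl
  have h15 : ∀ v < 180090, chkVF cert v = true :=
    cover_step h14 (chkRangeF_spec (c := cert) 179860 230 kF_179860) rfl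
  have h16 : ∀ v < 180320, chkVF cert v = true :=
    cover_step h15 (chkRangeF_spec (c := cert) 180090 230 kF_180090) rfl
  have h17 : ∀ v < 180550, chkVF cert v = true :=
    cover_step h16 (chkRangeF_spec (c := cert) 180320 230 kF_180320) rfl
  have h18 : ∀ v < 180780, chkVF cert v = true :=
    cover_step h17 (chkRangeF_spec (c := cert) 180550 230 kF_180550) rfl
  have h19 : ∀ v < 181010, chkVF cert v = true :=
    cover_step h18 (chkRangeF_spec (c := cert) 180780 230 kF_180780) rfl
  have h20 : ∀ v < 181240, chkVF cert v = true :=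
    cover_step h19 (chkRangeF_spec (c := cert) 181010 230 kF_181010) rfl
  have h21 : ∀ v < 181470, chkVF cert v = true :=
    cover_step h20 (chkRangeF_spec (c := cert) 181240 230 kF_181240) rfl
  have h22 : ∀ v < 181700, chkVF cert v = true :=
    cover_step h21 (chkRangeF_spec (c := cert) 181470 230 kF_181470) rfl
  have h23 : ∀ v < 181930, chkVF cert v = true :=
    cover_step h22 (chkRangeF_spec (c := cert) 181700 230 kF_181700) rfl
  have h24 : ∀ v < 182160, chkVF cert v = true :=
    cover_step h23 (chkRangeF_spec (c := cert) 181930 230 kF_181930) rfl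
  have h25 : ∀ v < 182390, chkVF cert v = true :=
    cover_step h24 (chkRangeF_spec (c := cert) 182160 230 kF_182160) rfl
  have h26 : ∀ v < 182620, chkVF cert v = true :=
    cover_step h25 (chkRangeF_spec (c := cert) 182390 230 kF_182390) rfl
  have h27 : ∀ v < 182850, chkVF cert v = true :=
    cover_step h26 (chkRangeF_spec (c := cert) 182620 230 kF_182620) rfl
  have h28 : ∀ v < 183080, chkVF cert v = true :=
    cover_step h27 (chkRangeF_spec (c := cert) 182850 230 kF_182850) rfl
  have h29 : ∀ v < 183310, chkVF cert v = true :=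
    cover_step h28 (chkRangeF_spec (c := cert) 183080 230 kF_183080) rfl
  have h30 : ∀ v < 183540, chkVF cert v = true :=
    cover_step h29 (chkRangeF_spec (c := cert) 183310 230 kF_183310) rfl
  have h31 : ∀ v < 183770, chkVF cert v = true :=
    cover_step h30 (chkRangeF_spec (c := cert) 183540 230 kF_183540) rfl
  have h32 : ∀ v < 184000, chkVF cert v = true :=
    cover_step h31 (chkRangeF_spec (c := cert) 183770 230 kF_183770) rfl
  have h33 : ∀ v < 184230, chkVF cert v = true :=
    cover_step h32 (chkRangeF_spec (c := cert) 184000 230 kF_184000) rfl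
  have h34 : ∀ v < 184460, chkVF cert v = true :=
    cover_step h33 (chkRangeF_spec (c := cert) 184230 230 kF_184230) rfl
  have h35 : ∀ v < 184690, chkVF cert v = true :=
    cover_step h34 (chkRangeF_spec (c := cert) 184460 230 kF_184460) rfl
  have h36 : ∀ v < 184920, chkVF cert v = true :=
    cover_step h35 (chkRangeF_spec (c := cert) 184690 230 kF_184690) rfl
  have h37 : ∀ v < 185150, chkVF cert v = true :=
    cover_step h36 (chkRangeF_spec (c := cert) 184920 230 kF_184920) rfl
  have h38 : ∀ v < 185380, chkVF cert v = true :=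
    cover_step h37 (chkRangeF_spec (c := cert) 185150 230 kF_185150) rfl
  have h39 : ∀ v < 185610, chkVF cert v = true :=
    cover_step h38 (chkRangeF_spec (c := cert) 185380 230 kF_185380) rfl
  have h40 : ∀ v < 185840, chkVF cert v = true :=
    cover_step h39 (chkRangeF_spec (c := cert) 185610 230 kF_185610) rfl
  have h41 : ∀ v < 186070, chkVF cert v = true :=
    cover_step h40 (chkRangeF_spec (c := cert) 185840 230 kF_185840) rfl
  have h42 : ∀ v < 186300, chkVF cert v = true :=
    cover_step h41 (chkRangeF_spec (c := cert) 186070 230 kF_186070) rfl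
  have h43 : ∀ v < 186530, chkVF cert v = true :=
    cover_step h42 (chkRangeF_spec (c := cert) 186300 230 kF_186300) rfl
  have h44 : ∀ v < 186760, chkVF cert v = true :=
    cover_step h43 (chkRangeF_spec (c := cert) 186530 230 kF_186530) rfl
  have h45 : ∀ v < 186990, chkVF cert v = true :=
    cover_step h44 (chkRangeF_spec (c := cert) 186760 230 kF_186760) rfl
  have h46 : ∀ v < 187220, chkVF cert v = true :=
    cover_step h45 (chkRangeF_spec (c := cert) 186990 230 kF_186990) rfl
  have h47 : ∀ v < 187450, chkVF cert v = true :=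
    cover_step h46 (chkRangeF_spec (c := cert) 187220 230 kF_187220) rfl
  have h48 : ∀ v < 187680, chkVF cert v = true :=
    cover_step h47 (chkRangeF_spec (c := cert) 187450 230 kF_187450) rfl
  have h49 : ∀ v < 187910, chkVF cert v = true :=
    cover_step h48 (chkRangeF_spec (c := cert) 187680 230 kF_187680) rfl
  have h50 : ∀ v < 188140, chkVF cert v = true :=
    cover_step h49 (chkRangeF_spec (c := cert) 187910 230 kF_187910) rfl
  have h51 : ∀ v < 188370, chkVF cert v = true :=
    cover_step h50 (chkRangeF_spec (c := cert) 188140 230 kF_188140) rfl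
  have h52 : ∀ v < 188600, chkVF cert v = true :=
    cover_step h51 (chkRangeF_spec (c := cert) 188370 230 kF_188370) rfl
  have h53 : ∀ v < 188830, chkVF cert v = true :=
    cover_step h52 (chkRangeF_spec (c := cert) 188600 230 kF_188600) rfl
  have h54 : ∀ v < 189060, chkVF cert v = true :=
    cover_step h53 (chkRangeF_spec (c := cert) 188830 230 kF_188830) rfl
  have h55 : ∀ v < 189290, chkVF cert v = true :=
    cover_step h54 (chkRangeF_spec (c := cert) 189060 230 kF_189060) rfl
  have h56 : ∀ v < 189520, chkVF cert v = true :=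
    cover_step h55 (chkRangeF_spec (c := cert) 189290 230 kF_189290) rfl
  have h57 : ∀ v < 189750, chkVF cert v = true :=
    cover_step h56 (chkRangeF_spec (c := cert) 189520 230 kF_189520) rfl
  have h58 : ∀ v < 189980, chkVF cert v = true :=
    cover_step h57 (chkRangeF_spec (c := cert) 189750 230 kF_189750) rfl
  have h59 : ∀ v < 190210, chkVF cert v = true :=
    cover_step h58 (chkRangeF_spec (c := cert) 189980 230 kF_189980) rfl
  have h60 : ∀ v < 190440, chkVF cert v = true :=
    cover_step h59 (chkRangeF_spec (c := cert) 190210 230 kF_190210) rfl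
  have h61 : ∀ v < 190670, chkVF cert v = true :=
    cover_step h60 (chkRangeF_spec (c := cert) 190440 230 kF_190440) rfl
  have h62 : ∀ v < 190900, chkVF cert v = true :=
    cover_step h61 (chkRangeF_spec (c := cert) 190670 230 kF_190670) rfl
  have h63 : ∀ v < 191130, chkVF cert v = true :=
    cover_step h62 (chkRangeF_spec (c := cert) 190900 230 kF_190900) rfl
  have h64 : ∀ v < 191360, chkVF cert v = true :=
    cover_step h63 (chkRangeF_spec (c := cert) 191130 230 kF_191130) rfl
  exact h64

theorem allF_13 : ∀ v < 206080, chkVF cert v = true := by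
  have h0 := allF_12
  have h1 : ∀ v < 191590, chkVF cert v = true :=
    cover_step h0 (chkRangeF_spec (c := cert) 191360 230 kF_191360) rfl
  have h2 : ∀ v < 191820, chkVF cert v = true :=
    cover_step h1 (chkRangeF_spec (c := cert) 191590 230 kF_191590) rfl
  have h3 : ∀ v < 192050, chkVF cert v = true :=
    cover_step h2 (chkRangeF_spec (c := cert) 191820 230 kF_191820) rfl
  have h4 : ∀ v < 192280, chkVF cert v = true :=
    cover_step h3 (chkRangeF_spec (c := cert) 192050 230 kF_192050) rfl
  have h5 : ∀ v < 192510, chkVF cert v = true :=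
    cover_step h4 (chkRangeF_spec (c := cert) 192280 230 kF_192280) rfl
  have h6 : ∀ v < 192740, chkVF cert v = true :=
    cover_step h5 (chkRangeF_spec (c := cert) 192510 230 kF_192510) rfl
  have h7 : ∀ v < 192970, chkVF cert v = true :=
    cover_step h6 (chkRangeF_spec (c := cert) 192740 230 kF_192740) rfl
  have h8 : ∀ v < 193200, chkVF cert v = true :=
    cover_step h7 (chkRangeF_spec (c := cert) 192970 230 kF_192970) rfl
  have h9 : ∀ v < 193430, chkVF cert v = true :=
    cover_step h8 (chkRangeF_spec (c := cert) 193200 230 kF_193200) rfl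
  have h10 : ∀ v < 193660, chkVF cert v = true :=
    cover_step h9 (chkRangeF_spec (c := cert) 193430 230 kF_193430) rfl
  have h11 : ∀ v < 193890, chkVF cert v = true :=
    cover_step h10 (chkRangeF_spec (c := cert) 193660 230 kF_193660) rfl
  have h12 : ∀ v < 194120, chkVF cert v = true :=
    cover_step h11 (chkRangeF_spec (c := cert) 193890 230 kF_193890) rfl
  have h13 : ∀ v < 194350, chkVF cert v = true :=
    cover_step h12 (chkRangeF_spec (c := cert) 194120 230 kF_194120) rfl
  have h14 : ∀ v < 194580, chkVF cert v = true :=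
    cover_step h13 (chkRangeF_spec (c := cert) 194350 230 kF_194350) rfl
  have h15 : ∀ v < 194810, chkVF cert v = true :=
    cover_step h14 (chkRangeF_spec (c := cert) 194580 230 kF_194580) rfl
  have h16 : ∀ v < 195040, chkVF cert v = true :=
    cover_step h15 (chkRangeF_spec (c := cert) 194810 230 kF_194810) rfl
  have h17 : ∀ v < 195270, chkVF cert v = true :=
    cover_step h16 (chkRangeF_spec (c := cert) 195040 230 kF_195040) rfl
  have h18 : ∀ v < 195500, chkVF cert v = true :=
    cover_step h17 (chkRangeF_spec (c := cert) 195270 230 kF_195270) rfl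
  have h19 : ∀ v < 195730, chkVF cert v = true :=
    cover_step h18 (chkRangeF_spec (c := cert) 195500 230 kF_195500) rfl
  have h20 : ∀ v < 195960, chkVF cert v = true :=
    cover_step h19 (chkRangeF_spec (c := cert) 195730 230 kF_195730) rfl
  have h21 : ∀ v < 196190, chkVF cert v = true :=
    cover_step h20 (chkRangeF_spec (c := cert) 195960 230 kF_195960) rfl
  have h22 : ∀ v < 196420, chkVF cert v = true :=
    cover_step h21 (chkRangeF_spec (c := cert) 196190 230 kF_196190) rfl
  have h23 : ∀ v < 196650, chkVF cert v = true :=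
    cover_step h22 (chkRangeF_spec (c := cert) 196420 230 kF_196420) rfl
  have h24 : ∀ v < 196880, chkVF cert v = true :=
    cover_step h23 (chkRangeF_spec (c := cert) 196650 230 kF_196650) rfl
  have h25 : ∀ v < 197110, chkVF cert v = true :=
    cover_step h24 (chkRangeF_spec (c := cert) 196880 230 kF_196880) rfl
  have h26 : ∀ v < 197340, chkVF cert v = true :=
    cover_step h25 (chkRangeF_spec (c := cert) 197110 230 kF_197110) rfl
  have h27 : ∀ v < 197570, chkVF cert v = true :=
    cover_step h26 (chkRangeF_spec (c := cert) 197340 230 kF_197340) rfl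
  have h28 : ∀ v < 197800, chkVF cert v = true :=
    cover_step h27 (chkRangeF_spec (c := cert) 197570 230 kF_197570) rfl
  have h29 : ∀ v < 198030, chkVF cert v = true :=
    cover_step h28 (chkRangeF_spec (c := cert) 197800 230 kF_197800) rfl
  have h30 : ∀ v < 198260, chkVF cert v = true :=
    cover_step h29 (chkRangeF_spec (c := cert) 198030 230 kF_198030) rfl
  have h31 : ∀ v < 198490, chkVF cert v = true :=
    cover_step h30 (chkRangeF_spec (c := cert) 198260 230 kF_198260) rfl
  have h32 : ∀ v < 198720, chkVF cert v = true :=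
    cover_step h31 (chkRangeF_spec (c := cert) 198490 230 kF_198490) rfl
  have h33 : ∀ v < 198950, chkVF cert v = true :=
    cover_step h32 (chkRangeF_spec (c := cert) 198720 230 kF_198720) rfl
  have h34 : ∀ v < 199180, chkVF cert v = true :=
    cover_step h33 (chkRangeF_spec (c := cert) 198950 230 kF_198950) rfl
  have h35 : ∀ v < 199410, chkVF cert v = true :=
    cover_step h34 (chkRangeF_spec (c := cert) 199180 230 kF_199180) rfl
  have h36 : ∀ v < 199640, chkVF cert v = true :=
    cover_step h35 (chkRangeF_spec (c := cert) 199410 230 kF_199410) rfl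
  have h37 : ∀ v < 199870, chkVF cert v = true :=
    cover_step h36 (chkRangeF_spec (c := cert) 199640 230 kF_199640) rfl
  have h38 : ∀ v < 200100, chkVF cert v = true :=
    cover_step h37 (chkRangeF_spec (c := cert) 199870 230 kF_199870) rfl
  have h39 : ∀ v < 200330, chkVF cert v = true :=
    cover_step h38 (chkRangeF_spec (c := cert) 200100 230 kF_200100) rfl
  have h40 : ∀ v < 200560, chkVF cert v = true :=
    cover_step h39 (chkRangeF_spec (c := cert) 200330 230 kF_200330) rfl
  have h41 : ∀ v < 200790, chkVF cert v = true :=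
    cover_step h40 (chkRangeF_spec (c := cert) 200560 230 kF_200560) rfl
  have h42 : ∀ v < 201020, chkVF cert v = true :=
    cover_step h41 (chkRangeF_spec (c := cert) 200790 230 kF_200790) rfl
  have h43 : ∀ v < 201250, chkVF cert v = true :=
    cover_step h42 (chkRangeF_spec (c := cert) 201020 230 kF_201020) rfl
  have h44 : ∀ v < 201480, chkVF cert v = true :=
    cover_step h43 (chkRangeF_spec (c := cert) 201250 230 kF_201250) rfl
  have h45 : ∀ v < 201710, chkVF cert v = true :=
    cover_step h44 (chkRangeF_spec (c := cert) 201480 230 kF_201480) rfl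
  have h46 : ∀ v < 201940, chkVF cert v = true :=
    cover_step h45 (chkRangeF_spec (c := cert) 201710 230 kF_201710) rfl
  have h47 : ∀ v < 202170, chkVF cert v = true :=
    cover_step h46 (chkRangeF_spec (c := cert) 201940 230 kF_201940) rfl
  have h48 : ∀ v < 202400, chkVF cert v = true :=
    cover_step h47 (chkRangeF_spec (c := cert) 202170 230 kF_202170) rfl
  have h49 : ∀ v < 202630, chkVF cert v = true :=
    cover_step h48 (chkRangeF_spec (c := cert) 202400 230 kF_202400) rfl
  have h50 : ∀ v < 202860, chkVF cert v = true :=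
    cover_step h49 (chkRangeF_spec (c := cert) 202630 230 kF_202630) rfl
  have h51 : ∀ v < 203090, chkVF cert v = true :=
    cover_step h50 (chkRangeF_spec (c := cert) 202860 230 kF_202860) rfl
  have h52 : ∀ v < 203320, chkVF cert v = true :=
    cover_step h51 (chkRangeF_spec (c := cert) 203090 230 kF_203090) rfl
  have h53 : ∀ v < 203550, chkVF cert v = true :=
    cover_step h52 (chkRangeF_spec (c := cert) 203320 230 kF_203320) rfl
  have h54 : ∀ v < 203780, chkVF cert v = true :=
    cover_step h53 (chkRangeF_spec (c := cert) 203550 230 kF_203550) rfl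
  have h55 : ∀ v < 204010, chkVF cert v = true :=
    cover_step h54 (chkRangeF_spec (c := cert) 203780 230 kF_203780) rfl
  have h56 : ∀ v < 204240, chkVF cert v = true :=
    cover_step h55 (chkRangeF_spec (c := cert) 204010 230 kF_204010) rfl
  have h57 : ∀ v < 204470, chkVF cert v = true :=
    cover_step h56 (chkRangeF_spec (c := cert) 204240 230 kF_204240) rfl
  have h58 : ∀ v < 204700, chkVF cert v = true :=
    cover_step h57 (chkRangeF_spec (c := cert) 204470 230 kF_204470) rfl
  have h59 : ∀ v < 204930, chkVF cert v = true :=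
    cover_step h58 (chkRangeF_spec (c := cert) 204700 230 kF_204700) rfl
  have h60 : ∀ v < 205160, chkVF cert v = true :=
    cover_step h59 (chkRangeF_spec (c := cert) 204930 230 kF_204930) rfl
  have h61 : ∀ v < 205390, chkVF cert v = true :=
    cover_step h60 (chkRangeF_spec (c := cert) 205160 230 kF_205160) rfl
  have h62 : ∀ v < 205620, chkVF cert v = true :=
    cover_step h61 (chkRangeF_spec (c := cert) 205390 230 kF_205390) rfl
  have h63 : ∀ v < 205850, chkVF cert v = true :=
    cover_step h62 (chkRangeF_spec (c := cert) 205620 230 kF_205620) rfl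
  have h64 : ∀ v < 206080, chkVF cert v = true :=
    cover_step h63 (chkRangeF_spec (c := cert) 205850 230 kF_205850) rfl
  exact h64

theorem allF_14 : ∀ v < 220800, chkVF cert v = true := by
  have h0 := allF_13
  have h1 : ∀ v < 206310, chkVF cert v = true :=
    cover_step h0 (chkRangeF_spec (c := cert) 206080 230 kF_206080) rfl
  have h2 : ∀ v < 206540, chkVF cert v = true :=
    cover_step h1 (chkRangeF_spec (c := cert) 206310 230 kF_206310) rfl
  have h3 : ∀ v < 206770, chkVF cert v = true :=
    cover_step h2 (chkRangeF_spec (c := cert) 206540 230 kF_206540) rfl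
  have h4 : ∀ v < 207000, chkVF cert v = true :=
    cover_step h3 (chkRangeF_spec (c := cert) 206770 230 kF_206770) rfl
  have h5 : ∀ v < 207230, chkVF cert v = true :=
    cover_step h4 (chkRangeF_spec (c := cert) 207000 230 kF_207000) rfl
  have h6 : ∀ v < 207460, chkVF cert v = true :=
    cover_step h5 (chkRangeF_spec (c := cert) 207230 230 kF_207230) rfl
  have h7 : ∀ v < 207690, chkVF cert v = true :=
    cover_step h6 (chkRangeF_spec (c := cert) 207460 230 kF_207460) rfl
  have h8 : ∀ v < 207920, chkVF cert v = true :=
    cover_step h7 (chkRangeF_spec (c := cert) 207690 230 kF_207690) rfl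
  have h9 : ∀ v < 208150, chkVF cert v = true :=
    cover_step h8 (chkRangeF_spec (c := cert) 207920 230 kF_207920) rfl
  have h10 : ∀ v < 208380, chkVF cert v = true :=
    cover_step h9 (chkRangeF_spec (c := cert) 208150 230 kF_208150) rfl
  have h11 : ∀ v < 208610, chkVF cert v = true :=
    cover_step h10 (chkRangeF_spec (c := cert) 208380 230 kF_208380) rfl
  have h12 : ∀ v < 208840, chkVF cert v = true :=
    cover_step h11 (chkRangeF_spec (c := cert) 208610 230 kF_208610) rfl
  have h13 : ∀ v < 209070, chkVF cert v = true :=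
    cover_step h12 (chkRangeF_spec (c := cert) 208840 230 kF_208840) rfl
  have h14 : ∀ v < 209300, chkVF cert v = true :=
    cover_step h13 (chkRangeF_spec (c := cert) 209070 230 kF_209070) rfl
  have h15 : ∀ v < 209530, chkVF cert v = true :=
    cover_step h14 (chkRangeF_spec (c := cert) 209300 230 kF_209300) rfl
  have h16 : ∀ v < 209760, chkVF cert v = true :=
    cover_step h15 (chkRangeF_spec (c := cert) 209530 230 kF_209530) rfl
  have h17 : ∀ v < 209990, chkVF cert v = true :=
    cover_step h16 (chkRangeF_spec (c := cert) 209760 230 kF_209760) rfl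
  have h18 : ∀ v < 210220, chkVF cert v = true :=
    cover_step h17 (chkRangeF_spec (c := cert) 209990 230 kF_209990) rfl
  have h19 : ∀ v < 210450, chkVF cert v = true :=
    cover_step h18 (chkRangeF_spec (c := cert) 210220 230 kF_210220) rfl
  have h20 : ∀ v < 210680, chkVF cert v = true :=
    cover_step h19 (chkRangeF_spec (c := cert) 210450 230 kF_210450) rfl
  have h21 : ∀ v < 210910, chkVF cert v = true :=
    cover_step h20 (chkRangeF_spec (c := cert) 210680 230 kF_210680) rfl
  have h22 : ∀ v < 211140, chkVF cert v = true :=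
    cover_step h21 (chkRangeF_spec (c := cert) 210910 230 kF_210910) rfl
  have h23 : ∀ v < 211370, chkVF cert v = true :=
    cover_step h22 (chkRangeF_spec (c := cert) 211140 230 kF_211140) rfl
  have h24 : ∀ v < 211600, chkVF cert v = true :=
    cover_step h23 (chkRangeF_spec (c := cert) 211370 230 kF_211370) rfl
  have h25 : ∀ v < 211830, chkVF cert v = true :=
    cover_step h24 (chkRangeF_spec (c := cert) 211600 230 kF_211600) rfl
  have h26 : ∀ v < 212060, chkVF cert v = true :=
    cover_step h25 (chkRangeF_spec (c := cert) 211830 230 kF_211830) rfl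
  have h27 : ∀ v < 212290, chkVF cert v = true :=
    cover_step h26 (chkRangeF_spec (c := cert) 212060 230 kF_212060) rfl
  have h28 : ∀ v < 212520, chkVF cert v = true :=
    cover_step h27 (chkRangeF_spec (c := cert) 212290 230 kF_212290) rfl
  have h29 : ∀ v < 212750, chkVF cert v = true :=
    cover_step h28 (chkRangeF_spec (c := cert) 212520 230 kF_212520) rfl
  have h30 : ∀ v < 212980, chkVF cert v = true :=
    cover_step h29 (chkRangeF_spec (c := cert) 212750 230 kF_212750) rfl
  have h31 : ∀ v < 213210, chkVF cert v = true :=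
    cover_step h30 (chkRangeF_spec (c := cert) 212980 230 kF_212980) rfl
  have h32 : ∀ v < 213440, chkVF cert v = true :=
    cover_step h31 (chkRangeF_spec (c := cert) 213210 230 kF_213210) rfl
  have h33 : ∀ v < 213670, chkVF cert v = true :=
    cover_step h32 (chkRangeF_spec (c := cert) 213440 230 kF_213440) rfl
  have h34 : ∀ v < 213900, chkVF cert v = true :=
    cover_step h33 (chkRangeF_spec (c := cert) 213670 230 kF_213670) rfl
  have h35 : ∀ v < 214130, chkVF cert v = true :=
    cover_step h34 (chkRangeF_spec (c := cert) 213900 230 kF_213900) rfl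
  have h36 : ∀ v < 214360, chkVF cert v = true :=
    cover_step h35 (chkRangeF_spec (c := cert) 214130 230 kF_214130) rfl
  have h37 : ∀ v < 214590, chkVF cert v = true :=
    cover_step h36 (chkRangeF_spec (c := cert) 214360 230 kF_214360) rfl
  have h38 : ∀ v < 214820, chkVF cert v = true :=
    cover_step h37 (chkRangeF_spec (c := cert) 214590 230 kF_214590) rfl
  have h39 : ∀ v < 215050, chkVF cert v = true :=
    cover_step h38 (chkRangeF_spec (c := cert) 214820 230 kF_214820) rfl
  have h40 : ∀ v < 215280, chkVF cert v = true :=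
    cover_step h39 (chkRangeF_spec (c := cert) 215050 230 kF_215050) rfl
  have h41 : ∀ v < 215510, chkVF cert v = true :=
    cover_step h40 (chkRangeF_spec (c := cert) 215280 230 kF_215280) rfl
  have h42 : ∀ v < 215740, chkVF cert v = true :=
    cover_step h41 (chkRangeF_spec (c := cert) 215510 230 kF_215510) rfl
  have h43 : ∀ v < 215970, chkVF cert v = true :=
    cover_step h42 (chkRangeF_spec (c := cert) 215740 230 kF_215740) rfl
  have h44 : ∀ v < 216200, chkVF cert v = true :=
    cover_step h43 (chkRangeF_spec (c := cert) 215970 230 kF_215970) rfl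
  have h45 : ∀ v < 216430, chkVF cert v = true :=
    cover_step h44 (chkRangeF_spec (c := cert) 216200 230 kF_216200) rfl
  have h46 : ∀ v < 216660, chkVF cert v = true :=
    cover_step h45 (chkRangeF_spec (c := cert) 216430 230 kF_216430) rfl
  have h47 : ∀ v < 216890, chkVF cert v = true :=
    cover_step h46 (chkRangeF_spec (c := cert) 216660 230 kF_216660) rfl
  have h48 : ∀ v < 217120, chkVF cert v = true :=
    cover_step h47 (chkRangeF_spec (c := cert) 216890 230 kF_216890) rfl
  have h49 : ∀ v < 217350, chkVF cert v = true :=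
    cover_step h48 (chkRangeF_spec (c := cert) 217120 230 kF_217120) rfl
  have h50 : ∀ v < 217580, chkVF cert v = true :=
    cover_step h49 (chkRangeF_spec (c := cert) 217350 230 kF_217350) rfl
  have h51 : ∀ v < 217810, chkVF cert v = true :=
    cover_step h50 (chkRangeF_spec (c := cert) 217580 230 kF_217580) rfl
  have h52 : ∀ v < 218040, chkVF cert v = true :=
    cover_step h51 (chkRangeF_spec (c := cert) 217810 230 kF_217810) rfl
  have h53 : ∀ v < 218270, chkVF cert v = true :=
    cover_step h52 (chkRangeF_spec (c := cert) 218040 230 kF_218040) rfl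
  have h54 : ∀ v < 218500, chkVF cert v = true :=
    cover_step h53 (chkRangeF_spec (c := cert) 218270 230 kF_218270) rfl
  have h55 : ∀ v < 218730, chkVF cert v = true :=
    cover_step h54 (chkRangeF_spec (c := cert) 218500 230 kF_218500) rfl
  have h56 : ∀ v < 218960, chkVF cert v = true :=
    cover_step h55 (chkRangeF_spec (c := cert) 218730 230 kF_218730) rfl
  have h57 : ∀ v < 219190, chkVF cert v = true :=
    cover_step h56 (chkRangeF_spec (c := cert) 218960 230 kF_218960) rfl
  have h58 : ∀ v < 219420, chkVF cert v = true :=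
    cover_step h57 (chkRangeF_spec (c := cert) 219190 230 kF_219190) rfl
  have h59 : ∀ v < 219650, chkVF cert v = true :=
    cover_step h58 (chkRangeF_spec (c := cert) 219420 230 kF_219420) rfl
  have h60 : ∀ v < 219880, chkVF cert v = true :=
    cover_step h59 (chkRangeF_spec (c := cert) 219650 230 kF_219650) rfl
  have h61 : ∀ v < 220110, chkVF cert v = true :=
    cover_step h60 (chkRangeF_spec (c := cert) 219880 230 kF_219880) rfl
  have h62 : ∀ v < 220340, chkVF cert v = true :=
    cover_step h61 (chkRangeF_spec (c := cert) 220110 230 kF_220110) rfl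
  have h63 : ∀ v < 220570, chkVF cert v = true :=
    cover_step h62 (chkRangeF_spec (c := cert) 220340 230 kF_220340) rfl
  have h64 : ∀ v < 220800, chkVF cert v = true :=
    cover_step h63 (chkRangeF_spec (c := cert) 220570 230 kF_220570) rfl
  exact h64

theorem allF_15 : ∀ v < 235520, chkVF cert v = true := by
  have h0 := allF_14
  have h1 : ∀ v < 221030, chkVF cert v = true :=
    cover_step h0 (chkRangeF_spec (c := cert) 220800 230 kF_220800) rfl
  have h2 : ∀ v < 221260, chkVF cert v = true :=
    cover_step h1 (chkRangeF_spec (c := cert) 221030 230 kF_221030) rfl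
  have h3 : ∀ v < 221490, chkVF cert v = true :=
    cover_step h2 (chkRangeF_spec (c := cert) 221260 230 kF_221260) rfl
  have h4 : ∀ v < 221720, chkVF cert v = true :=
    cover_step h3 (chkRangeF_spec (c := cert) 221490 230 kF_221490) rfl
  have h5 : ∀ v < 221950, chkVF cert v = true :=
    cover_step h4 (chkRangeF_spec (c := cert) 221720 230 kF_221720) rfl
  have h6 : ∀ v < 222180, chkVF cert v = true :=
    cover_step h5 (chkRangeF_spec (c := cert) 221950 230 kF_221950) rfl
  have h7 : ∀ v < 222410, chkVF cert v = true :=
    cover_step h6 (chkRangeF_spec (c := cert) 222180 230 kF_222180) rfl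
  have h8 : ∀ v < 222640, chkVF cert v = true :=
    cover_step h7 (chkRangeF_spec (c := cert) 222410 230 kF_222410) rfl
  have h9 : ∀ v < 222870, chkVF cert v = true :=
    cover_step h8 (chkRangeF_spec (c := cert) 222640 230 kF_222640) rfl
  have h10 : ∀ v < 223100, chkVF cert v = true :=
    cover_step h9 (chkRangeF_spec (c := cert) 222870 230 kF_222870) rfl
  have h11 : ∀ v < 223330, chkVF cert v = true :=
    cover_step h10 (chkRangeF_spec (c := cert) 223100 230 kF_223100) rfl
  have h12 : ∀ v < 223560, chkVF cert v = true :=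
    cover_step h11 (chkRangeF_spec (c := cert) 223330 230 kF_223330) rfl
  have h13 : ∀ v < 223790, chkVF cert v = true :=
    cover_step h12 (chkRangeF_spec (c := cert) 223560 230 kF_223560) rfl
  have h14 : ∀ v < 224020, chkVF cert v = true :=
    cover_step h13 (chkRangeF_spec (c := cert) 223790 230 kF_223790) rfl
  have h15 : ∀ v < 224250, chkVF cert v = true :=
    cover_step h14 (chkRangeF_spec (c := cert) 224020 230 kF_224020) rfl
  have h16 : ∀ v < 224480, chkVF cert v = true :=
    cover_step h15 (chkRangeF_spec (c := cert) 224250 230 kF_224250) rfl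
  have h17 : ∀ v < 224710, chkVF cert v = true :=
    cover_step h16 (chkRangeF_spec (c := cert) 224480 230 kF_224480) rfl
  have h18 : ∀ v < 224940, chkVF cert v = true :=
    cover_step h17 (chkRangeF_spec (c := cert) 224710 230 kF_224710) rfl
  have h19 : ∀ v < 225170, chkVF cert v = true :=
    cover_step h18 (chkRangeF_spec (c := cert) 224940 230 kF_224940) rfl
  have h20 : ∀ v < 225400, chkVF cert v = true :=
    cover_step h19 (chkRangeF_spec (c := cert) 225170 230 kF_225170) rfl
  have h21 : ∀ v < 225630, chkVF cert v = true :=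
    cover_step h20 (chkRangeF_spec (c := cert) 225400 230 kF_225400) rfl
  have h22 : ∀ v < 225860, chkVF cert v = true :=
    cover_step h21 (chkRangeF_spec (c := cert) 225630 230 kF_225630) rfl
  have h23 : ∀ v < 226090, chkVF cert v = true :=
    cover_step h22 (chkRangeF_spec (c := cert) 225860 230 kF_225860) rfl
  have h24 : ∀ v < 226320, chkVF cert v = true :=
    cover_step h23 (chkRangeF_spec (c := cert) 226090 230 kF_226090) rfl
  have h25 : ∀ v < 226550, chkVF cert v = true :=
    cover_step h24 (chkRangeF_spec (c := cert) 226320 230 kF_226320) rfl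
  have h26 : ∀ v < 226780, chkVF cert v = true :=
    cover_step h25 (chkRangeF_spec (c := cert) 226550 230 kF_226550) rfl
  have h27 : ∀ v < 227010, chkVF cert v = true :=
    cover_step h26 (chkRangeF_spec (c := cert) 226780 230 kF_226780) rfl
  have h28 : ∀ v < 227240, chkVF cert v = true :=
    cover_step h27 (chkRangeF_spec (c := cert) 227010 230 kF_227010) rfl
  have h29 : ∀ v < 227470, chkVF cert v = true :=
    cover_step h28 (chkRangeF_spec (c := cert) 227240 230 kF_227240) rfl
  have h30 : ∀ v < 227700, chkVF cert v = true :=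
    cover_step h29 (chkRangeF_spec (c := cert) 227470 230 kF_227470) rfl
  have h31 : ∀ v < 227930, chkVF cert v = true :=
    cover_step h30 (chkRangeF_spec (c := cert) 227700 230 kF_227700) rfl
  have h32 : ∀ v < 228160, chkVF cert v = true :=
    cover_step h31 (chkRangeF_spec (c := cert) 227930 230 kF_227930) rfl
  have h33 : ∀ v < 228390, chkVF cert v = true :=
    cover_step h32 (chkRangeF_spec (c := cert) 228160 230 kF_228160) rfl
  have h34 : ∀ v < 228620, chkVF cert v = true :=
    cover_step h33 (chkRangeF_spec (c := cert) 228390 230 kF_228390) rfl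
  have h35 : ∀ v < 228850, chkVF cert v = true :=
    cover_step h34 (chkRangeF_spec (c := cert) 228620 230 kF_228620) rfl
  have h36 : ∀ v < 229080, chkVF cert v = true :=
    cover_step h35 (chkRangeF_spec (c := cert) 228850 230 kF_228850) rfl
  have h37 : ∀ v < 229310, chkVF cert v = true :=
    cover_step h36 (chkRangeF_spec (c := cert) 229080 230 kF_229080) rfl
  have h38 : ∀ v < 229540, chkVF cert v = true :=
    cover_step h37 (chkRangeF_spec (c := cert) 229310 230 kF_229310) rfl
  have h39 : ∀ v < 229770, chkVF cert v = true :=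
    cover_step h38 (chkRangeF_spec (c := cert) 229540 230 kF_229540) rfl
  have h40 : ∀ v < 230000, chkVF cert v = true :=
    cover_step h39 (chkRangeF_spec (c := cert) 229770 230 kF_229770) rfl
  have h41 : ∀ v < 230230, chkVF cert v = true :=
    cover_step h40 (chkRangeF_spec (c := cert) 230000 230 kF_230000) rfl
  have h42 : ∀ v < 230460, chkVF cert v = true :=
    cover_step h41 (chkRangeF_spec (c := cert) 230230 230 kF_230230) rfl
  have h43 : ∀ v < 230690, chkVF cert v = true :=
    cover_step h42 (chkRangeF_spec (c := cert) 230460 230 kF_230460) rfl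
  have h44 : ∀ v < 230920, chkVF cert v = true :=
    cover_step h43 (chkRangeF_spec (c := cert) 230690 230 kF_230690) rfl
  have h45 : ∀ v < 231150, chkVF cert v = true :=
    cover_step h44 (chkRangeF_spec (c := cert) 230920 230 kF_230920) rfl
  have h46 : ∀ v < 231380, chkVF cert v = true :=
    cover_step h45 (chkRangeF_spec (c := cert) 231150 230 kF_231150) rfl
  have h47 : ∀ v < 231610, chkVF cert v = true :=
    cover_step h46 (chkRangeF_spec (c := cert) 231380 230 kF_231380) rfl
  have h48 : ∀ v < 231840, chkVF cert v = true :=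
    cover_step h47 (chkRangeF_spec (c := cert) 231610 230 kF_231610) rfl
  have h49 : ∀ v < 232070, chkVF cert v = true :=
    cover_step h48 (chkRangeF_spec (c := cert) 231840 230 kF_231840) rfl
  have h50 : ∀ v < 232300, chkVF cert v = true :=
    cover_step h49 (chkRangeF_spec (c := cert) 232070 230 kF_232070) rfl
  have h51 : ∀ v < 232530, chkVF cert v = true :=
    cover_step h50 (chkRangeF_spec (c := cert) 232300 230 kF_232300) rfl
  have h52 : ∀ v < 232760, chkVF cert v = true :=
    cover_step h51 (chkRangeF_spec (c := cert) 232530 230 kF_232530) rfl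
  have h53 : ∀ v < 232990, chkVF cert v = true :=
    cover_step h52 (chkRangeF_spec (c := cert) 232760 230 kF_232760) rfl
  have h54 : ∀ v < 233220, chkVF cert v = true :=
    cover_step h53 (chkRangeF_spec (c := cert) 232990 230 kF_232990) rfl
  have h55 : ∀ v < 233450, chkVF cert v = true :=
    cover_step h54 (chkRangeF_spec (c := cert) 233220 230 kF_233220) rfl
  have h56 : ∀ v < 233680, chkVF cert v = true :=
    cover_step h55 (chkRangeF_spec (c := cert) 233450 230 kF_233450) rfl
  have h57 : ∀ v < 233910, chkVF cert v = true :=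
    cover_step h56 (chkRangeF_spec (c := cert) 233680 230 kF_233680) rfl
  have h58 : ∀ v < 234140, chkVF cert v = true :=
    cover_step h57 (chkRangeF_spec (c := cert) 233910 230 kF_233910) rfl
  have h59 : ∀ v < 234370, chkVF cert v = true :=
    cover_step h58 (chkRangeF_spec (c := cert) 234140 230 kF_234140) rfl
  have h60 : ∀ v < 234600, chkVF cert v = true :=
    cover_step h59 (chkRangeF_spec (c := cert) 234370 230 kF_234370) rfl
  have h61 : ∀ v < 234830, chkVF cert v = true :=
    cover_step h60 (chkRangeF_spec (c := cert) 234600 230 kF_234600) rfl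
  have h62 : ∀ v < 235060, chkVF cert v = true :=
    cover_step h61 (chkRangeF_spec (c := cert) 234830 230 kF_234830) rfl
  have h63 : ∀ v < 235290, chkVF cert v = true :=
    cover_step h62 (chkRangeF_spec (c := cert) 235060 230 kF_235060) rfl
  have h64 : ∀ v < 235520, chkVF cert v = true :=
    cover_step h63 (chkRangeF_spec (c := cert) 235290 230 kF_235290) rfl
  exact h64

theorem allF_16 : ∀ v < 250240, chkVF cert v = true := by
  have h0 := allF_15
  have h1 : ∀ v < 235750, chkVF cert v = true :=
    cover_step h0 (chkRangeF_spec (c := cert) 235520 230 kF_235520) rfl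
  have h2 : ∀ v < 235980, chkVF cert v = true :=
    cover_step h1 (chkRangeF_spec (c := cert) 235750 230 kF_235750) rfl
  have h3 : ∀ v < 236210, chkVF cert v = true :=
    cover_step h2 (chkRangeF_spec (c := cert) 235980 230 kF_235980) rfl
  have h4 : ∀ v < 236440, chkVF cert v = true :=
    cover_step h3 (chkRangeF_spec (c := cert) 236210 230 kF_236210) rfl
  have h5 : ∀ v < 236670, chkVF cert v = true :=
    cover_step h4 (chkRangeF_spec (c := cert) 236440 230 kF_236440) rfl
  have h6 : ∀ v < 236900, chkVF cert v = true :=
    cover_step h5 (chkRangeF_spec (c := cert) 236670 230 kF_236670) rfl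
  have h7 : ∀ v < 237130, chkVF cert v = true :=
    cover_step h6 (chkRangeF_spec (c := cert) 236900 230 kF_236900) rfl
  have h8 : ∀ v < 237360, chkVF cert v = true :=
    cover_step h7 (chkRangeF_spec (c := cert) 237130 230 kF_237130) rfl
  have h9 : ∀ v < 237590, chkVF cert v = true :=
    cover_step h8 (chkRangeF_spec (c := cert) 237360 230 kF_237360) rfl
  have h10 : ∀ v < 237820, chkVF cert v = true :=
    cover_step h9 (chkRangeF_spec (c := cert) 237590 230 kF_237590) rfl
  have h11 : ∀ v < 238050, chkVF cert v = true :=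
    cover_step h10 (chkRangeF_spec (c := cert) 237820 230 kF_237820) rfl
  have h12 : ∀ v < 238280, chkVF cert v = true :=
    cover_step h11 (chkRangeF_spec (c := cert) 238050 230 kF_238050) rfl
  have h13 : ∀ v < 238510, chkVF cert v = true :=
    cover_step h12 (chkRangeF_spec (c := cert) 238280 230 kF_238280) rfl
  have h14 : ∀ v < 238740, chkVF cert v = true :=
    cover_step h13 (chkRangeF_spec (c := cert) 238510 230 kF_238510) rfl
  have h15 : ∀ v < 238970, chkVF cert v = true :=
    cover_step h14 (chkRangeF_spec (c := cert) 238740 230 kF_238740) rfl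
  have h16 : ∀ v < 239200, chkVF cert v = true :=
    cover_step h15 (chkRangeF_spec (c := cert) 238970 230 kF_238970) rfl
  have h17 : ∀ v < 239430, chkVF cert v = true :=
    cover_step h16 (chkRangeF_spec (c := cert) 239200 230 kF_239200) rfl
  have h18 : ∀ v < 239660, chkVF cert v = true :=
    cover_step h17 (chkRangeF_spec (c := cert) 239430 230 kF_239430) rfl
  have h19 : ∀ v < 239890, chkVF cert v = true :=
    cover_step h18 (chkRangeF_spec (c := cert) 239660 230 kF_239660) rfl
  have h20 : ∀ v < 240120, chkVF cert v = true :=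
    cover_step h19 (chkRangeF_spec (c := cert) 239890 230 kF_239890) rfl
  have h21 : ∀ v < 240350, chkVF cert v = true :=
    cover_step h20 (chkRangeF_spec (c := cert) 240120 230 kF_240120) rfl
  have h22 : ∀ v < 240580, chkVF cert v = true :=
    cover_step h21 (chkRangeF_spec (c := cert) 240350 230 kF_240350) rfl
  have h23 : ∀ v < 240810, chkVF cert v = true :=
    cover_step h22 (chkRangeF_spec (c := cert) 240580 230 kF_240580) rfl
  have h24 : ∀ v < 241040, chkVF cert v = true :=
    cover_step h23 (chkRangeF_spec (c := cert) 240810 230 kF_240810) rfl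
  have h25 : ∀ v < 241270, chkVF cert v = true :=
    cover_step h24 (chkRangeF_spec (c := cert) 241040 230 kF_241040) rfl
  have h26 : ∀ v < 241500, chkVF cert v = true :=
    cover_step h25 (chkRangeF_spec (c := cert) 241270 230 kF_241270) rfl
  have h27 : ∀ v < 241730, chkVF cert v = true :=
    cover_step h26 (chkRangeF_spec (c := cert) 241500 230 kF_241500) rfl
  have h28 : ∀ v < 241960, chkVF cert v = true :=
    cover_step h27 (chkRangeF_spec (c := cert) 241730 230 kF_241730) rfl
  have h29 : ∀ v < 242190, chkVF cert v = true :=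
    cover_step h28 (chkRangeF_spec (c := cert) 241960 230 kF_241960) rfl
  have h30 : ∀ v < 242420, chkVF cert v = true :=
    cover_step h29 (chkRangeF_spec (c := cert) 242190 230 kF_242190) rfl
  have h31 : ∀ v < 242650, chkVF cert v = true :=
    cover_step h30 (chkRangeF_spec (c := cert) 242420 230 kF_242420) rfl
  have h32 : ∀ v < 242880, chkVF cert v = true :=
    cover_step h31 (chkRangeF_spec (c := cert) 242650 230 kF_242650) rfl
  have h33 : ∀ v < 243110, chkVF cert v = true :=
    cover_step h32 (chkRangeF_spec (c := cert) 242880 230 kF_242880) rfl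
  have h34 : ∀ v < 243340, chkVF cert v = true :=
    cover_step h33 (chkRangeF_spec (c := cert) 243110 230 kF_243110) rfl
  have h35 : ∀ v < 243570, chkVF cert v = true :=
    cover_step h34 (chkRangeF_spec (c := cert) 243340 230 kF_243340) rfl
  have h36 : ∀ v < 243800, chkVF cert v = true :=
    cover_step h35 (chkRangeF_spec (c := cert) 243570 230 kF_243570) rfl
  have h37 : ∀ v < 244030, chkVF cert v = true :=
    cover_step h36 (chkRangeF_spec (c := cert) 243800 230 kF_243800) rfl
  have h38 : ∀ v < 244260, chkVF cert v = true :=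
    cover_step h37 (chkRangeF_spec (c := cert) 244030 230 kF_244030) rfl
  have h39 : ∀ v < 244490, chkVF cert v = true :=
    cover_step h38 (chkRangeF_spec (c := cert) 244260 230 kF_244260) rfl
  have h40 : ∀ v < 244720, chkVF cert v = true :=
    cover_step h39 (chkRangeF_spec (c := cert) 244490 230 kF_244490) rfl
  have h41 : ∀ v < 244950, chkVF cert v = true :=
    cover_step h40 (chkRangeF_spec (c := cert) 244720 230 kF_244720) rfl
  have h42 : ∀ v < 245180, chkVF cert v = true :=
    cover_step h41 (chkRangeF_spec (c := cert) 244950 230 kF_244950) rfl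
  have h43 : ∀ v < 245410, chkVF cert v = true :=
    cover_step h42 (chkRangeF_spec (c := cert) 245180 230 kF_245180) rfl
  have h44 : ∀ v < 245640, chkVF cert v = true :=
    cover_step h43 (chkRangeF_spec (c := cert) 245410 230 kF_245410) rfl
  have h45 : ∀ v < 245870, chkVF cert v = true :=
    cover_step h44 (chkRangeF_spec (c := cert) 245640 230 kF_245640) rfl
  have h46 : ∀ v < 246100, chkVF cert v = true :=
    cover_step h45 (chkRangeF_spec (c := cert) 245870 230 kF_245870) rfl
  have h47 : ∀ v < 246330, chkVF cert v = true :=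
    cover_step h46 (chkRangeF_spec (c := cert) 246100 230 kF_246100) rfl
  have h48 : ∀ v < 246560, chkVF cert v = true :=
    cover_step h47 (chkRangeF_spec (c := cert) 246330 230 kF_246330) rfl
  have h49 : ∀ v < 246790, chkVF cert v = true :=
    cover_step h48 (chkRangeF_spec (c := cert) 246560 230 kF_246560) rfl
  have h50 : ∀ v < 247020, chkVF cert v = true :=
    cover_step h49 (chkRangeF_spec (c := cert) 246790 230 kF_246790) rfl
  have h51 : ∀ v < 247250, chkVF cert v = true :=
    cover_step h50 (chkRangeF_spec (c := cert) 247020 230 kF_247020) rfl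
  have h52 : ∀ v < 247480, chkVF cert v = true :=
    cover_step h51 (chkRangeF_spec (c := cert) 247250 230 kF_247250) rfl
  have h53 : ∀ v < 247710, chkVF cert v = true :=
    cover_step h52 (chkRangeF_spec (c := cert) 247480 230 kF_247480) rfl
  have h54 : ∀ v < 247940, chkVF cert v = true :=
    cover_step h53 (chkRangeF_spec (c := cert) 247710 230 kF_247710) rfl
  have h55 : ∀ v < 248170, chkVF cert v = true :=
    cover_step h54 (chkRangeF_spec (c := cert) 247940 230 kF_247940) rfl
  have h56 : ∀ v < 248400, chkVF cert v = true :=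
    cover_step h55 (chkRangeF_spec (c := cert) 248170 230 kF_248170) rfl
  have h57 : ∀ v < 248630, chkVF cert v = true :=
    cover_step h56 (chkRangeF_spec (c := cert) 248400 230 kF_248400) rfl
  have h58 : ∀ v < 248860, chkVF cert v = true :=
    cover_step h57 (chkRangeF_spec (c := cert) 248630 230 kF_248630) rfl
  have h59 : ∀ v < 249090, chkVF cert v = true :=
    cover_step h58 (chkRangeF_spec (c := cert) 248860 230 kF_248860) rfl
  have h60 : ∀ v < 249320, chkVF cert v = true :=
    cover_step h59 (chkRangeF_spec (c := cert) 249090 230 kF_249090) rfl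
  have h61 : ∀ v < 249550, chkVF cert v = true :=
    cover_step h60 (chkRangeF_spec (c := cert) 249320 230 kF_249320) rfl
  have h62 : ∀ v < 249780, chkVF cert v = true :=
    cover_step h61 (chkRangeF_spec (c := cert) 249550 230 kF_249550) rfl
  have h63 : ∀ v < 250010, chkVF cert v = true :=
    cover_step h62 (chkRangeF_spec (c := cert) 249780 230 kF_249780) rfl
  have h64 : ∀ v < 250240, chkVF cert v = true :=
    cover_step h63 (chkRangeF_spec (c := cert) 250010 230 kF_250010) rfl
  exact h64

theorem allF_17 : ∀ v < 264960, chkVF cert v = true := by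
  have h0 := allF_16
  have h1 : ∀ v < 250470, chkVF cert v = true :=
    cover_step h0 (chkRangeF_spec (c := cert) 250240 230 kF_250240) rfl
  have h2 : ∀ v < 250700, chkVF cert v = true :=
    cover_step h1 (chkRangeF_spec (c := cert) 250470 230 kF_250470) rfl
  have h3 : ∀ v < 250930, chkVF cert v = true :=
    cover_step h2 (chkRangeF_spec (c := cert) 250700 230 kF_250700) rfl
  have h4 : ∀ v < 251160, chkVF cert v = true :=
    cover_step h3 (chkRangeF_spec (c := cert) 250930 230 kF_250930) rfl
  have h5 : ∀ v < 251390, chkVF cert v = true :=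
    cover_step h4 (chkRangeF_spec (c := cert) 251160 230 kF_251160) rfl
  have h6 : ∀ v < 251620, chkVF cert v = true :=
    cover_step h5 (chkRangeF_spec (c := cert) 251390 230 kF_251390) rfl
  have h7 : ∀ v < 251850, chkVF cert v = true :=
    cover_step h6 (chkRangeF_spec (c := cert) 251620 230 kF_251620) rfl
  have h8 : ∀ v < 252080, chkVF cert v = true :=
    cover_step h7 (chkRangeF_spec (c := cert) 251850 230 kF_251850) rfl
  have h9 : ∀ v < 252310, chkVF cert v = true :=
    cover_step h8 (chkRangeF_spec (c := cert) 252080 230 kF_252080) rfl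
  have h10 : ∀ v < 252540, chkVF cert v = true :=
    cover_step h9 (chkRangeF_spec (c := cert) 252310 230 kF_252310) rfl
  have h11 : ∀ v < 252770, chkVF cert v = true :=
    cover_step h10 (chkRangeF_spec (c := cert) 252540 230 kF_252540) rfl
  have h12 : ∀ v < 253000, chkVF cert v = true :=
    cover_step h11 (chkRangeF_spec (c := cert) 252770 230 kF_252770) rfl
  have h13 : ∀ v < 253230, chkVF cert v = true :=
    cover_step h12 (chkRangeF_spec (c := cert) 253000 230 kF_253000) rfl
  have h14 : ∀ v < 253460, chkVF cert v = true :=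
    cover_step h13 (chkRangeF_spec (c := cert) 253230 230 kF_253230) rfl
  have h15 : ∀ v < 253690, chkVF cert v = true :=
    cover_step h14 (chkRangeF_spec (c := cert) 253460 230 kF_253460) rfl
  have h16 : ∀ v < 253920, chkVF cert v = true :=
    cover_step h15 (chkRangeF_spec (c := cert) 253690 230 kF_253690) rfl
  have h17 : ∀ v < 254150, chkVF cert v = true :=
    cover_step h16 (chkRangeF_spec (c := cert) 253920 230 kF_253920) rfl
  have h18 : ∀ v < 254380, chkVF cert v = true :=
    cover_step h17 (chkRangeF_spec (c := cert) 254150 230 kF_254150) rfl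
  have h19 : ∀ v < 254610, chkVF cert v = true :=
    cover_step h18 (chkRangeF_spec (c := cert) 254380 230 kF_254380) rfl
  have h20 : ∀ v < 254840, chkVF cert v = true :=
    cover_step h19 (chkRangeF_spec (c := cert) 254610 230 kF_254610) rfl
  have h21 : ∀ v < 255070, chkVF cert v = true :=
    cover_step h20 (chkRangeF_spec (c := cert) 254840 230 kF_254840) rfl
  have h22 : ∀ v < 255300, chkVF cert v = true :=
    cover_step h21 (chkRangeF_spec (c := cert) 255070 230 kF_255070) rfl
  have h23 : ∀ v < 255530, chkVF cert v = true :=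
    cover_step h22 (chkRangeF_spec (c := cert) 255300 230 kF_255300) rfl
  have h24 : ∀ v < 255760, chkVF cert v = true :=
    cover_step h23 (chkRangeF_spec (c := cert) 255530 230 kF_255530) rfl
  have h25 : ∀ v < 255990, chkVF cert v = true :=
    cover_step h24 (chkRangeF_spec (c := cert) 255760 230 kF_255760) rfl
  have h26 : ∀ v < 256220, chkVF cert v = true :=
    cover_step h25 (chkRangeF_spec (c := cert) 255990 230 kF_255990) rfl
  have h27 : ∀ v < 256450, chkVF cert v = true :=
    cover_step h26 (chkRangeF_spec (c := cert) 256220 230 kF_256220) rfl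
  have h28 : ∀ v < 256680, chkVF cert v = true :=
    cover_step h27 (chkRangeF_spec (c := cert) 256450 230 kF_256450) rfl
  have h29 : ∀ v < 256910, chkVF cert v = true :=
    cover_step h28 (chkRangeF_spec (c := cert) 256680 230 kF_256680) rfl
  have h30 : ∀ v < 257140, chkVF cert v = true :=
    cover_step h29 (chkRangeF_spec (c := cert) 256910 230 kF_256910) rfl
  have h31 : ∀ v < 257370, chkVF cert v = true :=
    cover_step h30 (chkRangeF_spec (c := cert) 257140 230 kF_257140) rfl
  have h32 : ∀ v < 257600, chkVF cert v = true :=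
    cover_step h31 (chkRangeF_spec (c := cert) 257370 230 kF_257370) rfl
  have h33 : ∀ v < 257830, chkVF cert v = true :=
    cover_step h32 (chkRangeF_spec (c := cert) 257600 230 kF_257600) rfl
  have h34 : ∀ v < 258060, chkVF cert v = true :=
    cover_step h33 (chkRangeF_spec (c := cert) 257830 230 kF_257830) rfl
  have h35 : ∀ v < 258290, chkVF cert v = true :=
    cover_step h34 (chkRangeF_spec (c := cert) 258060 230 kF_258060) rfl
  have h36 : ∀ v < 258520, chkVF cert v = true :=
    cover_step h35 (chkRangeF_spec (c := cert) 258290 230 kF_258290) rfl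
  have h37 : ∀ v < 258750, chkVF cert v = true :=
    cover_step h36 (chkRangeF_spec (c := cert) 258520 230 kF_258520) rfl
  have h38 : ∀ v < 258980, chkVF cert v = true :=
    cover_step h37 (chkRangeF_spec (c := cert) 258750 230 kF_258750) rfl
  have h39 : ∀ v < 259210, chkVF cert v = true :=
    cover_step h38 (chkRangeF_spec (c := cert) 258980 230 kF_258980) rfl
  have h40 : ∀ v < 259440, chkVF cert v = true :=
    cover_step h39 (chkRangeF_spec (c := cert) 259210 230 kF_259210) rfl
  have h41 : ∀ v < 259670, chkVF cert v = true :=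
    cover_step h40 (chkRangeF_spec (c := cert) 259440 230 kF_259440) rfl
  have h42 : ∀ v < 259900, chkVF cert v = true :=
    cover_step h41 (chkRangeF_spec (c := cert) 259670 230 kF_259670) rfl
  have h43 : ∀ v < 260130, chkVF cert v = true :=
    cover_step h42 (chkRangeF_spec (c := cert) 259900 230 kF_259900) rfl
  have h44 : ∀ v < 260360, chkVF cert v = true :=
    cover_step h43 (chkRangeF_spec (c := cert) 260130 230 kF_260130) rfl
  have h45 : ∀ v < 260590, chkVF cert v = true :=
    cover_step h44 (chkRangeF_spec (c := cert) 260360 230 kF_260360) rfl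
  have h46 : ∀ v < 260820, chkVF cert v = true :=
    cover_step h45 (chkRangeF_spec (c := cert) 260590 230 kF_260590) rfl
  have h47 : ∀ v < 261050, chkVF cert v = true :=
    cover_step h46 (chkRangeF_spec (c := cert) 260820 230 kF_260820) rfl
  have h48 : ∀ v < 261280, chkVF cert v = true :=
    cover_step h47 (chkRangeF_spec (c := cert) 261050 230 kF_261050) rfl
  have h49 : ∀ v < 261510, chkVF cert v = true :=
    cover_step h48 (chkRangeF_spec (c := cert) 261280 230 kF_261280) rfl
  have h50 : ∀ v < 261740, chkVF cert v = true :=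
    cover_step h49 (chkRangeF_spec (c := cert) 261510 230 kF_261510) rfl
  have h51 : ∀ v < 261970, chkVF cert v = true :=
    cover_step h50 (chkRangeF_spec (c := cert) 261740 230 kF_261740) rfl
  have h52 : ∀ v < 262200, chkVF cert v = true :=
    cover_step h51 (chkRangeF_spec (c := cert) 261970 230 kF_261970) rfl
  have h53 : ∀ v < 262430, chkVF cert v = true :=
    cover_step h52 (chkRangeF_spec (c := cert) 262200 230 kF_262200) rfl
  have h54 : ∀ v < 262660, chkVF cert v = true :=
    cover_step h53 (chkRangeF_spec (c := cert) 262430 230 kF_262430) rfl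
  have h55 : ∀ v < 262890, chkVF cert v = true :=
    cover_step h54 (chkRangeF_spec (c := cert) 262660 230 kF_262660) rfl
  have h56 : ∀ v < 263120, chkVF cert v = true :=
    cover_step h55 (chkRangeF_spec (c := cert) 262890 230 kF_262890) rfl
  have h57 : ∀ v < 263350, chkVF cert v = true :=
    cover_step h56 (chkRangeF_spec (c := cert) 263120 230 kF_263120) rfl
  have h58 : ∀ v < 263580, chkVF cert v = true :=
    cover_step h57 (chkRangeF_spec (c := cert) 263350 230 kF_263350) rfl
  have h59 : ∀ v < 263810, chkVF cert v = true :=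
    cover_step h58 (chkRangeF_spec (c := cert) 263580 230 kF_263580) rfl
  have h60 : ∀ v < 264040, chkVF cert v = true :=
    cover_step h59 (chkRangeF_spec (c := cert) 263810 230 kF_263810) rfl
  have h61 : ∀ v < 264270, chkVF cert v = true :=
    cover_step h60 (chkRangeF_spec (c := cert) 264040 230 kF_264040) rfl
  have h62 : ∀ v < 264500, chkVF cert v = true :=
    cover_step h61 (chkRangeF_spec (c := cert) 264270 230 kF_264270) rfl
  have h63 : ∀ v < 264730, chkVF cert v = true :=
    cover_step h62 (chkRangeF_spec (c := cert) 264500 230 kF_264500) rfl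
  have h64 : ∀ v < 264960, chkVF cert v = true :=
    cover_step h63 (chkRangeF_spec (c := cert) 264730 230 kF_264730) rfl
  exact h64

theorem allF_18 : ∀ v < 279680, chkVF cert v = true := by
  have h0 := allF_17
  have h1 : ∀ v < 265190, chkVF cert v = true :=
    cover_step h0 (chkRangeF_spec (c := cert) 264960 230 kF_264960) rfl
  have h2 : ∀ v < 265420, chkVF cert v = true :=
    cover_step h1 (chkRangeF_spec (c := cert) 265190 230 kF_265190) rfl
  have h3 : ∀ v < 265650, chkVF cert v = true :=
    cover_step h2 (chkRangeF_spec (c := cert) 265420 230 kF_265420) rfl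
  have h4 : ∀ v < 265880, chkVF cert v = true :=
    cover_step h3 (chkRangeF_spec (c := cert) 265650 230 kF_265650) rfl
  have h5 : ∀ v < 266110, chkVF cert v = true :=
    cover_step h4 (chkRangeF_spec (c := cert) 265880 230 kF_265880) rfl
  have h6 : ∀ v < 266340, chkVF cert v = true :=
    cover_step h5 (chkRangeF_spec (c := cert) 266110 230 kF_266110) rfl
  have h7 : ∀ v < 266570, chkVF cert v = true :=
    cover_step h6 (chkRangeF_spec (c := cert) 266340 230 kF_266340) rfl
  have h8 : ∀ v < 266800, chkVF cert v = true :=
    cover_step h7 (chkRangeF_spec (c := cert) 266570 230 kF_266570) rfl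
  have h9 : ∀ v < 267030, chkVF cert v = true :=
    cover_step h8 (chkRangeF_spec (c := cert) 266800 230 kF_266800) rfl
  have h10 : ∀ v < 267260, chkVF cert v = true :=
    cover_step h9 (chkRangeF_spec (c := cert) 267030 230 kF_267030) rfl
  have h11 : ∀ v < 267490, chkVF cert v = true :=
    cover_step h10 (chkRangeF_spec (c := cert) 267260 230 kF_267260) rfl
  have h12 : ∀ v < 267720, chkVF cert v = true :=
    cover_step h11 (chkRangeF_spec (c := cert) 267490 230 kF_267490) rfl
  have h13 : ∀ v < 267950, chkVF cert v = true :=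
    cover_step h12 (chkRangeF_spec (c := cert) 267720 230 kF_267720) rfl
  have h14 : ∀ v < 268180, chkVF cert v = true :=
    cover_step h13 (chkRangeF_spec (c := cert) 267950 230 kF_267950) rfl
  have h15 : ∀ v < 268410, chkVF cert v = true :=
    cover_step h14 (chkRangeF_spec (c := cert) 268180 230 kF_268180) rfl
  have h16 : ∀ v < 268640, chkVF cert v = true :=
    cover_step h15 (chkRangeF_spec (c := cert) 268410 230 kF_268410) rfl
  have h17 : ∀ v < 268870, chkVF cert v = true :=
    cover_step h16 (chkRangeF_spec (c := cert) 268640 230 kF_268640) rfl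
  have h18 : ∀ v < 269100, chkVF cert v = true :=
    cover_step h17 (chkRangeF_spec (c := cert) 268870 230 kF_268870) rfl
  have h19 : ∀ v < 269330, chkVF cert v = true :=
    cover_step h18 (chkRangeF_spec (c := cert) 269100 230 kF_269100) rfl
  have h20 : ∀ v < 269560, chkVF cert v = true :=
    cover_step h19 (chkRangeF_spec (c := cert) 269330 230 kF_269330) rfl
  have h21 : ∀ v < 269790, chkVF cert v = true :=
    cover_step h20 (chkRangeF_spec (c := cert) 269560 230 kF_269560) rfl
  have h22 : ∀ v < 270020, chkVF cert v = true :=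
    cover_step h21 (chkRangeF_spec (c := cert) 269790 230 kF_269790) rfl
  have h23 : ∀ v < 270250, chkVF cert v = true :=
    cover_step h22 (chkRangeF_spec (c := cert) 270020 230 kF_270020) rfl
  have h24 : ∀ v < 270480, chkVF cert v = true :=
    cover_step h23 (chkRangeF_spec (c := cert) 270250 230 kF_270250) rfl
  have h25 : ∀ v < 270710, chkVF cert v = true :=
    cover_step h24 (chkRangeF_spec (c := cert) 270480 230 kF_270480) rfl
  have h26 : ∀ v < 270940, chkVF cert v = true :=
    cover_step h25 (chkRangeF_spec (c := cert) 270710 230 kF_270710) rfl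
  have h27 : ∀ v < 271170, chkVF cert v = true :=
    cover_step h26 (chkRangeF_spec (c := cert) 270940 230 kF_270940) rfl
  have h28 : ∀ v < 271400, chkVF cert v = true :=
    cover_step h27 (chkRangeF_spec (c := cert) 271170 230 kF_271170) rfl
  have h29 : ∀ v < 271630, chkVF cert v = true :=
    cover_step h28 (chkRangeF_spec (c := cert) 271400 230 kF_271400) rfl
  have h30 : ∀ v < 271860, chkVF cert v = true :=
    cover_step h29 (chkRangeF_spec (c := cert) 271630 230 kF_271630) rfl
  have h31 : ∀ v < 272090, chkVF cert v = true :=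
    cover_step h30 (chkRangeF_spec (c := cert) 271860 230 kF_271860) rfl
  have h32 : ∀ v < 272320, chkVF cert v = true :=
    cover_step h31 (chkRangeF_spec (c := cert) 272090 230 kF_272090) rfl
  have h33 : ∀ v < 272550, chkVF cert v = true :=
    cover_step h32 (chkRangeF_spec (c := cert) 272320 230 kF_272320) rfl
  have h34 : ∀ v < 272780, chkVF cert v = true :=
    cover_step h33 (chkRangeF_spec (c := cert) 272550 230 kF_272550) rfl
  have h35 : ∀ v < 273010, chkVF cert v = true :=
    cover_step h34 (chkRangeF_spec (c := cert) 272780 230 kF_272780) rfl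
  have h36 : ∀ v < 273240, chkVF cert v = true :=
    cover_step h35 (chkRangeF_spec (c := cert) 273010 230 kF_273010) rfl
  have h37 : ∀ v < 273470, chkVF cert v = true :=
    cover_step h36 (chkRangeF_spec (c := cert) 273240 230 kF_273240) rfl
  have h38 : ∀ v < 273700, chkVF cert v = true :=
    cover_step h37 (chkRangeF_spec (c := cert) 273470 230 kF_273470) rfl
  have h39 : ∀ v < 273930, chkVF cert v = true :=
    cover_step h38 (chkRangeF_spec (c := cert) 273700 230 kF_273700) rfl
  have h40 : ∀ v < 274160, chkVF cert v = true :=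
    cover_step h39 (chkRangeF_spec (c := cert) 273930 230 kF_273930) rfl
  have h41 : ∀ v < 274390, chkVF cert v = true :=
    cover_step h40 (chkRangeF_spec (c := cert) 274160 230 kF_274160) rfl
  have h42 : ∀ v < 274620, chkVF cert v = true :=
    cover_step h41 (chkRangeF_spec (c := cert) 274390 230 kF_274390) rfl
  have h43 : ∀ v < 274850, chkVF cert v = true :=
    cover_step h42 (chkRangeF_spec (c := cert) 274620 230 kF_274620) rfl
  have h44 : ∀ v < 275080, chkVF cert v = true :=
    cover_step h43 (chkRangeF_spec (c := cert) 274850 230 kF_274850) rfl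
  have h45 : ∀ v < 275310, chkVF cert v = true :=
    cover_step h44 (chkRangeF_spec (c := cert) 275080 230 kF_275080) rfl
  have h46 : ∀ v < 275540, chkVF cert v = true :=
    cover_step h45 (chkRangeF_spec (c := cert) 275310 230 kF_275310) rfl
  have h47 : ∀ v < 275770, chkVF cert v = true :=
    cover_step h46 (chkRangeF_spec (c := cert) 275540 230 kF_275540) rfl
  have h48 : ∀ v < 276000, chkVF cert v = true :=
    cover_step h47 (chkRangeF_spec (c := cert) 275770 230 kF_275770) rfl
  have h49 : ∀ v < 276230, chkVF cert v = true :=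
    cover_step h48 (chkRangeF_spec (c := cert) 276000 230 kF_276000) rfl
  have h50 : ∀ v < 276460, chkVF cert v = true :=
    cover_step h49 (chkRangeF_spec (c := cert) 276230 230 kF_276230) rfl
  have h51 : ∀ v < 276690, chkVF cert v = true :=
    cover_step h50 (chkRangeF_spec (c := cert) 276460 230 kF_276460) rfl
  have h52 : ∀ v < 276920, chkVF cert v = true :=
    cover_step h51 (chkRangeF_spec (c := cert) 276690 230 kF_276690) rfl
  have h53 : ∀ v < 277150, chkVF cert v = true :=
    cover_step h52 (chkRangeF_spec (c := cert) 276920 230 kF_276920) rfl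
  have h54 : ∀ v < 277380, chkVF cert v = true :=
    cover_step h53 (chkRangeF_spec (c := cert) 277150 230 kF_277150) rfl
  have h55 : ∀ v < 277610, chkVF cert v = true :=
    cover_step h54 (chkRangeF_spec (c := cert) 277380 230 kF_277380) rfl
  have h56 : ∀ v < 277840, chkVF cert v = true :=
    cover_step h55 (chkRangeF_spec (c := cert) 277610 230 kF_277610) rfl
  have h57 : ∀ v < 278070, chkVF cert v = true :=
    cover_step h56 (chkRangeF_spec (c := cert) 277840 230 kF_277840) rfl
  have h58 : ∀ v < 278300, chkVF cert v = true :=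
    cover_step h57 (chkRangeF_spec (c := cert) 278070 230 kF_278070) rfl
  have h59 : ∀ v < 278530, chkVF cert v = true :=
    cover_step h58 (chkRangeF_spec (c := cert) 278300 230 kF_278300) rfl
  have h60 : ∀ v < 278760, chkVF cert v = true :=
    cover_step h59 (chkRangeF_spec (c := cert) 278530 230 kF_278530) rfl
  have h61 : ∀ v < 278990, chkVF cert v = true :=
    cover_step h60 (chkRangeF_spec (c := cert) 278760 230 kF_278760) rfl
  have h62 : ∀ v < 279220, chkVF cert v = true :=
    cover_step h61 (chkRangeF_spec (c := cert) 278990 230 kF_278990) rfl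
  have h63 : ∀ v < 279450, chkVF cert v = true :=
    cover_step h62 (chkRangeF_spec (c := cert) 279220 230 kF_279220) rfl
  have h64 : ∀ v < 279680, chkVF cert v = true :=
    cover_step h63 (chkRangeF_spec (c := cert) 279450 230 kF_279450) rfl
  exact h64

theorem allF_19 : ∀ v < 294400, chkVF cert v = true := by
  have h0 := allF_18
  have h1 : ∀ v < 279910, chkVF cert v = true :=
    cover_step h0 (chkRangeF_spec (c := cert) 279680 230 kF_279680) rfl
  have h2 : ∀ v < 280140, chkVF cert v = true :=
    cover_step h1 (chkRangeF_spec (c := cert) 279910 230 kF_279910) rfl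
  have h3 : ∀ v < 280370, chkVF cert v = true :=
    cover_step h2 (chkRangeF_spec (c := cert) 280140 230 kF_280140) rfl
  have h4 : ∀ v < 280600, chkVF cert v = true :=
    cover_step h3 (chkRangeF_spec (c := cert) 280370 230 kF_280370) rfl
  have h5 : ∀ v < 280830, chkVF cert v = true :=
    cover_step h4 (chkRangeF_spec (c := cert) 280600 230 kF_280600) rfl
  have h6 : ∀ v < 281060, chkVF cert v = true :=
    cover_step h5 (chkRangeF_spec (c := cert) 280830 230 kF_280830) rfl
  have h7 : ∀ v < 281290, chkVF cert v = true :=
    cover_step h6 (chkRangeF_spec (c := cert) 281060 230 kF_281060) rfl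
  have h8 : ∀ v < 281520, chkVF cert v = true :=
    cover_step h7 (chkRangeF_spec (c := cert) 281290 230 kF_281290) rfl
  have h9 : ∀ v < 281750, chkVF cert v = true :=
    cover_step h8 (chkRangeF_spec (c := cert) 281520 230 kF_281520) rfl
  have h10 : ∀ v < 281980, chkVF cert v = true :=
    cover_step h9 (chkRangeF_spec (c := cert) 281750 230 kF_281750) rfl
  have h11 : ∀ v < 282210, chkVF cert v = true :=
    cover_step h10 (chkRangeF_spec (c := cert) 281980 230 kF_281980) rfl
  have h12 : ∀ v < 282440, chkVF cert v = true :=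
    cover_step h11 (chkRangeF_spec (c := cert) 282210 230 kF_282210) rfl
  have h13 : ∀ v < 282670, chkVF cert v = true :=
    cover_step h12 (chkRangeF_spec (c := cert) 282440 230 kF_282440) rfl
  have h14 : ∀ v < 282900, chkVF cert v = true :=
    cover_step h13 (chkRangeF_spec (c := cert) 282670 230 kF_282670) rfl
  have h15 : ∀ v < 283130, chkVF cert v = true :=
    cover_step h14 (chkRangeF_spec (c := cert) 282900 230 kF_282900) rfl
  have h16 : ∀ v < 283360, chkVF cert v = true :=
    cover_step h15 (chkRangeF_spec (c := cert) 283130 230 kF_283130) rfl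
  have h17 : ∀ v < 283590, chkVF cert v = true :=
    cover_step h16 (chkRangeF_spec (c := cert) 283360 230 kF_283360) rfl
  have h18 : ∀ v < 283820, chkVF cert v = true :=
    cover_step h17 (chkRangeF_spec (c := cert) 283590 230 kF_283590) rfl
  have h19 : ∀ v < 284050, chkVF cert v = true :=
    cover_step h18 (chkRangeF_spec (c := cert) 283820 230 kF_283820) rfl
  have h20 : ∀ v < 284280, chkVF cert v = true :=
    cover_step h19 (chkRangeF_spec (c := cert) 284050 230 kF_284050) rfl
  have h21 : ∀ v < 284510, chkVF cert v = true :=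
    cover_step h20 (chkRangeF_spec (c := cert) 284280 230 kF_284280) rfl
  have h22 : ∀ v < 284740, chkVF cert v = true :=
    cover_step h21 (chkRangeF_spec (c := cert) 284510 230 kF_284510) rfl
  have h23 : ∀ v < 284970, chkVF cert v = true :=
    cover_step h22 (chkRangeF_spec (c := cert) 284740 230 kF_284740) rfl
  have h24 : ∀ v < 285200, chkVF cert v = true :=
    cover_step h23 (chkRangeF_spec (c := cert) 284970 230 kF_284970) rfl
  have h25 : ∀ v < 285430, chkVF cert v = true :=
    cover_step h24 (chkRangeF_spec (c := cert) 285200 230 kF_285200) rfl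
  have h26 : ∀ v < 285660, chkVF cert v = true :=
    cover_step h25 (chkRangeF_spec (c := cert) 285430 230 kF_285430) rfl
  have h27 : ∀ v < 285890, chkVF cert v = true :=
    cover_step h26 (chkRangeF_spec (c := cert) 285660 230 kF_285660) rfl
  have h28 : ∀ v < 286120, chkVF cert v = true :=
    cover_step h27 (chkRangeF_spec (c := cert) 285890 230 kF_285890) rfl
  have h29 : ∀ v < 286350, chkVF cert v = true :=
    cover_step h28 (chkRangeF_spec (c := cert) 286120 230 kF_286120) rfl
  have h30 : ∀ v < 286580, chkVF cert v = true :=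
    cover_step h29 (chkRangeF_spec (c := cert) 286350 230 kF_286350) rfl
  have h31 : ∀ v < 286810, chkVF cert v = true :=
    cover_step h30 (chkRangeF_spec (c := cert) 286580 230 kF_286580) rfl
  have h32 : ∀ v < 287040, chkVF cert v = true :=
    cover_step h31 (chkRangeF_spec (c := cert) 286810 230 kF_286810) rfl
  have h33 : ∀ v < 287270, chkVF cert v = true :=
    cover_step h32 (chkRangeF_spec (c := cert) 287040 230 kF_287040) rfl
  have h34 : ∀ v < 287500, chkVF cert v = true :=
    cover_step h33 (chkRangeF_spec (c := cert) 287270 230 kF_287270) rfl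
  have h35 : ∀ v < 287730, chkVF cert v = true :=
    cover_step h34 (chkRangeF_spec (c := cert) 287500 230 kF_287500) rfl
  have h36 : ∀ v < 287960, chkVF cert v = true :=
    cover_step h35 (chkRangeF_spec (c := cert) 287730 230 kF_287730) rfl
  have h37 : ∀ v < 288190, chkVF cert v = true :=
    cover_step h36 (chkRangeF_spec (c := cert) 287960 230 kF_287960) rfl
  have h38 : ∀ v < 288420, chkVF cert v = true :=
    cover_step h37 (chkRangeF_spec (c := cert) 288190 230 kF_288190) rfl
  have h39 : ∀ v < 288650, chkVF cert v = true :=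
    cover_step h38 (chkRangeF_spec (c := cert) 288420 230 kF_288420) rfl
  have h40 : ∀ v < 288880, chkVF cert v = true :=
    cover_step h39 (chkRangeF_spec (c := cert) 288650 230 kF_288650) rfl
  have h41 : ∀ v < 289110, chkVF cert v = true :=
    cover_step h40 (chkRangeF_spec (c := cert) 288880 230 kF_288880) rfl
  have h42 : ∀ v < 289340, chkVF cert v = true :=
    cover_step h41 (chkRangeF_spec (c := cert) 289110 230 kF_289110) rfl
  have h43 : ∀ v < 289570, chkVF cert v = true :=
    cover_step h42 (chkRangeF_spec (c := cert) 289340 230 kF_289340) rfl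
  have h44 : ∀ v < 289800, chkVF cert v = true :=
    cover_step h43 (chkRangeF_spec (c := cert) 289570 230 kF_289570) rfl
  have h45 : ∀ v < 290030, chkVF cert v = true :=
    cover_step h44 (chkRangeF_spec (c := cert) 289800 230 kF_289800) rfl
  have h46 : ∀ v < 290260, chkVF cert v = true :=
    cover_step h45 (chkRangeF_spec (c := cert) 290030 230 kF_290030) rfl
  have h47 : ∀ v < 290490, chkVF cert v = true :=
    cover_step h46 (chkRangeF_spec (c := cert) 290260 230 kF_290260) rfl
  have h48 : ∀ v < 290720, chkVF cert v = true :=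
    cover_step h47 (chkRangeF_spec (c := cert) 290490 230 kF_290490) rfl
  have h49 : ∀ v < 290950, chkVF cert v = true :=
    cover_step h48 (chkRangeF_spec (c := cert) 290720 230 kF_290720) rfl
  have h50 : ∀ v < 291180, chkVF cert v = true :=
    cover_step h49 (chkRangeF_spec (c := cert) 290950 230 kF_290950) rfl
  have h51 : ∀ v < 291410, chkVF cert v = true :=
    cover_step h50 (chkRangeF_spec (c := cert) 291180 230 kF_291180) rfl
  have h52 : ∀ v < 291640, chkVF cert v = true :=
    cover_step h51 (chkRangeF_spec (c := cert) 291410 230 kF_291410) rfl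
  have h53 : ∀ v < 291870, chkVF cert v = true :=
    cover_step h52 (chkRangeF_spec (c := cert) 291640 230 kF_291640) rfl
  have h54 : ∀ v < 292100, chkVF cert v = true :=
    cover_step h53 (chkRangeF_spec (c := cert) 291870 230 kF_291870) rfl
  have h55 : ∀ v < 292330, chkVF cert v = true :=
    cover_step h54 (chkRangeF_spec (c := cert) 292100 230 kF_292100) rfl
  have h56 : ∀ v < 292560, chkVF cert v = true :=
    cover_step h55 (chkRangeF_spec (c := cert) 292330 230 kF_292330) rfl
  have h57 : ∀ v < 292790, chkVF cert v = true :=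
    cover_step h56 (chkRangeF_spec (c := cert) 292560 230 kF_292560) rfl
  have h58 : ∀ v < 293020, chkVF cert v = true :=
    cover_step h57 (chkRangeF_spec (c := cert) 292790 230 kF_292790) rfl
  have h59 : ∀ v < 293250, chkVF cert v = true :=
    cover_step h58 (chkRangeF_spec (c := cert) 293020 230 kF_293020) rfl
  have h60 : ∀ v < 293480, chkVF cert v = true :=
    cover_step h59 (chkRangeF_spec (c := cert) 293250 230 kF_293250) rfl
  have h61 : ∀ v < 293710, chkVF cert v = true :=
    cover_step h60 (chkRangeF_spec (c := cert) 293480 230 kF_293480) rfl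
  have h62 : ∀ v < 293940, chkVF cert v = true :=
    cover_step h61 (chkRangeF_spec (c := cert) 293710 230 kF_293710) rfl
  have h63 : ∀ v < 294170, chkVF cert v = true :=
    cover_step h62 (chkRangeF_spec (c := cert) 293940 230 kF_293940) rfl
  have h64 : ∀ v < 294400, chkVF cert v = true :=
    cover_step h63 (chkRangeF_spec (c := cert) 294170 230 kF_294170) rfl
  exact h64

theorem allF : ∀ v < 306936, chkVF cert v = true := by
  have h0 := allF_19
  have h1 : ∀ v < 294630, chkVF cert v = true :=
    cover_step h0 (chkRangeF_spec (c := cert) 294400 230 kF_294400) rfl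
  have h2 : ∀ v < 294860, chkVF cert v = true :=
    cover_step h1 (chkRangeF_spec (c := cert) 294630 230 kF_294630) rfl
  have h3 : ∀ v < 295090, chkVF cert v = true :=
    cover_step h2 (chkRangeF_spec (c := cert) 294860 230 kF_294860) rfl
  have h4 : ∀ v < 295320, chkVF cert v = true :=
    cover_step h3 (chkRangeF_spec (c := cert) 295090 230 kF_295090) rfl
  have h5 : ∀ v < 295550, chkVF cert v = true :=
    cover_step h4 (chkRangeF_spec (c := cert) 295320 230 kF_295320) rfl
  have h6 : ∀ v < 295780, chkVF cert v = true :=
    cover_step h5 (chkRangeF_spec (c := cert) 295550 230 kF_295550) rfl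
  have h7 : ∀ v < 296010, chkVF cert v = true :=
    cover_step h6 (chkRangeF_spec (c := cert) 295780 230 kF_295780) rfl
  have h8 : ∀ v < 296240, chkVF cert v = true :=
    cover_step h7 (chkRangeF_spec (c := cert) 296010 230 kF_296010) rfl
  have h9 : ∀ v < 296470, chkVF cert v = true :=
    cover_step h8 (chkRangeF_spec (c := cert) 296240 230 kF_296240) rfl
  have h10 : ∀ v < 296700, chkVF cert v = true :=
    cover_step h9 (chkRangeF_spec (c := cert) 296470 230 kF_296470) rfl
  have h11 : ∀ v < 296930, chkVF cert v = true :=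
    cover_step h10 (chkRangeF_spec (c := cert) 296700 230 kF_296700) rfl
  have h12 : ∀ v < 297160, chkVF cert v = true :=
    cover_step h11 (chkRangeF_spec (c := cert) 296930 230 kF_296930) rfl
  have h13 : ∀ v < 297390, chkVF cert v = true :=
    cover_step h12 (chkRangeF_spec (c := cert) 297160 230 kF_297160) rfl
  have h14 : ∀ v < 297620, chkVF cert v = true :=
    cover_step h13 (chkRangeF_spec (c := cert) 297390 230 kF_297390) rfl
  have h15 : ∀ v < 297850, chkVF cert v = true :=
    cover_step h14 (chkRangeF_spec (c := cert) 297620 230 kF_297620) rfl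
  have h16 : ∀ v < 298080, chkVF cert v = true :=
    cover_step h15 (chkRangeF_spec (c := cert) 297850 230 kF_297850) rfl
  have h17 : ∀ v < 298310, chkVF cert v = true :=
    cover_step h16 (chkRangeF_spec (c := cert) 298080 230 kF_298080) rfl
  have h18 : ∀ v < 298540, chkVF cert v = true :=
    cover_step h17 (chkRangeF_spec (c := cert) 298310 230 kF_298310) rfl
  have h19 : ∀ v < 298770, chkVF cert v = true :=
    cover_step h18 (chkRangeF_spec (c := cert) 298540 230 kF_298540) rfl
  have h20 : ∀ v < 299000, chkVF cert v = true :=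
    cover_step h19 (chkRangeF_spec (c := cert) 298770 230 kF_298770) rfl
  have h21 : ∀ v < 299230, chkVF cert v = true :=
    cover_step h20 (chkRangeF_spec (c := cert) 299000 230 kF_299000) rfl
  have h22 : ∀ v < 299460, chkVF cert v = true :=
    cover_step h21 (chkRangeF_spec (c := cert) 299230 230 kF_299230) rfl
  have h23 : ∀ v < 299690, chkVF cert v = true :=
    cover_step h22 (chkRangeF_spec (c := cert) 299460 230 kF_299460) rfl
  have h24 : ∀ v < 299920, chkVF cert v = true :=
    cover_step h23 (chkRangeF_spec (c := cert) 299690 230 kF_299690) rfl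
  have h25 : ∀ v < 300150, chkVF cert v = true :=
    cover_step h24 (chkRangeF_spec (c := cert) 299920 230 kF_299920) rfl
  have h26 : ∀ v < 300380, chkVF cert v = true :=
    cover_step h25 (chkRangeF_spec (c := cert) 300150 230 kF_300150) rfl
  have h27 : ∀ v < 300610, chkVF cert v = true :=
    cover_step h26 (chkRangeF_spec (c := cert) 300380 230 kF_300380) rfl
  have h28 : ∀ v < 300840, chkVF cert v = true :=
    cover_step h27 (chkRangeF_spec (c := cert) 300610 230 kF_300610) rfl
  have h29 : ∀ v < 301070, chkVF cert v = true :=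
    cover_step h28 (chkRangeF_spec (c := cert) 300840 230 kF_300840) rfl
  have h30 : ∀ v < 301300, chkVF cert v = true :=
    cover_step h29 (chkRangeF_spec (c := cert) 301070 230 kF_301070) rfl
  have h31 : ∀ v < 301530, chkVF cert v = true :=
    cover_step h30 (chkRangeF_spec (c := cert) 301300 230 kF_301300) rfl
  have h32 : ∀ v < 301760, chkVF cert v = true :=
    cover_step h31 (chkRangeF_spec (c := cert) 301530 230 kF_301530) rfl
  have h33 : ∀ v < 301990, chkVF cert v = true :=
    cover_step h32 (chkRangeF_spec (c := cert) 301760 230 kF_301760) rfl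
  have h34 : ∀ v < 302220, chkVF cert v = true :=
    cover_step h33 (chkRangeF_spec (c := cert) 301990 230 kF_301990) rfl
  have h35 : ∀ v < 302450, chkVF cert v = true :=
    cover_step h34 (chkRangeF_spec (c := cert) 302220 230 kF_302220) rfl
  have h36 : ∀ v < 302680, chkVF cert v = true :=
    cover_step h35 (chkRangeF_spec (c := cert) 302450 230 kF_302450) rfl
  have h37 : ∀ v < 302910, chkVF cert v = true :=
    cover_step h36 (chkRangeF_spec (c := cert) 302680 230 kF_302680) rfl
  have h38 : ∀ v < 303140, chkVF cert v = true :=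
    cover_step h37 (chkRangeF_spec (c := cert) 302910 230 kF_302910) rfl
  have h39 : ∀ v < 303370, chkVF cert v = true :=
    cover_step h38 (chkRangeF_spec (c := cert) 303140 230 kF_303140) rfl
  have h40 : ∀ v < 303600, chkVF cert v = true :=
    cover_step h39 (chkRangeF_spec (c := cert) 303370 230 kF_303370) rfl
  have h41 : ∀ v < 303830, chkVF cert v = true :=
    cover_step h40 (chkRangeF_spec (c := cert) 303600 230 kF_303600) rfl
  have h42 : ∀ v < 304060, chkVF cert v = true :=
    cover_step h41 (chkRangeF_spec (c := cert) 303830 230 kF_303830) rfl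
  have h43 : ∀ v < 304290, chkVF cert v = true :=
    cover_step h42 (chkRangeF_spec (c := cert) 304060 230 kF_304060) rfl
  have h44 : ∀ v < 304520, chkVF cert v = true :=
    cover_step h43 (chkRangeF_spec (c := cert) 304290 230 kF_304290) rfl
  have h45 : ∀ v < 304750, chkVF cert v = true :=
    cover_step h44 (chkRangeF_spec (c := cert) 304520 230 kF_304520) rfl
  have h46 : ∀ v < 304980, chkVF cert v = true :=
    cover_step h45 (chkRangeF_spec (c := cert) 304750 230 kF_304750) rfl
  have h47 : ∀ v < 305210, chkVF cert v = true :=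
    cover_step h46 (chkRangeF_spec (c := cert) 304980 230 kF_304980) rfl
  have h48 : ∀ v < 305440, chkVF cert v = true :=
    cover_step h47 (chkRangeF_spec (c := cert) 305210 230 kF_305210) rfl
  have h49 : ∀ v < 305670, chkVF cert v = true :=
    cover_step h48 (chkRangeF_spec (c := cert) 305440 230 kF_305440) rfl
  have h50 : ∀ v < 305900, chkVF cert v = true :=
    cover_step h49 (chkRangeF_spec (c := cert) 305670 230 kF_305670) rfl
  have h51 : ∀ v < 306130, chkVF cert v = true :=
    cover_step h50 (chkRangeF_spec (c := cert) 305900 230 kF_305900) rfl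
  have h52 : ∀ v < 306360, chkVF cert v = true :=
    cover_step h51 (chkRangeF_spec (c := cert) 306130 230 kF_306130) rfl
  have h53 : ∀ v < 306590, chkVF cert v = true :=
    cover_step h52 (chkRangeF_spec (c := cert) 306360 230 kF_306360) rfl
  have h54 : ∀ v < 306820, chkVF cert v = true :=
    cover_step h53 (chkRangeF_spec (c := cert) 306590 230 kF_306590) rfl
  have h55 : ∀ v < 306936, chkVF cert v = true :=
    cover_step h54 (chkRangeF_spec (c := cert) 306820 116 kF_306820) rfl
  exact h55

theorem allFin_0 : ∀ v < 128000, finAt cert v cert.ncols = true := by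
  have h0 : ∀ v < 0, finAt cert v cert.ncols = true := fun v hv => absurd hv (Nat.not_lt_zero v)
  have h1 : ∀ v < 2000, finAt cert v cert.ncols = true :=
    cover_step h0 (chkRangeFin_spec (c := cert) 0 2000 kFin_0) rfl
  have h2 : ∀ v < 4000, finAt cert v cert.ncols = true :=
    cover_step h1 (chkRangeFin_spec (c := cert) 2000 2000 kFin_2000) rfl
  have h3 : ∀ v < 6000, finAt cert v cert.ncols = true :=
    cover_step h2 (chkRangeFin_spec (c := cert) 4000 2000 kFin_4000) rfl
  have h4 : ∀ v < 8000, finAt cert v cert.ncols = true :=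
    cover_step h3 (chkRangeFin_spec (c := cert) 6000 2000 kFin_6000) rfl
  have h5 : ∀ v < 10000, finAt cert v cert.ncols = true :=
    cover_step h4 (chkRangeFin_spec (c := cert) 8000 2000 kFin_8000) rfl
  have h6 : ∀ v < 12000, finAt cert v cert.ncols = true :=
    cover_step h5 (chkRangeFin_spec (c := cert) 10000 2000 kFin_10000) rfl
  have h7 : ∀ v < 14000, finAt cert v cert.ncols = true :=
    cover_step h6 (chkRangeFin_spec (c := cert) 12000 2000 kFin_12000) rfl
  have h8 : ∀ v < 16000, finAt cert v cert.ncols = true :=
    cover_step h7 (chkRangeFin_spec (c := cert) 14000 2000 kFin_14000) rfl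
  have h9 : ∀ v < 18000, finAt cert v cert.ncols = true :=
    cover_step h8 (chkRangeFin_spec (c := cert) 16000 2000 kFin_16000) rfl
  have h10 : ∀ v < 20000, finAt cert v cert.ncols = true :=
    cover_step h9 (chkRangeFin_spec (c := cert) 18000 2000 kFin_18000) rfl
  have h11 : ∀ v < 22000, finAt cert v cert.ncols = true :=
    cover_step h10 (chkRangeFin_spec (c := cert) 20000 2000 kFin_20000) rfl
  have h12 : ∀ v < 24000, finAt cert v cert.ncols = true :=
    cover_step h11 (chkRangeFin_spec (c := cert) 22000 2000 kFin_22000) rfl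
  have h13 : ∀ v < 26000, finAt cert v cert.ncols = true :=
    cover_step h12 (chkRangeFin_spec (c := cert) 24000 2000 kFin_24000) rfl
  have h14 : ∀ v < 28000, finAt cert v cert.ncols = true :=
    cover_step h13 (chkRangeFin_spec (c := cert) 26000 2000 kFin_26000) rfl
  have h15 : ∀ v < 30000, finAt cert v cert.ncols = true :=
    cover_step h14 (chkRangeFin_spec (c := cert) 28000 2000 kFin_28000) rfl
  have h16 : ∀ v < 32000, finAt cert v cert.ncols = true :=
    cover_step h15 (chkRangeFin_spec (c := cert) 30000 2000 kFin_30000) rfl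
  have h17 : ∀ v < 34000, finAt cert v cert.ncols = true :=
    cover_step h16 (chkRangeFin_spec (c := cert) 32000 2000 kFin_32000) rfl
  have h18 : ∀ v < 36000, finAt cert v cert.ncols = true :=
    cover_step h17 (chkRangeFin_spec (c := cert) 34000 2000 kFin_34000) rfl
  have h19 : ∀ v < 38000, finAt cert v cert.ncols = true :=
    cover_step h18 (chkRangeFin_spec (c := cert) 36000 2000 kFin_36000) rfl
  have h20 : ∀ v < 40000, finAt cert v cert.ncols = true :=
    cover_step h19 (chkRangeFin_spec (c := cert) 38000 2000 kFin_38000) rfl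
  have h21 : ∀ v < 42000, finAt cert v cert.ncols = true :=
    cover_step h20 (chkRangeFin_spec (c := cert) 40000 2000 kFin_40000) rfl
  have h22 : ∀ v < 44000, finAt cert v cert.ncols = true :=
    cover_step h21 (chkRangeFin_spec (c := cert) 42000 2000 kFin_42000) rfl
  have h23 : ∀ v < 46000, finAt cert v cert.ncols = true :=
    cover_step h22 (chkRangeFin_spec (c := cert) 44000 2000 kFin_44000) rfl
  have h24 : ∀ v < 48000, finAt cert v cert.ncols = true :=
    cover_step h23 (chkRangeFin_spec (c := cert) 46000 2000 kFin_46000) rfl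
  have h25 : ∀ v < 50000, finAt cert v cert.ncols = true :=
    cover_step h24 (chkRangeFin_spec (c := cert) 48000 2000 kFin_48000) rfl
  have h26 : ∀ v < 52000, finAt cert v cert.ncols = true :=
    cover_step h25 (chkRangeFin_spec (c := cert) 50000 2000 kFin_50000) rfl
  have h27 : ∀ v < 54000, finAt cert v cert.ncols = true :=
    cover_step h26 (chkRangeFin_spec (c := cert) 52000 2000 kFin_52000) rfl
  have h28 : ∀ v < 56000, finAt cert v cert.ncols = true :=
    cover_step h27 (chkRangeFin_spec (c := cert) 54000 2000 kFin_54000) rfl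
  have h29 : ∀ v < 58000, finAt cert v cert.ncols = true :=
    cover_step h28 (chkRangeFin_spec (c := cert) 56000 2000 kFin_56000) rfl
  have h30 : ∀ v < 60000, finAt cert v cert.ncols = true :=
    cover_step h29 (chkRangeFin_spec (c := cert) 58000 2000 kFin_58000) rfl
  have h31 : ∀ v < 62000, finAt cert v cert.ncols = true :=
    cover_step h30 (chkRangeFin_spec (c := cert) 60000 2000 kFin_60000) rfl
  have h32 : ∀ v < 64000, finAt cert v cert.ncols = true :=
    cover_step h31 (chkRangeFin_spec (c := cert) 62000 2000 kFin_62000) rfl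
  have h33 : ∀ v < 66000, finAt cert v cert.ncols = true :=
    cover_step h32 (chkRangeFin_spec (c := cert) 64000 2000 kFin_64000) rfl
  have h34 : ∀ v < 68000, finAt cert v cert.ncols = true :=
    cover_step h33 (chkRangeFin_spec (c := cert) 66000 2000 kFin_66000) rfl
  have h35 : ∀ v < 70000, finAt cert v cert.ncols = true :=
    cover_step h34 (chkRangeFin_spec (c := cert) 68000 2000 kFin_68000) rfl
  have h36 : ∀ v < 72000, finAt cert v cert.ncols = true :=
    cover_step h35 (chkRangeFin_spec (c := cert) 70000 2000 kFin_70000) rfl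
  have h37 : ∀ v < 74000, finAt cert v cert.ncols = true :=
    cover_step h36 (chkRangeFin_spec (c := cert) 72000 2000 kFin_72000) rfl
  have h38 : ∀ v < 76000, finAt cert v cert.ncols = true :=
    cover_step h37 (chkRangeFin_spec (c := cert) 74000 2000 kFin_74000) rfl
  have h39 : ∀ v < 78000, finAt cert v cert.ncols = true :=
    cover_step h38 (chkRangeFin_spec (c := cert) 76000 2000 kFin_76000) rfl
  have h40 : ∀ v < 80000, finAt cert v cert.ncols = true :=
    cover_step h39 (chkRangeFin_spec (c := cert) 78000 2000 kFin_78000) rfl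
  have h41 : ∀ v < 82000, finAt cert v cert.ncols = true :=
    cover_step h40 (chkRangeFin_spec (c := cert) 80000 2000 kFin_80000) rfl
  have h42 : ∀ v < 84000, finAt cert v cert.ncols = true :=
    cover_step h41 (chkRangeFin_spec (c := cert) 82000 2000 kFin_82000) rfl
  have h43 : ∀ v < 86000, finAt cert v cert.ncols = true :=
    cover_step h42 (chkRangeFin_spec (c := cert) 84000 2000 kFin_84000) rfl
  have h44 : ∀ v < 88000, finAt cert v cert.ncols = true :=
    cover_step h43 (chkRangeFin_spec (c := cert) 86000 2000 kFin_86000) rfl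
  have h45 : ∀ v < 90000, finAt cert v cert.ncols = true :=
    cover_step h44 (chkRangeFin_spec (c := cert) 88000 2000 kFin_88000) rfl
  have h46 : ∀ v < 92000, finAt cert v cert.ncols = true :=
    cover_step h45 (chkRangeFin_spec (c := cert) 90000 2000 kFin_90000) rfl
  have h47 : ∀ v < 94000, finAt cert v cert.ncols = true :=
    cover_step h46 (chkRangeFin_spec (c := cert) 92000 2000 kFin_92000) rfl
  have h48 : ∀ v < 96000, finAt cert v cert.ncols = true :=
    cover_step h47 (chkRangeFin_spec (c := cert) 94000 2000 kFin_94000) rfl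
  have h49 : ∀ v < 98000, finAt cert v cert.ncols = true :=
    cover_step h48 (chkRangeFin_spec (c := cert) 96000 2000 kFin_96000) rfl
  have h50 : ∀ v < 100000, finAt cert v cert.ncols = true :=
    cover_step h49 (chkRangeFin_spec (c := cert) 98000 2000 kFin_98000) rfl
  have h51 : ∀ v < 102000, finAt cert v cert.ncols = true :=
    cover_step h50 (chkRangeFin_spec (c := cert) 100000 2000 kFin_100000) rfl
  have h52 : ∀ v < 104000, finAt cert v cert.ncols = true :=
    cover_step h51 (chkRangeFin_spec (c := cert) 102000 2000 kFin_102000) rfl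
  have h53 : ∀ v < 106000, finAt cert v cert.ncols = true :=
    cover_step h52 (chkRangeFin_spec (c := cert) 104000 2000 kFin_104000) rfl
  have h54 : ∀ v < 108000, finAt cert v cert.ncols = true :=
    cover_step h53 (chkRangeFin_spec (c := cert) 106000 2000 kFin_106000) rfl
  have h55 : ∀ v < 110000, finAt cert v cert.ncols = true :=
    cover_step h54 (chkRangeFin_spec (c := cert) 108000 2000 kFin_108000) rfl
  have h56 : ∀ v < 112000, finAt cert v cert.ncols = true :=
    cover_step h55 (chkRangeFin_spec (c := cert) 110000 2000 kFin_110000) rfl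
  have h57 : ∀ v < 114000, finAt cert v cert.ncols = true :=
    cover_step h56 (chkRangeFin_spec (c := cert) 112000 2000 kFin_112000) rfl
  have h58 : ∀ v < 116000, finAt cert v cert.ncols = true :=
    cover_step h57 (chkRangeFin_spec (c := cert) 114000 2000 kFin_114000) rfl
  have h59 : ∀ v < 118000, finAt cert v cert.ncols = true :=
    cover_step h58 (chkRangeFin_spec (c := cert) 116000 2000 kFin_116000) rfl
  have h60 : ∀ v < 120000, finAt cert v cert.ncols = true :=
    cover_step h59 (chkRangeFin_spec (c := cert) 118000 2000 kFin_118000) rfl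
  have h61 : ∀ v < 122000, finAt cert v cert.ncols = true :=
    cover_step h60 (chkRangeFin_spec (c := cert) 120000 2000 kFin_120000) rfl
  have h62 : ∀ v < 124000, finAt cert v cert.ncols = true :=
    cover_step h61 (chkRangeFin_spec (c := cert) 122000 2000 kFin_122000) rfl
  have h63 : ∀ v < 126000, finAt cert v cert.ncols = true :=
    cover_step h62 (chkRangeFin_spec (c := cert) 124000 2000 kFin_124000) rfl
  have h64 : ∀ v < 128000, finAt cert v cert.ncols = true :=
    cover_step h63 (chkRangeFin_spec (c := cert) 126000 2000 kFin_126000) rfl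
  exact h64

theorem allFin_1 : ∀ v < 256000, finAt cert v cert.ncols = true := by
  have h0 := allFin_0
  have h1 : ∀ v < 130000, finAt cert v cert.ncols = true :=
    cover_step h0 (chkRangeFin_spec (c := cert) 128000 2000 kFin_128000) rfl
  have h2 : ∀ v < 132000, finAt cert v cert.ncols = true :=
    cover_step h1 (chkRangeFin_spec (c := cert) 130000 2000 kFin_130000) rfl
  have h3 : ∀ v < 134000, finAt cert v cert.ncols = true :=
    cover_step h2 (chkRangeFin_spec (c := cert) 132000 2000 kFin_132000) rfl
  have h4 : ∀ v < 136000, finAt cert v cert.ncols = true :=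
    cover_step h3 (chkRangeFin_spec (c := cert) 134000 2000 kFin_134000) rfl
  have h5 : ∀ v < 138000, finAt cert v cert.ncols = true :=
    cover_step h4 (chkRangeFin_spec (c := cert) 136000 2000 kFin_136000) rfl
  have h6 : ∀ v < 140000, finAt cert v cert.ncols = true :=
    cover_step h5 (chkRangeFin_spec (c := cert) 138000 2000 kFin_138000) rfl
  have h7 : ∀ v < 142000, finAt cert v cert.ncols = true :=
    cover_step h6 (chkRangeFin_spec (c := cert) 140000 2000 kFin_140000) rfl
  have h8 : ∀ v < 144000, finAt cert v cert.ncols = true :=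
    cover_step h7 (chkRangeFin_spec (c := cert) 142000 2000 kFin_142000) rfl
  have h9 : ∀ v < 146000, finAt cert v cert.ncols = true :=
    cover_step h8 (chkRangeFin_spec (c := cert) 144000 2000 kFin_144000) rfl
  have h10 : ∀ v < 148000, finAt cert v cert.ncols = true :=
    cover_step h9 (chkRangeFin_spec (c := cert) 146000 2000 kFin_146000) rfl
  have h11 : ∀ v < 150000, finAt cert v cert.ncols = true :=
    cover_step h10 (chkRangeFin_spec (c := cert) 148000 2000 kFin_148000) rfl
  have h12 : ∀ v < 152000, finAt cert v cert.ncols = true :=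
    cover_step h11 (chkRangeFin_spec (c := cert) 150000 2000 kFin_150000) rfl
  have h13 : ∀ v < 154000, finAt cert v cert.ncols = true :=
    cover_step h12 (chkRangeFin_spec (c := cert) 152000 2000 kFin_152000) rfl
  have h14 : ∀ v < 156000, finAt cert v cert.ncols = true :=
    cover_step h13 (chkRangeFin_spec (c := cert) 154000 2000 kFin_154000) rfl
  have h15 : ∀ v < 158000, finAt cert v cert.ncols = true :=
    cover_step h14 (chkRangeFin_spec (c := cert) 156000 2000 kFin_156000) rfl
  have h16 : ∀ v < 160000, finAt cert v cert.ncols = true :=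
    cover_step h15 (chkRangeFin_spec (c := cert) 158000 2000 kFin_158000) rfl
  have h17 : ∀ v < 162000, finAt cert v cert.ncols = true :=
    cover_step h16 (chkRangeFin_spec (c := cert) 160000 2000 kFin_160000) rfl
  have h18 : ∀ v < 164000, finAt cert v cert.ncols = true :=
    cover_step h17 (chkRangeFin_spec (c := cert) 162000 2000 kFin_162000) rfl
  have h19 : ∀ v < 166000, finAt cert v cert.ncols = true :=
    cover_step h18 (chkRangeFin_spec (c := cert) 164000 2000 kFin_164000) rfl
  have h20 : ∀ v < 168000, finAt cert v cert.ncols = true :=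
    cover_step h19 (chkRangeFin_spec (c := cert) 166000 2000 kFin_166000) rfl
  have h21 : ∀ v < 170000, finAt cert v cert.ncols = true :=
    cover_step h20 (chkRangeFin_spec (c := cert) 168000 2000 kFin_168000) rfl
  have h22 : ∀ v < 172000, finAt cert v cert.ncols = true :=
    cover_step h21 (chkRangeFin_spec (c := cert) 170000 2000 kFin_170000) rfl
  have h23 : ∀ v < 174000, finAt cert v cert.ncols = true :=
    cover_step h22 (chkRangeFin_spec (c := cert) 172000 2000 kFin_172000) rfl
  have h24 : ∀ v < 176000, finAt cert v cert.ncols = true :=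
    cover_step h23 (chkRangeFin_spec (c := cert) 174000 2000 kFin_174000) rfl
  have h25 : ∀ v < 178000, finAt cert v cert.ncols = true :=
    cover_step h24 (chkRangeFin_spec (c := cert) 176000 2000 kFin_176000) rfl
  have h26 : ∀ v < 180000, finAt cert v cert.ncols = true :=
    cover_step h25 (chkRangeFin_spec (c := cert) 178000 2000 kFin_178000) rfl
  have h27 : ∀ v < 182000, finAt cert v cert.ncols = true :=
    cover_step h26 (chkRangeFin_spec (c := cert) 180000 2000 kFin_180000) rfl
  have h28 : ∀ v < 184000, finAt cert v cert.ncols = true :=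
    cover_step h27 (chkRangeFin_spec (c := cert) 182000 2000 kFin_182000) rfl
  have h29 : ∀ v < 186000, finAt cert v cert.ncols = true :=
    cover_step h28 (chkRangeFin_spec (c := cert) 184000 2000 kFin_184000) rfl
  have h30 : ∀ v < 188000, finAt cert v cert.ncols = true :=
    cover_step h29 (chkRangeFin_spec (c := cert) 186000 2000 kFin_186000) rfl
  have h31 : ∀ v < 190000, finAt cert v cert.ncols = true :=
    cover_step h30 (chkRangeFin_spec (c := cert) 188000 2000 kFin_188000) rfl
  have h32 : ∀ v < 192000, finAt cert v cert.ncols = true :=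
    cover_step h31 (chkRangeFin_spec (c := cert) 190000 2000 kFin_190000) rfl
  have h33 : ∀ v < 194000, finAt cert v cert.ncols = true :=
    cover_step h32 (chkRangeFin_spec (c := cert) 192000 2000 kFin_192000) rfl
  have h34 : ∀ v < 196000, finAt cert v cert.ncols = true :=
    cover_step h33 (chkRangeFin_spec (c := cert) 194000 2000 kFin_194000) rfl
  have h35 : ∀ v < 198000, finAt cert v cert.ncols = true :=
    cover_step h34 (chkRangeFin_spec (c := cert) 196000 2000 kFin_196000) rfl
  have h36 : ∀ v < 200000, finAt cert v cert.ncols = true :=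
    cover_step h35 (chkRangeFin_spec (c := cert) 198000 2000 kFin_198000) rfl
  have h37 : ∀ v < 202000, finAt cert v cert.ncols = true :=
    cover_step h36 (chkRangeFin_spec (c := cert) 200000 2000 kFin_200000) rfl
  have h38 : ∀ v < 204000, finAt cert v cert.ncols = true :=
    cover_step h37 (chkRangeFin_spec (c := cert) 202000 2000 kFin_202000) rfl
  have h39 : ∀ v < 206000, finAt cert v cert.ncols = true :=
    cover_step h38 (chkRangeFin_spec (c := cert) 204000 2000 kFin_204000) rfl
  have h40 : ∀ v < 208000, finAt cert v cert.ncols = true :=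
    cover_step h39 (chkRangeFin_spec (c := cert) 206000 2000 kFin_206000) rfl
  have h41 : ∀ v < 210000, finAt cert v cert.ncols = true :=
    cover_step h40 (chkRangeFin_spec (c := cert) 208000 2000 kFin_208000) rfl
  have h42 : ∀ v < 212000, finAt cert v cert.ncols = true :=
    cover_step h41 (chkRangeFin_spec (c := cert) 210000 2000 kFin_210000) rfl
  have h43 : ∀ v < 214000, finAt cert v cert.ncols = true :=
    cover_step h42 (chkRangeFin_spec (c := cert) 212000 2000 kFin_212000) rfl
  have h44 : ∀ v < 216000, finAt cert v cert.ncols = true :=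
    cover_step h43 (chkRangeFin_spec (c := cert) 214000 2000 kFin_214000) rfl
  have h45 : ∀ v < 218000, finAt cert v cert.ncols = true :=
    cover_step h44 (chkRangeFin_spec (c := cert) 216000 2000 kFin_216000) rfl
  have h46 : ∀ v < 220000, finAt cert v cert.ncols = true :=
    cover_step h45 (chkRangeFin_spec (c := cert) 218000 2000 kFin_218000) rfl
  have h47 : ∀ v < 222000, finAt cert v cert.ncols = true :=
    cover_step h46 (chkRangeFin_spec (c := cert) 220000 2000 kFin_220000) rfl
  have h48 : ∀ v < 224000, finAt cert v cert.ncols = true :=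
    cover_step h47 (chkRangeFin_spec (c := cert) 222000 2000 kFin_222000) rfl
  have h49 : ∀ v < 226000, finAt cert v cert.ncols = true :=
    cover_step h48 (chkRangeFin_spec (c := cert) 224000 2000 kFin_224000) rfl
  have h50 : ∀ v < 228000, finAt cert v cert.ncols = true :=
    cover_step h49 (chkRangeFin_spec (c := cert) 226000 2000 kFin_226000) rfl
  have h51 : ∀ v < 230000, finAt cert v cert.ncols = true :=
    cover_step h50 (chkRangeFin_spec (c := cert) 228000 2000 kFin_228000) rfl
  have h52 : ∀ v < 232000, finAt cert v cert.ncols = true :=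
    cover_step h51 (chkRangeFin_spec (c := cert) 230000 2000 kFin_230000) rfl
  have h53 : ∀ v < 234000, finAt cert v cert.ncols = true :=
    cover_step h52 (chkRangeFin_spec (c := cert) 232000 2000 kFin_232000) rfl
  have h54 : ∀ v < 236000, finAt cert v cert.ncols = true :=
    cover_step h53 (chkRangeFin_spec (c := cert) 234000 2000 kFin_234000) rfl
  have h55 : ∀ v < 238000, finAt cert v cert.ncols = true :=
    cover_step h54 (chkRangeFin_spec (c := cert) 236000 2000 kFin_236000) rfl
  have h56 : ∀ v < 240000, finAt cert v cert.ncols = true :=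
    cover_step h55 (chkRangeFin_spec (c := cert) 238000 2000 kFin_238000) rfl
  have h57 : ∀ v < 242000, finAt cert v cert.ncols = true :=
    cover_step h56 (chkRangeFin_spec (c := cert) 240000 2000 kFin_240000) rfl
  have h58 : ∀ v < 244000, finAt cert v cert.ncols = true :=
    cover_step h57 (chkRangeFin_spec (c := cert) 242000 2000 kFin_242000) rfl
  have h59 : ∀ v < 246000, finAt cert v cert.ncols = true :=
    cover_step h58 (chkRangeFin_spec (c := cert) 244000 2000 kFin_244000) rfl
  have h60 : ∀ v < 248000, finAt cert v cert.ncols = true :=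
    cover_step h59 (chkRangeFin_spec (c := cert) 246000 2000 kFin_246000) rfl
  have h61 : ∀ v < 250000, finAt cert v cert.ncols = true :=
    cover_step h60 (chkRangeFin_spec (c := cert) 248000 2000 kFin_248000) rfl
  have h62 : ∀ v < 252000, finAt cert v cert.ncols = true :=
    cover_step h61 (chkRangeFin_spec (c := cert) 250000 2000 kFin_250000) rfl
  have h63 : ∀ v < 254000, finAt cert v cert.ncols = true :=
    cover_step h62 (chkRangeFin_spec (c := cert) 252000 2000 kFin_252000) rfl
  have h64 : ∀ v < 256000, finAt cert v cert.ncols = true :=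
    cover_step h63 (chkRangeFin_spec (c := cert) 254000 2000 kFin_254000) rfl
  exact h64

theorem allFin : ∀ v < 306936, finAt cert v cert.ncols = true := by
  have h0 := allFin_1
  have h1 : ∀ v < 258000, finAt cert v cert.ncols = true :=
    cover_step h0 (chkRangeFin_spec (c := cert) 256000 2000 kFin_256000) rfl
  have h2 : ∀ v < 260000, finAt cert v cert.ncols = true :=
    cover_step h1 (chkRangeFin_spec (c := cert) 258000 2000 kFin_258000) rfl
  have h3 : ∀ v < 262000, finAt cert v cert.ncols = true :=
    cover_step h2 (chkRangeFin_spec (c := cert) 260000 2000 kFin_260000) rfl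
  have h4 : ∀ v < 264000, finAt cert v cert.ncols = true :=
    cover_step h3 (chkRangeFin_spec (c := cert) 262000 2000 kFin_262000) rfl
  have h5 : ∀ v < 266000, finAt cert v cert.ncols = true :=
    cover_step h4 (chkRangeFin_spec (c := cert) 264000 2000 kFin_264000) rfl
  have h6 : ∀ v < 268000, finAt cert v cert.ncols = true :=
    cover_step h5 (chkRangeFin_spec (c := cert) 266000 2000 kFin_266000) rfl
  have h7 : ∀ v < 270000, finAt cert v cert.ncols = true :=
    cover_step h6 (chkRangeFin_spec (c := cert) 268000 2000 kFin_268000) rfl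
  have h8 : ∀ v < 272000, finAt cert v cert.ncols = true :=
    cover_step h7 (chkRangeFin_spec (c := cert) 270000 2000 kFin_270000) rfl
  have h9 : ∀ v < 274000, finAt cert v cert.ncols = true :=
    cover_step h8 (chkRangeFin_spec (c := cert) 272000 2000 kFin_272000) rfl
  have h10 : ∀ v < 276000, finAt cert v cert.ncols = true :=
    cover_step h9 (chkRangeFin_spec (c := cert) 274000 2000 kFin_274000) rfl
  have h11 : ∀ v < 278000, finAt cert v cert.ncols = true :=
    cover_step h10 (chkRangeFin_spec (c := cert) 276000 2000 kFin_276000) rfl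
  have h12 : ∀ v < 280000, finAt cert v cert.ncols = true :=
    cover_step h11 (chkRangeFin_spec (c := cert) 278000 2000 kFin_278000) rfl
  have h13 : ∀ v < 282000, finAt cert v cert.ncols = true :=
    cover_step h12 (chkRangeFin_spec (c := cert) 280000 2000 kFin_280000) rfl
  have h14 : ∀ v < 284000, finAt cert v cert.ncols = true :=
    cover_step h13 (chkRangeFin_spec (c := cert) 282000 2000 kFin_282000) rfl
  have h15 : ∀ v < 286000, finAt cert v cert.ncols = true :=
    cover_step h14 (chkRangeFin_spec (c := cert) 284000 2000 kFin_284000) rfl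
  have h16 : ∀ v < 288000, finAt cert v cert.ncols = true :=
    cover_step h15 (chkRangeFin_spec (c := cert) 286000 2000 kFin_286000) rfl
  have h17 : ∀ v < 290000, finAt cert v cert.ncols = true :=
    cover_step h16 (chkRangeFin_spec (c := cert) 288000 2000 kFin_288000) rfl
  have h18 : ∀ v < 292000, finAt cert v cert.ncols = true :=
    cover_step h17 (chkRangeFin_spec (c := cert) 290000 2000 kFin_290000) rfl
  have h19 : ∀ v < 294000, finAt cert v cert.ncols = true :=
    cover_step h18 (chkRangeFin_spec (c := cert) 292000 2000 kFin_292000) rfl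
  have h20 : ∀ v < 296000, finAt cert v cert.ncols = true :=
    cover_step h19 (chkRangeFin_spec (c := cert) 294000 2000 kFin_294000) rfl
  have h21 : ∀ v < 298000, finAt cert v cert.ncols = true :=
    cover_step h20 (chkRangeFin_spec (c := cert) 296000 2000 kFin_296000) rfl
  have h22 : ∀ v < 300000, finAt cert v cert.ncols = true :=
    cover_step h21 (chkRangeFin_spec (c := cert) 298000 2000 kFin_298000) rfl
  have h23 : ∀ v < 302000, finAt cert v cert.ncols = true :=
    cover_step h22 (chkRangeFin_spec (c := cert) 300000 2000 kFin_300000) rfl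
  have h24 : ∀ v < 304000, finAt cert v cert.ncols = true :=
    cover_step h23 (chkRangeFin_spec (c := cert) 302000 2000 kFin_302000) rfl
  have h25 : ∀ v < 306000, finAt cert v cert.ncols = true :=
    cover_step h24 (chkRangeFin_spec (c := cert) 304000 2000 kFin_304000) rfl
  have h26 : ∀ v < 306936, finAt cert v cert.ncols = true :=
    cover_step h25 (chkRangeFin_spec (c := cert) 306000 936 kFin_306000) rfl
  exact h26

theorem checked : Checked cert := ⟨small, allT, allF, allFin⟩

def colOf : Cfsg.Spor.Fi24.Gen → ℕ
  | .l => 0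
  | .k => 1
  | .a => 2
  | .b => 3
  | .c => 4
  | .d => 5
  | .e => 6
  | .f => 7
  | .g => 8
  | .j => 9
  | .h => 10
  | .i => 11

def colGen : ℕ → Cfsg.Spor.Fi24.Gen × Bool
  | 0 => (.l, true)
  | 1 => (.k, true)
  | 2 => (.a, true)
  | 3 => (.b, true)
  | 4 => (.c, true)
  | 5 => (.d, true)
  | 6 => (.e, true)
  | 7 => (.f, true)
  | 8 => (.g, true)
  | 9 => (.j, true)
  | 10 => (.h, true)
  | 11 => (.i, true)
  | _ => (.l, true)

def nodes : List Cfsg.Spor.Fi24.Gen := [.l, .k, .a, .b, .c, .d, .e, .f, .g, .h, .j, .i]

def extraEs : List WE := [(.mul (.g 0) (.inv (.pow (.mul (.mul (.mul (.mul (.mul (.mul (.g 2) (.g 3)) (.g 4)) (.g 5)) (.g 6)) (.g 7)) (.g 10)) 9))), (.pow (.mul (.mul (.mul (.mul (.mul (.mul (.mul (.mul (.mul (.mul (.mul (.mul (.mul (.g 5) (.g 4)) (.g 3)) (.g 2)) (.g 1)) (.g 0)) (.g 5)) (.g 6)) (.g 7)) (.g 8)) (.g 9)) (.g 5)) (.g 10)) (.g 11)) 17)]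

def subEs : List WE := [(.g 2), (.g 3), (.g 4), (.g 5), (.g 6), (.g 7), (.g 8), (.g 10), (.g 11), (.g 9), (.g 0)]

set_option maxHeartbeats 1000000 in
theorem link : Link Cfsg.Spor.Fi24.edges Cfsg.Spor.Fi24.extra ({Cfsg.Spor.Fi24.a, Cfsg.Spor.Fi24.b, Cfsg.Spor.Fi24.c, Cfsg.Spor.Fi24.d, Cfsg.Spor.Fi24.e, Cfsg.Spor.Fi24.f, Cfsg.Spor.Fi24.g, Cfsg.Spor.Fi24.h, Cfsg.Spor.Fi24.i, Cfsg.Spor.Fi24.j, Cfsg.Spor.Fi24.l} : Set (FreeGroup Cfsg.Spor.Fi24.Gen)) cert colOf colGen nodes extraEs subEs where
  hall := by intro x; cases x <;> exact ⟨by decide, rfl⟩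
  hcols := by decide +kernel
  hinvs := by decide +kernel
  hn1 := by decide +kernel
  hn2 := by decide +kernel
  hsym := by decide +kernel
  hrels := by decide +kernel
  hextra := rfl
  hok := by decide +kernel
  hsubs := by decide +kernel
  hS1 := by
    intro s hs
    simp only [Set.mem_insert_iff, Set.mem_singleton_iff] at hs
    rcases hs with rfl | rfl | rfl | rfl | rfl | rfl | rfl | rfl | rfl | rfl | rfl
    · exact ⟨(.g 2), List.mem_cons_self, rfl⟩
    · exact ⟨(.g 3), List.mem_cons_of_mem _ (List.mem_cons_self), rfl⟩
    · exact ⟨(.g 4), List.mem_cons_of_mem _ (List.mem_cons_of_mem _ (List.mem_cons_self)), rfl⟩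
    · exact ⟨(.g 5), List.mem_cons_of_mem _ (List.mem_cons_of_mem _ (List.mem_cons_of_mem _ (List.mem_cons_self))), rfl⟩
    · exact ⟨(.g 6), List.mem_cons_of_mem _ (List.mem_cons_of_mem _ (List.mem_cons_of_mem _ (List.mem_cons_of_mem _ (List.mem_cons_self)))), rfl⟩
    · exact ⟨(.g 7), List.mem_cons_of_mem _ (List.mem_cons_of_mem _ (List.mem_cons_of_mem _ (List.mem_cons_of_mem _ (List.mem_cons_of_mem _ (List.mem_cons_self))))), rfl⟩
    · exact ⟨(.g 8), List.mem_cons_of_mem _ (List.mem_cons_of_mem _ (List.mem_cons_of_mem _ (List.mem_cons_of_mem _ (List.mem_cons_of_mem _ (List.mem_cons_of_mem _ (List.mem_cons_self)))))), rfl⟩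
    · exact ⟨(.g 10), List.mem_cons_of_mem _ (List.mem_cons_of_mem _ (List.mem_cons_of_mem _ (List.mem_cons_of_mem _ (List.mem_cons_of_mem _ (List.mem_cons_of_mem _ (List.mem_cons_of_mem _ (List.mem_cons_self))))))), rfl⟩
    · exact ⟨(.g 11), List.mem_cons_of_mem _ (List.mem_cons_of_mem _ (List.mem_cons_of_mem _ (List.mem_cons_of_mem _ (List.mem_cons_of_mem _ (List.mem_cons_of_mem _ (List.mem_cons_of_mem _ (List.mem_cons_of_mem _ (List.mem_cons_self)))))))), rfl⟩
    · exact ⟨(.g 9), List.mem_cons_of_mem _ (List.mem_cons_of_mem _ (List.mem_cons_of_mem _ (List.mem_cons_of_mem _ (List.mem_cons_of_mem _ (List.mem_cons_of_mem _ (List.mem_cons_of_mem _ (List.mem_cons_of_mem _ (List.mem_cons_of_mem _ (List.mem_cons_self))))))))), rfl⟩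
    · exact ⟨(.g 0), List.mem_cons_of_mem _ (List.mem_cons_of_mem _ (List.mem_cons_of_mem _ (List.mem_cons_of_mem _ (List.mem_cons_of_mem _ (List.mem_cons_of_mem _ (List.mem_cons_of_mem _ (List.mem_cons_of_mem _ (List.mem_cons_of_mem _ (List.mem_cons_of_mem _ (List.mem_cons_self)))))))))), rfl⟩
  hS2 := by
    intro e he
    simp only [subEs, List.mem_cons, List.not_mem_nil, or_false] at he
    rcases he with rfl | rfl | rfl | rfl | rfl | rfl | rfl | rfl | rfl | rfl | rfl
    · exact (Or.inl rfl)
    · exact (Or.inr (Or.inl rfl))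
    · exact (Or.inr (Or.inr (Or.inl rfl)))
    · exact (Or.inr (Or.inr (Or.inr (Or.inl rfl))))
    · exact (Or.inr (Or.inr (Or.inr (Or.inr (Or.inl rfl)))))
    · exact (Or.inr (Or.inr (Or.inr (Or.inr (Or.inr (Or.inl rfl))))))
    · exact (Or.inr (Or.inr (Or.inr (Or.inr (Or.inr (Or.inr (Or.inl rfl)))))))
    · exact (Or.inr (Or.inr (Or.inr (Or.inr (Or.inr (Or.inr (Or.inr (Or.inl rfl))))))))
    · exact (Or.inr (Or.inr (Or.inr (Or.inr (Or.inr (Or.inr (Or.inr (Or.inr (Or.inl rfl)))))))))
    · exact (Or.inr (Or.inr (Or.inr (Or.inr (Or.inr (Or.inr (Or.inr (Or.inr (Or.inr (Or.inl rfl))))))))))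
    · exact (Or.inr (Or.inr (Or.inr (Or.inr (Or.inr (Or.inr (Or.inr (Or.inr (Or.inr (Or.inr rfl))))))))))

theorem index_eq : (((Subgroup.closure ({Cfsg.Spor.Fi24.a, Cfsg.Spor.Fi24.b, Cfsg.Spor.Fi24.c, Cfsg.Spor.Fi24.d, Cfsg.Spor.Fi24.e, Cfsg.Spor.Fi24.f, Cfsg.Spor.Fi24.g, Cfsg.Spor.Fi24.h, Cfsg.Spor.Fi24.i, Cfsg.Spor.Fi24.j, Cfsg.Spor.Fi24.l} : Set (FreeGroup Cfsg.Spor.Fi24.Gen))).map (PresentedGroup.mk (coxRelators Cfsg.Spor.Fi24.edges ∪ {r | r ∈ Cfsg.Spor.Fi24.extra})))).index = 306936 := by
  obtain ⟨ρ, e, -, -, -⟩ := link.main checked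
  exact (Nat.card_congr e).trans (Nat.card_fin _)

end Cfsg.Agent.Helper17.TCD.Fi24A
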