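import Mathlib
import Cfsg.Agent.Helper17.TCD.HeA_O

set_option autoImplicit false

namespace Cfsg.Agent.Helper17.TCD.HeA

open Cfsg.Agent.Helper17.TC

set_option maxHeartbeats 0 in
theorem kO_0 : chkRangeO cert orb 0 2000 = true := by decide +kernel

set_option maxHeartbeats 0 in
theorem kO_2000 : chkRangeO cert orb 2000 58 = true := by decide +kernel

set_option maxHeartbeats 0 in
theorem root_1 : rootOK cert orb 1 = true := by decide +kernel

set_option maxHeartbeats 0 in
theorem cnt_1 : cntB cert orb 1 12 0 = 1360 := by decide +kernel

set_option maxHeartbeats 0 in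
theorem root_2 : rootOK cert orb 2 = true := by decide +kernel

set_option maxHeartbeats 0 in
theorem cnt_2 : cntB cert orb 2 12 0 = 425 := by decide +kernel

set_option maxHeartbeats 0 in
theorem root_3 : rootOK cert orb 3 = true := by decide +kernel

set_option maxHeartbeats 0 in
theorem cnt_3 : cntB cert orb 3 12 0 = 136 := by decide +kernel

set_option maxHeartbeats 0 in
theorem root_4 : rootOK cert orb 4 = true := by decide +kernel

set_option maxHeartbeats 0 in
theorem cnt_4 : cntB cert orb 4 12 0 = 136 := by decide +kernel

end Cfsg.Agent.Helper17.TCD.HeA
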