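import Mathlib
import Cfsg.Prelude.Def_Spor_He
import Cfsg.Agent.Helper17.TCPres
import Cfsg.Agent.Helper17.TCOrbit
import Cfsg.Agent.Helper17.TCD.HeA_K0
import Cfsg.Agent.Helper17.TCD.HeA_KO0

set_option autoImplicit false

namespace Cfsg.Agent.Helper17.TCD.HeA

open Cfsg.Agent.Helper17.TC Cfsg.Spor

set_option maxHeartbeats 1000000 in
theorem small : chkSmall cert = true := by decide +kernel

theorem allT : ∀ v < 5988, chkRow cert v cert.ncols = true := by
  have h0 : ∀ v < 0, chkRow cert v cert.ncols = true := fun v hv => absurd hv (Nat.not_lt_zero v)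
  have h1 : ∀ v < 2000, chkRow cert v cert.ncols = true :=
    cover_step h0 (chkRangeT_spec (c := cert) 0 2000 kT_0) rfl
  have h2 : ∀ v < 4000, chkRow cert v cert.ncols = true :=
    cover_step h1 (chkRangeT_spec (c := cert) 2000 2000 kT_2000) rfl
  have h3 : ∀ v < 5988, chkRow cert v cert.ncols = true :=
    cover_step h2 (chkRangeT_spec (c := cert) 4000 1988 kT_4000) rfl
  exact h3

theorem allF : ∀ v < 2058, chkVF cert v = true := by
  have h0 : ∀ v < 0, chkVF cert v = true := fun v hv => absurd hv (Nat.not_lt_zero v)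
  have h1 : ∀ v < 761, chkVF cert v = true :=
    cover_step h0 (chkRangeF_spec (c := cert) 0 761 kF_0) rfl
  have h2 : ∀ v < 1522, chkVF cert v = true :=
    cover_step h1 (chkRangeF_spec (c := cert) 761 761 kF_761) rfl
  have h3 : ∀ v < 2058, chkVF cert v = true :=
    cover_step h2 (chkRangeF_spec (c := cert) 1522 536 kF_1522) rfl
  exact h3

theorem allFin : ∀ v < 2058, finAt cert v cert.ncols = true := by
  have h0 : ∀ v < 0, finAt cert v cert.ncols = true := fun v hv => absurd hv (Nat.not_lt_zero v)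
  have h1 : ∀ v < 2000, finAt cert v cert.ncols = true :=
    cover_step h0 (chkRangeFin_spec (c := cert) 0 2000 kFin_0) rfl
  have h2 : ∀ v < 2058, finAt cert v cert.ncols = true :=
    cover_step h1 (chkRangeFin_spec (c := cert) 2000 58 kFin_2000) rfl
  exact h2

theorem checked : Checked cert := ⟨small, allT, allF, allFin⟩

def colOf : Cfsg.Spor.He.Gen → ℕ
  | .a => 0
  | .b => 1
  | .c => 2
  | .d => 3
  | .e => 4
  | .f => 5
  | .g => 6

def colGen : ℕ → Cfsg.Spor.He.Gen × Bool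
  | 0 => (.a, true)
  | 1 => (.b, true)
  | 2 => (.c, true)
  | 3 => (.d, true)
  | 4 => (.e, true)
  | 5 => (.f, true)
  | 6 => (.g, true)
  | _ => (.a, true)

def nodes : List Cfsg.Spor.He.Gen := [.a, .b, .c, .d, .f, .g, .e]

def extraEs : List WE := [(.mul (.g 4) (.inv (.pow (.mul (.g 5) (.g 6)) 2))), (.mul (.g 4) (.inv (.pow (.mul (.mul (.g 0) (.g 1)) (.g 2)) 3))), (.mul (.g 0) (.inv (.pow (.mul (.g 2) (.g 3)) 5))), (.pow (.mul (.mul (.mul (.g 2) (.g 3)) (.g 5)) (.g 6)) 4)]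

def subEs : List WE := [(.g 0), (.g 2), (.g 3), (.g 4), (.g 5), (.pow (.mul (.g 0) (.g 1)) 2), (.pow (.mul (.mul (.mul (.g 1) (.g 2)) (.g 3)) (.g 4)) 7)]

set_option maxHeartbeats 1000000 in
theorem link : Link Cfsg.Spor.He.edges Cfsg.Spor.He.extra ({Cfsg.Spor.He.a, Cfsg.Spor.He.c, Cfsg.Spor.He.d, Cfsg.Spor.He.e, Cfsg.Spor.He.f, (Cfsg.Spor.He.a * Cfsg.Spor.He.b) ^ 2, (Cfsg.Spor.He.b * Cfsg.Spor.He.c * Cfsg.Spor.He.d * Cfsg.Spor.He.e) ^ 7} : Set (FreeGroup Cfsg.Spor.He.Gen)) cert colOf colGen nodes extraEs subEs where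
  hall := by intro x; cases x <;> exact ⟨by decide, rfl⟩
  hcols := by decide +kernel
  hinvs := by decide +kernel
  hn1 := by decide +kernel
  hn2 := by decide +kernel
  hsym := by decide +kernel
  hrels := by decide +kernel
  hextra := rfl
  hok := by decide +kernel
  hsubs := by decide +kernel
  hS1 := by
    intro s hs
    simp only [Set.mem_insert_iff, Set.mem_singleton_iff] at hs
    rcases hs with rfl | rfl | rfl | rfl | rfl | rfl | rfl
    · exact ⟨(.g 0), List.mem_cons_self, rfl⟩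
    · exact ⟨(.g 2), List.mem_cons_of_mem _ (List.mem_cons_self), rfl⟩
    · exact ⟨(.g 3), List.mem_cons_of_mem _ (List.mem_cons_of_mem _ (List.mem_cons_self)), rfl⟩
    · exact ⟨(.g 4), List.mem_cons_of_mem _ (List.mem_cons_of_mem _ (List.mem_cons_of_mem _ (List.mem_cons_self))), rfl⟩
    · exact ⟨(.g 5), List.mem_cons_of_mem _ (List.mem_cons_of_mem _ (List.mem_cons_of_mem _ (List.mem_cons_of_mem _ (List.mem_cons_self)))), rfl⟩
    · exact ⟨(.pow (.mul (.g 0) (.g 1)) 2), List.mem_cons_of_mem _ (List.mem_cons_of_mem _ (List.mem_cons_of_mem _ (List.mem_cons_of_mem _ (List.mem_cons_of_mem _ (List.mem_cons_self))))), rfl⟩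
    · exact ⟨(.pow (.mul (.mul (.mul (.g 1) (.g 2)) (.g 3)) (.g 4)) 7), List.mem_cons_of_mem _ (List.mem_cons_of_mem _ (List.mem_cons_of_mem _ (List.mem_cons_of_mem _ (List.mem_cons_of_mem _ (List.mem_cons_of_mem _ (List.mem_cons_self)))))), rfl⟩
  hS2 := by
    intro e he
    simp only [subEs, List.mem_cons, List.not_mem_nil, or_false] at he
    rcases he with rfl | rfl | rfl | rfl | rfl | rfl | rfl
    · exact (Or.inl rfl)
    · exact (Or.inr (Or.inl rfl))
    · exact (Or.inr (Or.inr (Or.inl rfl)))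
    · exact (Or.inr (Or.inr (Or.inr (Or.inl rfl))))
    · exact (Or.inr (Or.inr (Or.inr (Or.inr (Or.inl rfl)))))
    · exact (Or.inr (Or.inr (Or.inr (Or.inr (Or.inr (Or.inl rfl))))))
    · exact (Or.inr (Or.inr (Or.inr (Or.inr (Or.inr (Or.inr rfl))))))

theorem index_eq : (((Subgroup.closure ({Cfsg.Spor.He.a, Cfsg.Spor.He.c, Cfsg.Spor.He.d, Cfsg.Spor.He.e, Cfsg.Spor.He.f, (Cfsg.Spor.He.a * Cfsg.Spor.He.b) ^ 2, (Cfsg.Spor.He.b * Cfsg.Spor.He.c * Cfsg.Spor.He.d * Cfsg.Spor.He.e) ^ 7} : Set (FreeGroup Cfsg.Spor.He.Gen))).map (PresentedGroup.mk (coxRelators Cfsg.Spor.He.edges ∪ {r | r ∈ Cfsg.Spor.He.extra})))).index = 2058 := by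
  obtain ⟨ρ, e, -, -, -⟩ := link.main checked
  exact (Nat.card_congr e).trans (Nat.card_fin _)

theorem allO : ∀ v < 2058, orbAt cert orb v = true := by
  have h0 : ∀ v < 0, orbAt cert orb v = true := fun v hv => absurd hv (Nat.not_lt_zero v)
  have h1 : ∀ v < 2000, orbAt cert orb v = true :=
    cover_step h0 (chkRangeO_spec cert orb 0 2000 kO_0) rfl
  have h2 : ∀ v < 2058, orbAt cert orb v = true :=
    cover_step h1 (chkRangeO_spec cert orb 2000 58 kO_2000) rfl
  exact h2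


end Cfsg.Agent.Helper17.TCD.HeA
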