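import Mathlib
import Cfsg.Agent.Helper17.TC
import Cfsg.Agent.Helper17.TCD.ONA_A0
import Cfsg.Agent.Helper17.TCD.ONA_A1
import Cfsg.Agent.Helper17.TCD.ONA_A2
import Cfsg.Agent.Helper17.TCD.ONA_A3
import Cfsg.Agent.Helper17.TCD.ONA_A4
import Cfsg.Agent.Helper17.TCD.ONA_A5
import Cfsg.Agent.Helper17.TCD.ONA_A6
import Cfsg.Agent.Helper17.TCD.ONA_A7
import Cfsg.Agent.Helper17.TCD.ONA_A8
import Cfsg.Agent.Helper17.TCD.ONA_A9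
import Cfsg.Agent.Helper17.TCD.ONA_A10
import Cfsg.Agent.Helper17.TCD.ONA_A11
import Cfsg.Agent.Helper17.TCD.ONA_A12
import Cfsg.Agent.Helper17.TCD.ONA_A13

set_option autoImplicit false

namespace Cfsg.Agent.Helper17.TCD.ONA

open Cfsg.Agent.Helper17.TC

def relsL : List (List ℕ) := [[2, 2], [2, 3, 2, 3, 2, 3], [2, 4, 2, 4], [2, 5, 2, 5], [2, 6, 2, 6], [2, 7, 2, 7], [3, 3], [3, 4, 3, 4, 3, 4], [3, 5, 3, 5], [3, 6, 3, 6], [3, 7, 3, 7], [4, 4], [4, 5, 4, 5, 4, 5, 4, 5, 4, 5, 4, 5, 4, 5, 4, 5], [4, 6, 4, 6], [4, 7, 4, 7], [5, 5], [5, 6, 5, 6, 5, 6], [5, 7, 5, 7], [6, 6], [6, 7, 6, 7, 6, 7], [7, 7], [2, 7, 1, 1], [2, 7, 5, 4, 5, 4, 5, 4, 5, 4], [4, 1, 5, 1, 5, 4, 5, 0, 5, 0], [5, 1, 4, 1, 4, 5, 4, 0, 4, 0], [3, 4, 5, 0, 3, 4, 5, 0, 3, 4, 5, 0, 3, 4, 5, 0, 3, 4, 5, 0], [0, 3, 4, 0, 4, 3, 0, 3, 4, 0, 4], [0, 6, 5, 0, 5, 6, 0,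 6, 5, 0, 5]]

def subsL : List (List ℕ) := [[2], [3], [4], [5], [6], [7]]

noncomputable def cert : Cert :=
  { ncols := 8, M := 187302, N := 122760, bt := 18, mt := 262143, W := 39, mW := 549755813887,
    WJ := 60, mJ := 1152921504606846975, bn := 17, mn := 131071, fuel := 64, ck := 8, cm := 255,
    invc := [1, 0, 2, 3, 4, 5, 6, 7], rels := relsL, subs := subsL,
    T := [T0, T1, T2, T3, T4, T5, T6, T7, T8], J := [J0, J1, J2, J3, J4, J5, J6, J7, J8], P := Pa,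
    F := [F0, F1, F2, F3, F4, F5, F6, F7] }

end Cfsg.Agent.Helper17.TCD.ONA
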