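import Mathlib
import Cfsg.Agent.Helper17.TCD.ONA_Cert

set_option autoImplicit false

namespace Cfsg.Agent.Helper17.TCD.ONA

open Cfsg.Agent.Helper17.TC

set_option maxHeartbeats 0 in
theorem kT_16000 : chkRangeT cert 16000 2000 = true := by decide +kernel

set_option maxHeartbeats 0 in
theorem kT_18000 : chkRangeT cert 18000 2000 = true := by decide +kernel

set_option maxHeartbeats 0 in
theorem kT_20000 : chkRangeT cert 20000 2000 = true := by decide +kernel

set_option maxHeartbeats 0 in
theorem kT_22000 : chkRangeT cert 22000 2000 = true := by decide +kernel

set_option maxHeartbeats 0 in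
theorem kT_24000 : chkRangeT cert 24000 2000 = true := by decide +kernel

set_option maxHeartbeats 0 in
theorem kT_26000 : chkRangeT cert 26000 2000 = true := by decide +kernel

set_option maxHeartbeats 0 in
theorem kT_28000 : chkRangeT cert 28000 2000 = true := by decide +kernel

set_option maxHeartbeats 0 in
theorem kT_30000 : chkRangeT cert 30000 2000 = true := by decide +kernel

end Cfsg.Agent.Helper17.TCD.ONA
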