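import Mathlib
import Cfsg.Agent.Helper17.TCD.ONA_Cert

set_option autoImplicit false

namespace Cfsg.Agent.Helper17.TCD.ONA

open Cfsg.Agent.Helper17.TC

set_option maxHeartbeats 0 in
theorem kT_150396 : chkRangeT cert 150396 2000 = true := by decide +kernel

set_option maxHeartbeats 0 in
theorem kT_152396 : chkRangeT cert 152396 2000 = true := by decide +kernel

set_option maxHeartbeats 0 in
theorem kT_154396 : chkRangeT cert 154396 2000 = true := by decide +kernel

set_option maxHeartbeats 0 in
theorem kT_156396 : chkRangeT cert 156396 2000 = true := by decide +kernel

set_option maxHeartbeats 0 in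
theorem kT_158396 : chkRangeT cert 158396 2000 = true := by decide +kernel

set_option maxHeartbeats 0 in
theorem kT_160396 : chkRangeT cert 160396 2000 = true := by decide +kernel

set_option maxHeartbeats 0 in
theorem kT_162396 : chkRangeT cert 162396 2000 = true := by decide +kernel

set_option maxHeartbeats 0 in
theorem kT_164396 : chkRangeT cert 164396 2000 = true := by decide +kernel

end Cfsg.Agent.Helper17.TCD.ONA
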