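import Mathlib
import Cfsg.Agent.Helper17.TCD.ONA_Cert

set_option autoImplicit false

namespace Cfsg.Agent.Helper17.TCD.ONA

open Cfsg.Agent.Helper17.TC

set_option maxHeartbeats 0 in
theorem kT_166396 : chkRangeT cert 166396 2000 = true := by decide +kernel

set_option maxHeartbeats 0 in
theorem kT_168396 : chkRangeT cert 168396 2000 = true := by decide +kernel

set_option maxHeartbeats 0 in
theorem kT_170396 : chkRangeT cert 170396 2000 = true := by decide +kernel

set_option maxHeartbeats 0 in
theorem kT_172396 : chkRangeT cert 172396 2000 = true := by decide +kernel

set_option maxHeartbeats 0 in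
theorem kT_174396 : chkRangeT cert 174396 2000 = true := by decide +kernel

set_option maxHeartbeats 0 in
theorem kT_176396 : chkRangeT cert 176396 2000 = true := by decide +kernel

set_option maxHeartbeats 0 in
theorem kT_178396 : chkRangeT cert 178396 2000 = true := by decide +kernel

set_option maxHeartbeats 0 in
theorem kT_180396 : chkRangeT cert 180396 2000 = true := by decide +kernel

end Cfsg.Agent.Helper17.TCD.ONA
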