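import Mathlib
import Cfsg.Agent.Helper17.TCD.ONA_Cert

set_option autoImplicit false

namespace Cfsg.Agent.Helper17.TCD.ONA

open Cfsg.Agent.Helper17.TC

set_option maxHeartbeats 0 in
theorem kT_182396 : chkRangeT cert 182396 2000 = true := by decide +kernel

set_option maxHeartbeats 0 in
theorem kT_184396 : chkRangeT cert 184396 2000 = true := by decide +kernel

set_option maxHeartbeats 0 in
theorem kT_186396 : chkRangeT cert 186396 906 = true := by decide +kernel

set_option maxHeartbeats 0 in
theorem kF_0 : chkRangeF cert 0 765 = true := by decide +kernel

set_option maxHeartbeats 0 in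
theorem kF_765 : chkRangeF cert 765 765 = true := by decide +kernel

set_option maxHeartbeats 0 in
theorem kF_1530 : chkRangeF cert 1530 765 = true := by decide +kernel

set_option maxHeartbeats 0 in
theorem kF_2295 : chkRangeF cert 2295 765 = true := by decide +kernel

set_option maxHeartbeats 0 in
theorem kF_3060 : chkRangeF cert 3060 765 = true := by decide +kernel

end Cfsg.Agent.Helper17.TCD.ONA
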