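import Mathlib
import Cfsg.Agent.Helper17.TCD.ONA_Cert

set_option autoImplicit false

namespace Cfsg.Agent.Helper17.TCD.ONA

open Cfsg.Agent.Helper17.TC

set_option maxHeartbeats 0 in
theorem kF_3825 : chkRangeF cert 3825 765 = true := by decide +kernel

set_option maxHeartbeats 0 in
theorem kF_4590 : chkRangeF cert 4590 765 = true := by decide +kernel

set_option maxHeartbeats 0 in
theorem kF_5355 : chkRangeF cert 5355 765 = true := by decide +kernel

set_option maxHeartbeats 0 in
theorem kF_6120 : chkRangeF cert 6120 765 = true := by decide +kernel

set_option maxHeartbeats 0 in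
theorem kF_6885 : chkRangeF cert 6885 765 = true := by decide +kernel

set_option maxHeartbeats 0 in
theorem kF_7650 : chkRangeF cert 7650 765 = true := by decide +kernel

set_option maxHeartbeats 0 in
theorem kF_8415 : chkRangeF cert 8415 765 = true := by decide +kernel

set_option maxHeartbeats 0 in
theorem kF_9180 : chkRangeF cert 9180 765 = true := by decide +kernel

end Cfsg.Agent.Helper17.TCD.ONA
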