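import Mathlib
import Cfsg.Agent.Helper17.TCD.ONA_Cert

set_option autoImplicit false

namespace Cfsg.Agent.Helper17.TCD.ONA

open Cfsg.Agent.Helper17.TC

set_option maxHeartbeats 0 in
theorem kF_9945 : chkRangeF cert 9945 765 = true := by decide +kernel

set_option maxHeartbeats 0 in
theorem kF_10710 : chkRangeF cert 10710 765 = true := by decide +kernel

set_option maxHeartbeats 0 in
theorem kF_11475 : chkRangeF cert 11475 765 = true := by decide +kernel

set_option maxHeartbeats 0 in
theorem kF_12240 : chkRangeF cert 12240 765 = true := by decide +kernel

set_option maxHeartbeats 0 in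
theorem kF_13005 : chkRangeF cert 13005 765 = true := by decide +kernel

set_option maxHeartbeats 0 in
theorem kF_13770 : chkRangeF cert 13770 765 = true := by decide +kernel

set_option maxHeartbeats 0 in
theorem kF_14535 : chkRangeF cert 14535 765 = true := by decide +kernel

set_option maxHeartbeats 0 in
theorem kF_15300 : chkRangeF cert 15300 765 = true := by decide +kernel

end Cfsg.Agent.Helper17.TCD.ONA
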