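import Mathlib
import Cfsg.Agent.Helper17.TCD.ONA_Cert

set_option autoImplicit false

namespace Cfsg.Agent.Helper17.TCD.ONA

open Cfsg.Agent.Helper17.TC

set_option maxHeartbeats 0 in
theorem kF_16065 : chkRangeF cert 16065 765 = true := by decide +kernel

set_option maxHeartbeats 0 in
theorem kF_16830 : chkRangeF cert 16830 765 = true := by decide +kernel

set_option maxHeartbeats 0 in
theorem kF_17595 : chkRangeF cert 17595 765 = true := by decide +kernel

set_option maxHeartbeats 0 in
theorem kF_18360 : chkRangeF cert 18360 765 = true := by decide +kernel

set_option maxHeartbeats 0 in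
theorem kF_19125 : chkRangeF cert 19125 765 = true := by decide +kernel

set_option maxHeartbeats 0 in
theorem kF_19890 : chkRangeF cert 19890 765 = true := by decide +kernel

set_option maxHeartbeats 0 in
theorem kF_20655 : chkRangeF cert 20655 765 = true := by decide +kernel

set_option maxHeartbeats 0 in
theorem kF_21420 : chkRangeF cert 21420 765 = true := by decide +kernel

end Cfsg.Agent.Helper17.TCD.ONA
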