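import Mathlib
import Cfsg.Agent.Helper17.TCD.ONA_Cert

set_option autoImplicit false

namespace Cfsg.Agent.Helper17.TCD.ONA

open Cfsg.Agent.Helper17.TC

set_option maxHeartbeats 0 in
theorem kF_22185 : chkRangeF cert 22185 765 = true := by decide +kernel

set_option maxHeartbeats 0 in
theorem kF_22950 : chkRangeF cert 22950 765 = true := by decide +kernel

set_option maxHeartbeats 0 in
theorem kF_23715 : chkRangeF cert 23715 765 = true := by decide +kernel

set_option maxHeartbeats 0 in
theorem kF_24480 : chkRangeF cert 24480 765 = true := by decide +kernel

set_option maxHeartbeats 0 in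
theorem kF_25245 : chkRangeF cert 25245 765 = true := by decide +kernel

set_option maxHeartbeats 0 in
theorem kF_26010 : chkRangeF cert 26010 765 = true := by decide +kernel

set_option maxHeartbeats 0 in
theorem kF_26775 : chkRangeF cert 26775 765 = true := by decide +kernel

set_option maxHeartbeats 0 in
theorem kF_27540 : chkRangeF cert 27540 765 = true := by decide +kernel

end Cfsg.Agent.Helper17.TCD.ONA
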