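import Mathlib
import Cfsg.Agent.Helper17.TCD.ONA_Cert

set_option autoImplicit false

namespace Cfsg.Agent.Helper17.TCD.ONA

open Cfsg.Agent.Helper17.TC

set_option maxHeartbeats 0 in
theorem kF_28305 : chkRangeF cert 28305 765 = true := by decide +kernel

set_option maxHeartbeats 0 in
theorem kF_29070 : chkRangeF cert 29070 765 = true := by decide +kernel

set_option maxHeartbeats 0 in
theorem kF_29835 : chkRangeF cert 29835 765 = true := by decide +kernel

set_option maxHeartbeats 0 in
theorem kF_30600 : chkRangeF cert 30600 765 = true := by decide +kernel

set_option maxHeartbeats 0 in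
theorem kF_31365 : chkRangeF cert 31365 765 = true := by decide +kernel

set_option maxHeartbeats 0 in
theorem kF_32130 : chkRangeF cert 32130 765 = true := by decide +kernel

set_option maxHeartbeats 0 in
theorem kF_32895 : chkRangeF cert 32895 765 = true := by decide +kernel

set_option maxHeartbeats 0 in
theorem kF_33660 : chkRangeF cert 33660 765 = true := by decide +kernel

end Cfsg.Agent.Helper17.TCD.ONA
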