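import Mathlib
import Cfsg.Agent.Helper17.TCD.ONA_Cert

set_option autoImplicit false

namespace Cfsg.Agent.Helper17.TCD.ONA

open Cfsg.Agent.Helper17.TC

set_option maxHeartbeats 0 in
theorem kF_34425 : chkRangeF cert 34425 765 = true := by decide +kernel

set_option maxHeartbeats 0 in
theorem kF_35190 : chkRangeF cert 35190 765 = true := by decide +kernel

set_option maxHeartbeats 0 in
theorem kF_35955 : chkRangeF cert 35955 765 = true := by decide +kernel

set_option maxHeartbeats 0 in
theorem kF_36720 : chkRangeF cert 36720 765 = true := by decide +kernel

set_option maxHeartbeats 0 in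
theorem kF_37485 : chkRangeF cert 37485 765 = true := by decide +kernel

set_option maxHeartbeats 0 in
theorem kF_38250 : chkRangeF cert 38250 765 = true := by decide +kernel

set_option maxHeartbeats 0 in
theorem kF_39015 : chkRangeF cert 39015 765 = true := by decide +kernel

set_option maxHeartbeats 0 in
theorem kF_39780 : chkRangeF cert 39780 765 = true := by decide +kernel

end Cfsg.Agent.Helper17.TCD.ONA
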