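import Mathlib
import Cfsg.Agent.Helper17.TCD.ONA_Cert

set_option autoImplicit false

namespace Cfsg.Agent.Helper17.TCD.ONA

open Cfsg.Agent.Helper17.TC

set_option maxHeartbeats 0 in
theorem kF_40545 : chkRangeF cert 40545 765 = true := by decide +kernel

set_option maxHeartbeats 0 in
theorem kF_41310 : chkRangeF cert 41310 765 = true := by decide +kernel

set_option maxHeartbeats 0 in
theorem kF_42075 : chkRangeF cert 42075 765 = true := by decide +kernel

set_option maxHeartbeats 0 in
theorem kF_42840 : chkRangeF cert 42840 765 = true := by decide +kernel

set_option maxHeartbeats 0 in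
theorem kF_43605 : chkRangeF cert 43605 765 = true := by decide +kernel

set_option maxHeartbeats 0 in
theorem kF_44370 : chkRangeF cert 44370 765 = true := by decide +kernel

set_option maxHeartbeats 0 in
theorem kF_45135 : chkRangeF cert 45135 765 = true := by decide +kernel

set_option maxHeartbeats 0 in
theorem kF_45900 : chkRangeF cert 45900 765 = true := by decide +kernel

end Cfsg.Agent.Helper17.TCD.ONA
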