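import Mathlib
import Cfsg.Agent.Helper17.TCD.ONA_Cert

set_option autoImplicit false

namespace Cfsg.Agent.Helper17.TCD.ONA

open Cfsg.Agent.Helper17.TC

set_option maxHeartbeats 0 in
theorem kT_32000 : chkRangeT cert 32000 2000 = true := by decide +kernel

set_option maxHeartbeats 0 in
theorem kT_34000 : chkRangeT cert 34000 2000 = true := by decide +kernel

set_option maxHeartbeats 0 in
theorem kT_36000 : chkRangeT cert 36000 2000 = true := by decide +kernel

set_option maxHeartbeats 0 in
theorem kT_38000 : chkRangeT cert 38000 2000 = true := by decide +kernel

set_option maxHeartbeats 0 in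
theorem kT_40000 : chkRangeT cert 40000 2000 = true := by decide +kernel

set_option maxHeartbeats 0 in
theorem kT_42000 : chkRangeT cert 42000 2000 = true := by decide +kernel

set_option maxHeartbeats 0 in
theorem kT_44000 : chkRangeT cert 44000 2000 = true := by decide +kernel

set_option maxHeartbeats 0 in
theorem kT_46000 : chkRangeT cert 46000 2000 = true := by decide +kernel

end Cfsg.Agent.Helper17.TCD.ONA
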