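import Mathlib
import Cfsg.Agent.Helper17.TCD.ONA_Cert

set_option autoImplicit false

namespace Cfsg.Agent.Helper17.TCD.ONA

open Cfsg.Agent.Helper17.TC

set_option maxHeartbeats 0 in
theorem kF_46665 : chkRangeF cert 46665 765 = true := by decide +kernel

set_option maxHeartbeats 0 in
theorem kF_47430 : chkRangeF cert 47430 765 = true := by decide +kernel

set_option maxHeartbeats 0 in
theorem kF_48195 : chkRangeF cert 48195 765 = true := by decide +kernel

set_option maxHeartbeats 0 in
theorem kF_48960 : chkRangeF cert 48960 765 = true := by decide +kernel

set_option maxHeartbeats 0 in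
theorem kF_49725 : chkRangeF cert 49725 765 = true := by decide +kernel

set_option maxHeartbeats 0 in
theorem kF_50490 : chkRangeF cert 50490 765 = true := by decide +kernel

set_option maxHeartbeats 0 in
theorem kF_51255 : chkRangeF cert 51255 765 = true := by decide +kernel

set_option maxHeartbeats 0 in
theorem kF_52020 : chkRangeF cert 52020 765 = true := by decide +kernel

end Cfsg.Agent.Helper17.TCD.ONA
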