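import Mathlib
import Cfsg.Agent.Helper17.TCD.ONA_Cert

set_option autoImplicit false

namespace Cfsg.Agent.Helper17.TCD.ONA

open Cfsg.Agent.Helper17.TC

set_option maxHeartbeats 0 in
theorem kF_52785 : chkRangeF cert 52785 765 = true := by decide +kernel

set_option maxHeartbeats 0 in
theorem kF_53550 : chkRangeF cert 53550 765 = true := by decide +kernel

set_option maxHeartbeats 0 in
theorem kF_54315 : chkRangeF cert 54315 765 = true := by decide +kernel

set_option maxHeartbeats 0 in
theorem kF_55080 : chkRangeF cert 55080 765 = true := by decide +kernel

set_option maxHeartbeats 0 in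
theorem kF_55845 : chkRangeF cert 55845 765 = true := by decide +kernel

set_option maxHeartbeats 0 in
theorem kF_56610 : chkRangeF cert 56610 765 = true := by decide +kernel

set_option maxHeartbeats 0 in
theorem kF_57375 : chkRangeF cert 57375 765 = true := by decide +kernel

set_option maxHeartbeats 0 in
theorem kF_58140 : chkRangeF cert 58140 765 = true := by decide +kernel

end Cfsg.Agent.Helper17.TCD.ONA
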