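import Mathlib
import Cfsg.Agent.Helper17.TCD.ONA_Cert

set_option autoImplicit false

namespace Cfsg.Agent.Helper17.TCD.ONA

open Cfsg.Agent.Helper17.TC

set_option maxHeartbeats 0 in
theorem kF_58905 : chkRangeF cert 58905 765 = true := by decide +kernel

set_option maxHeartbeats 0 in
theorem kF_59670 : chkRangeF cert 59670 765 = true := by decide +kernel

set_option maxHeartbeats 0 in
theorem kF_60435 : chkRangeF cert 60435 765 = true := by decide +kernel

set_option maxHeartbeats 0 in
theorem kF_61200 : chkRangeF cert 61200 765 = true := by decide +kernel

set_option maxHeartbeats 0 in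
theorem kF_61965 : chkRangeF cert 61965 765 = true := by decide +kernel

set_option maxHeartbeats 0 in
theorem kF_62730 : chkRangeF cert 62730 765 = true := by decide +kernel

set_option maxHeartbeats 0 in
theorem kF_63495 : chkRangeF cert 63495 765 = true := by decide +kernel

set_option maxHeartbeats 0 in
theorem kF_64260 : chkRangeF cert 64260 765 = true := by decide +kernel

end Cfsg.Agent.Helper17.TCD.ONA
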