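import Mathlib
import Cfsg.Agent.Helper17.TCD.ONA_Cert

set_option autoImplicit false

namespace Cfsg.Agent.Helper17.TCD.ONA

open Cfsg.Agent.Helper17.TC

set_option maxHeartbeats 0 in
theorem kF_65025 : chkRangeF cert 65025 765 = true := by decide +kernel

set_option maxHeartbeats 0 in
theorem kF_65790 : chkRangeF cert 65790 765 = true := by decide +kernel

set_option maxHeartbeats 0 in
theorem kF_66555 : chkRangeF cert 66555 765 = true := by decide +kernel

set_option maxHeartbeats 0 in
theorem kF_67320 : chkRangeF cert 67320 765 = true := by decide +kernel

set_option maxHeartbeats 0 in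
theorem kF_68085 : chkRangeF cert 68085 765 = true := by decide +kernel

set_option maxHeartbeats 0 in
theorem kF_68850 : chkRangeF cert 68850 765 = true := by decide +kernel

set_option maxHeartbeats 0 in
theorem kF_69615 : chkRangeF cert 69615 765 = true := by decide +kernel

set_option maxHeartbeats 0 in
theorem kF_70380 : chkRangeF cert 70380 765 = true := by decide +kernel

end Cfsg.Agent.Helper17.TCD.ONA
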