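import Mathlib
import Cfsg.Agent.Helper17.TCD.ONA_Cert

set_option autoImplicit false

namespace Cfsg.Agent.Helper17.TCD.ONA

open Cfsg.Agent.Helper17.TC

set_option maxHeartbeats 0 in
theorem kF_71145 : chkRangeF cert 71145 765 = true := by decide +kernel

set_option maxHeartbeats 0 in
theorem kF_71910 : chkRangeF cert 71910 765 = true := by decide +kernel

set_option maxHeartbeats 0 in
theorem kF_72675 : chkRangeF cert 72675 765 = true := by decide +kernel

set_option maxHeartbeats 0 in
theorem kF_73440 : chkRangeF cert 73440 765 = true := by decide +kernel

set_option maxHeartbeats 0 in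
theorem kF_74205 : chkRangeF cert 74205 765 = true := by decide +kernel

set_option maxHeartbeats 0 in
theorem kF_74970 : chkRangeF cert 74970 765 = true := by decide +kernel

set_option maxHeartbeats 0 in
theorem kF_75735 : chkRangeF cert 75735 765 = true := by decide +kernel

set_option maxHeartbeats 0 in
theorem kF_76500 : chkRangeF cert 76500 765 = true := by decide +kernel

end Cfsg.Agent.Helper17.TCD.ONA
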