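import Mathlib
import Cfsg.Agent.Helper17.TCD.ONA_Cert

set_option autoImplicit false

namespace Cfsg.Agent.Helper17.TCD.ONA

open Cfsg.Agent.Helper17.TC

set_option maxHeartbeats 0 in
theorem kF_77265 : chkRangeF cert 77265 765 = true := by decide +kernel

set_option maxHeartbeats 0 in
theorem kF_78030 : chkRangeF cert 78030 765 = true := by decide +kernel

set_option maxHeartbeats 0 in
theorem kF_78795 : chkRangeF cert 78795 765 = true := by decide +kernel

set_option maxHeartbeats 0 in
theorem kF_79560 : chkRangeF cert 79560 765 = true := by decide +kernel

set_option maxHeartbeats 0 in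
theorem kF_80325 : chkRangeF cert 80325 765 = true := by decide +kernel

set_option maxHeartbeats 0 in
theorem kF_81090 : chkRangeF cert 81090 765 = true := by decide +kernel

set_option maxHeartbeats 0 in
theorem kF_81855 : chkRangeF cert 81855 765 = true := by decide +kernel

set_option maxHeartbeats 0 in
theorem kF_82620 : chkRangeF cert 82620 765 = true := by decide +kernel

end Cfsg.Agent.Helper17.TCD.ONA
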