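import Mathlib
import Cfsg.Agent.Helper17.TCD.ONA_Cert

set_option autoImplicit false

namespace Cfsg.Agent.Helper17.TCD.ONA

open Cfsg.Agent.Helper17.TC

set_option maxHeartbeats 0 in
theorem kF_83385 : chkRangeF cert 83385 765 = true := by decide +kernel

set_option maxHeartbeats 0 in
theorem kF_84150 : chkRangeF cert 84150 765 = true := by decide +kernel

set_option maxHeartbeats 0 in
theorem kF_84915 : chkRangeF cert 84915 765 = true := by decide +kernel

set_option maxHeartbeats 0 in
theorem kF_85680 : chkRangeF cert 85680 765 = true := by decide +kernel

set_option maxHeartbeats 0 in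
theorem kF_86445 : chkRangeF cert 86445 765 = true := by decide +kernel

set_option maxHeartbeats 0 in
theorem kF_87210 : chkRangeF cert 87210 765 = true := by decide +kernel

set_option maxHeartbeats 0 in
theorem kF_87975 : chkRangeF cert 87975 765 = true := by decide +kernel

set_option maxHeartbeats 0 in
theorem kF_88740 : chkRangeF cert 88740 765 = true := by decide +kernel

end Cfsg.Agent.Helper17.TCD.ONA
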