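import Mathlib
import Cfsg.Agent.Helper17.TCD.ONA_Cert

set_option autoImplicit false

namespace Cfsg.Agent.Helper17.TCD.ONA

open Cfsg.Agent.Helper17.TC

set_option maxHeartbeats 0 in
theorem kF_89505 : chkRangeF cert 89505 765 = true := by decide +kernel

set_option maxHeartbeats 0 in
theorem kF_90270 : chkRangeF cert 90270 765 = true := by decide +kernel

set_option maxHeartbeats 0 in
theorem kF_91035 : chkRangeF cert 91035 765 = true := by decide +kernel

set_option maxHeartbeats 0 in
theorem kF_91800 : chkRangeF cert 91800 765 = true := by decide +kernel

set_option maxHeartbeats 0 in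
theorem kF_92565 : chkRangeF cert 92565 765 = true := by decide +kernel

set_option maxHeartbeats 0 in
theorem kF_93330 : chkRangeF cert 93330 765 = true := by decide +kernel

set_option maxHeartbeats 0 in
theorem kF_94095 : chkRangeF cert 94095 765 = true := by decide +kernel

set_option maxHeartbeats 0 in
theorem kF_94860 : chkRangeF cert 94860 765 = true := by decide +kernel

end Cfsg.Agent.Helper17.TCD.ONA
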