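import Mathlib
import Cfsg.Agent.Helper17.TCD.ONA_Cert

set_option autoImplicit false

namespace Cfsg.Agent.Helper17.TCD.ONA

open Cfsg.Agent.Helper17.TC

set_option maxHeartbeats 0 in
theorem kF_95625 : chkRangeF cert 95625 765 = true := by decide +kernel

set_option maxHeartbeats 0 in
theorem kF_96390 : chkRangeF cert 96390 765 = true := by decide +kernel

set_option maxHeartbeats 0 in
theorem kF_97155 : chkRangeF cert 97155 765 = true := by decide +kernel

set_option maxHeartbeats 0 in
theorem kF_97920 : chkRangeF cert 97920 765 = true := by decide +kernel

set_option maxHeartbeats 0 in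
theorem kF_98685 : chkRangeF cert 98685 765 = true := by decide +kernel

set_option maxHeartbeats 0 in
theorem kF_99450 : chkRangeF cert 99450 765 = true := by decide +kernel

set_option maxHeartbeats 0 in
theorem kF_100215 : chkRangeF cert 100215 765 = true := by decide +kernel

set_option maxHeartbeats 0 in
theorem kF_100980 : chkRangeF cert 100980 765 = true := by decide +kernel

end Cfsg.Agent.Helper17.TCD.ONA
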