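import Mathlib
import Cfsg.Agent.Helper17.TCD.ONA_Cert

set_option autoImplicit false

namespace Cfsg.Agent.Helper17.TCD.ONA

open Cfsg.Agent.Helper17.TC

set_option maxHeartbeats 0 in
theorem kF_101745 : chkRangeF cert 101745 765 = true := by decide +kernel

set_option maxHeartbeats 0 in
theorem kF_102510 : chkRangeF cert 102510 765 = true := by decide +kernel

set_option maxHeartbeats 0 in
theorem kF_103275 : chkRangeF cert 103275 765 = true := by decide +kernel

set_option maxHeartbeats 0 in
theorem kF_104040 : chkRangeF cert 104040 765 = true := by decide +kernel

set_option maxHeartbeats 0 in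
theorem kF_104805 : chkRangeF cert 104805 765 = true := by decide +kernel

set_option maxHeartbeats 0 in
theorem kF_105570 : chkRangeF cert 105570 765 = true := by decide +kernel

set_option maxHeartbeats 0 in
theorem kF_106335 : chkRangeF cert 106335 765 = true := by decide +kernel

set_option maxHeartbeats 0 in
theorem kF_107100 : chkRangeF cert 107100 765 = true := by decide +kernel

end Cfsg.Agent.Helper17.TCD.ONA
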