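import Mathlib
import Cfsg.Agent.Helper17.TCD.ONA_Cert

set_option autoImplicit false

namespace Cfsg.Agent.Helper17.TCD.ONA

open Cfsg.Agent.Helper17.TC

set_option maxHeartbeats 0 in
theorem kT_48000 : chkRangeT cert 48000 2000 = true := by decide +kernel

set_option maxHeartbeats 0 in
theorem kT_50000 : chkRangeT cert 50000 2000 = true := by decide +kernel

set_option maxHeartbeats 0 in
theorem kT_52000 : chkRangeT cert 52000 2000 = true := by decide +kernel

set_option maxHeartbeats 0 in
theorem kT_54000 : chkRangeT cert 54000 2000 = true := by decide +kernel

set_option maxHeartbeats 0 in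
theorem kT_56000 : chkRangeT cert 56000 2000 = true := by decide +kernel

set_option maxHeartbeats 0 in
theorem kT_58000 : chkRangeT cert 58000 2000 = true := by decide +kernel

set_option maxHeartbeats 0 in
theorem kT_60000 : chkRangeT cert 60000 2000 = true := by decide +kernel

set_option maxHeartbeats 0 in
theorem kT_62000 : chkRangeT cert 62000 1976 = true := by decide +kernel

end Cfsg.Agent.Helper17.TCD.ONA
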