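import Mathlib
import Cfsg.Agent.Helper17.TCD.ONA_Cert

set_option autoImplicit false

namespace Cfsg.Agent.Helper17.TCD.ONA

open Cfsg.Agent.Helper17.TC

set_option maxHeartbeats 0 in
theorem kF_107865 : chkRangeF cert 107865 765 = true := by decide +kernel

set_option maxHeartbeats 0 in
theorem kF_108630 : chkRangeF cert 108630 765 = true := by decide +kernel

set_option maxHeartbeats 0 in
theorem kF_109395 : chkRangeF cert 109395 765 = true := by decide +kernel

set_option maxHeartbeats 0 in
theorem kF_110160 : chkRangeF cert 110160 765 = true := by decide +kernel

set_option maxHeartbeats 0 in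
theorem kF_110925 : chkRangeF cert 110925 765 = true := by decide +kernel

set_option maxHeartbeats 0 in
theorem kF_111690 : chkRangeF cert 111690 765 = true := by decide +kernel

set_option maxHeartbeats 0 in
theorem kF_112455 : chkRangeF cert 112455 765 = true := by decide +kernel

set_option maxHeartbeats 0 in
theorem kF_113220 : chkRangeF cert 113220 765 = true := by decide +kernel

end Cfsg.Agent.Helper17.TCD.ONA
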