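import Mathlib
import Cfsg.Agent.Helper17.TCD.ONA_Cert

set_option autoImplicit false

namespace Cfsg.Agent.Helper17.TCD.ONA

open Cfsg.Agent.Helper17.TC

set_option maxHeartbeats 0 in
theorem kF_113985 : chkRangeF cert 113985 765 = true := by decide +kernel

set_option maxHeartbeats 0 in
theorem kF_114750 : chkRangeF cert 114750 765 = true := by decide +kernel

set_option maxHeartbeats 0 in
theorem kF_115515 : chkRangeF cert 115515 765 = true := by decide +kernel

set_option maxHeartbeats 0 in
theorem kF_116280 : chkRangeF cert 116280 765 = true := by decide +kernel

set_option maxHeartbeats 0 in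
theorem kF_117045 : chkRangeF cert 117045 765 = true := by decide +kernel

set_option maxHeartbeats 0 in
theorem kF_117810 : chkRangeF cert 117810 765 = true := by decide +kernel

set_option maxHeartbeats 0 in
theorem kF_118575 : chkRangeF cert 118575 765 = true := by decide +kernel

set_option maxHeartbeats 0 in
theorem kF_119340 : chkRangeF cert 119340 765 = true := by decide +kernel

end Cfsg.Agent.Helper17.TCD.ONA
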