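import Mathlib
import Cfsg.Agent.Helper17.TCD.ONA_Cert

set_option autoImplicit false

namespace Cfsg.Agent.Helper17.TCD.ONA

open Cfsg.Agent.Helper17.TC

set_option maxHeartbeats 0 in
theorem kF_120105 : chkRangeF cert 120105 765 = true := by decide +kernel

set_option maxHeartbeats 0 in
theorem kF_120870 : chkRangeF cert 120870 765 = true := by decide +kernel

set_option maxHeartbeats 0 in
theorem kF_121635 : chkRangeF cert 121635 765 = true := by decide +kernel

set_option maxHeartbeats 0 in
theorem kF_122400 : chkRangeF cert 122400 360 = true := by decide +kernel

set_option maxHeartbeats 0 in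
theorem kFin_0 : chkRangeFin cert 0 2000 = true := by decide +kernel

set_option maxHeartbeats 0 in
theorem kFin_2000 : chkRangeFin cert 2000 2000 = true := by decide +kernel

set_option maxHeartbeats 0 in
theorem kFin_4000 : chkRangeFin cert 4000 2000 = true := by decide +kernel

set_option maxHeartbeats 0 in
theorem kFin_6000 : chkRangeFin cert 6000 2000 = true := by decide +kernel

end Cfsg.Agent.Helper17.TCD.ONA
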