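import Mathlib
import Cfsg.Agent.Helper17.TCD.ONA_Cert

set_option autoImplicit false

namespace Cfsg.Agent.Helper17.TCD.ONA

open Cfsg.Agent.Helper17.TC

set_option maxHeartbeats 0 in
theorem kFin_24000 : chkRangeFin cert 24000 2000 = true := by decide +kernel

set_option maxHeartbeats 0 in
theorem kFin_26000 : chkRangeFin cert 26000 2000 = true := by decide +kernel

set_option maxHeartbeats 0 in
theorem kFin_28000 : chkRangeFin cert 28000 2000 = true := by decide +kernel

set_option maxHeartbeats 0 in
theorem kFin_30000 : chkRangeFin cert 30000 2000 = true := by decide +kernel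

set_option maxHeartbeats 0 in
theorem kFin_32000 : chkRangeFin cert 32000 2000 = true := by decide +kernel

set_option maxHeartbeats 0 in
theorem kFin_34000 : chkRangeFin cert 34000 2000 = true := by decide +kernel

set_option maxHeartbeats 0 in
theorem kFin_36000 : chkRangeFin cert 36000 2000 = true := by decide +kernel

set_option maxHeartbeats 0 in
theorem kFin_38000 : chkRangeFin cert 38000 2000 = true := by decide +kernel

end Cfsg.Agent.Helper17.TCD.ONA
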