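import Mathlib
import Cfsg.Agent.Helper17.TCD.ONA_Cert

set_option autoImplicit false

namespace Cfsg.Agent.Helper17.TCD.ONA

open Cfsg.Agent.Helper17.TC

set_option maxHeartbeats 0 in
theorem kFin_88000 : chkRangeFin cert 88000 2000 = true := by decide +kernel

set_option maxHeartbeats 0 in
theorem kFin_90000 : chkRangeFin cert 90000 2000 = true := by decide +kernel

set_option maxHeartbeats 0 in
theorem kFin_92000 : chkRangeFin cert 92000 2000 = true := by decide +kernel

set_option maxHeartbeats 0 in
theorem kFin_94000 : chkRangeFin cert 94000 2000 = true := by decide +kernel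

set_option maxHeartbeats 0 in
theorem kFin_96000 : chkRangeFin cert 96000 2000 = true := by decide +kernel

set_option maxHeartbeats 0 in
theorem kFin_98000 : chkRangeFin cert 98000 2000 = true := by decide +kernel

set_option maxHeartbeats 0 in
theorem kFin_100000 : chkRangeFin cert 100000 2000 = true := by decide +kernel

set_option maxHeartbeats 0 in
theorem kFin_102000 : chkRangeFin cert 102000 2000 = true := by decide +kernel

end Cfsg.Agent.Helper17.TCD.ONA
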