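import Mathlib
import Cfsg.Agent.Helper17.TCD.ONA_Cert

set_option autoImplicit false

namespace Cfsg.Agent.Helper17.TCD.ONA

open Cfsg.Agent.Helper17.TC

set_option maxHeartbeats 0 in
theorem kFin_104000 : chkRangeFin cert 104000 2000 = true := by decide +kernel

set_option maxHeartbeats 0 in
theorem kFin_106000 : chkRangeFin cert 106000 2000 = true := by decide +kernel

set_option maxHeartbeats 0 in
theorem kFin_108000 : chkRangeFin cert 108000 2000 = true := by decide +kernel

set_option maxHeartbeats 0 in
theorem kFin_110000 : chkRangeFin cert 110000 2000 = true := by decide +kernel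

set_option maxHeartbeats 0 in
theorem kFin_112000 : chkRangeFin cert 112000 2000 = true := by decide +kernel

set_option maxHeartbeats 0 in
theorem kFin_114000 : chkRangeFin cert 114000 2000 = true := by decide +kernel

set_option maxHeartbeats 0 in
theorem kFin_116000 : chkRangeFin cert 116000 2000 = true := by decide +kernel

set_option maxHeartbeats 0 in
theorem kFin_118000 : chkRangeFin cert 118000 2000 = true := by decide +kernel

end Cfsg.Agent.Helper17.TCD.ONA
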