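import Mathlib
import Cfsg.Agent.Helper17.TCD.ONA_Cert

set_option autoImplicit false

namespace Cfsg.Agent.Helper17.TCD.ONA

open Cfsg.Agent.Helper17.TC

set_option maxHeartbeats 0 in
theorem kT_63976 : chkRangeT cert 63976 1963 = true := by decide +kernel

set_option maxHeartbeats 0 in
theorem kT_65939 : chkRangeT cert 65939 1938 = true := by decide +kernel

set_option maxHeartbeats 0 in
theorem kT_67877 : chkRangeT cert 67877 1906 = true := by decide +kernel

set_option maxHeartbeats 0 in
theorem kT_69783 : chkRangeT cert 69783 1938 = true := by decide +kernel

set_option maxHeartbeats 0 in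
theorem kT_71721 : chkRangeT cert 71721 1892 = true := by decide +kernel

set_option maxHeartbeats 0 in
theorem kT_73613 : chkRangeT cert 73613 1847 = true := by decide +kernel

set_option maxHeartbeats 0 in
theorem kT_75460 : chkRangeT cert 75460 1855 = true := by decide +kernel

set_option maxHeartbeats 0 in
theorem kT_77315 : chkRangeT cert 77315 1849 = true := by decide +kernel

end Cfsg.Agent.Helper17.TCD.ONA
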