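import Mathlib
import Cfsg.Agent.Helper17.TCD.ONA_Cert

set_option autoImplicit false

namespace Cfsg.Agent.Helper17.TCD.ONA

open Cfsg.Agent.Helper17.TC

set_option maxHeartbeats 0 in
theorem kFin_120000 : chkRangeFin cert 120000 2000 = true := by decide +kernel

set_option maxHeartbeats 0 in
theorem kFin_122000 : chkRangeFin cert 122000 760 = true := by decide +kernel

end Cfsg.Agent.Helper17.TCD.ONA
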