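import Mathlib
import Cfsg.Agent.Helper17.TCD.ONA_Cert

set_option autoImplicit false

namespace Cfsg.Agent.Helper17.TCD.ONA

open Cfsg.Agent.Helper17.TC

set_option maxHeartbeats 0 in
theorem kT_79164 : chkRangeT cert 79164 1783 = true := by decide +kernel

set_option maxHeartbeats 0 in
theorem kT_80947 : chkRangeT cert 80947 1767 = true := by decide +kernel

set_option maxHeartbeats 0 in
theorem kT_82714 : chkRangeT cert 82714 1844 = true := by decide +kernel

set_option maxHeartbeats 0 in
theorem kT_84558 : chkRangeT cert 84558 1816 = true := by decide +kernel

set_option maxHeartbeats 0 in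
theorem kT_86374 : chkRangeT cert 86374 1762 = true := by decide +kernel

set_option maxHeartbeats 0 in
theorem kT_88136 : chkRangeT cert 88136 1724 = true := by decide +kernel

set_option maxHeartbeats 0 in
theorem kT_89860 : chkRangeT cert 89860 1726 = true := by decide +kernel

set_option maxHeartbeats 0 in
theorem kT_91586 : chkRangeT cert 91586 1737 = true := by decide +kernel

end Cfsg.Agent.Helper17.TCD.ONA
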