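import Mathlib
import Cfsg.Agent.Helper17.TCD.ONA_Cert

set_option autoImplicit false

namespace Cfsg.Agent.Helper17.TCD.ONA

open Cfsg.Agent.Helper17.TC

set_option maxHeartbeats 0 in
theorem kT_93323 : chkRangeT cert 93323 1738 = true := by decide +kernel

set_option maxHeartbeats 0 in
theorem kT_95061 : chkRangeT cert 95061 1680 = true := by decide +kernel

set_option maxHeartbeats 0 in
theorem kT_96741 : chkRangeT cert 96741 1679 = true := by decide +kernel

set_option maxHeartbeats 0 in
theorem kT_98420 : chkRangeT cert 98420 1707 = true := by decide +kernel

set_option maxHeartbeats 0 in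
theorem kT_100127 : chkRangeT cert 100127 1668 = true := by decide +kernel

set_option maxHeartbeats 0 in
theorem kT_101795 : chkRangeT cert 101795 1660 = true := by decide +kernel

set_option maxHeartbeats 0 in
theorem kT_103455 : chkRangeT cert 103455 1636 = true := by decide +kernel

set_option maxHeartbeats 0 in
theorem kT_105091 : chkRangeT cert 105091 1634 = true := by decide +kernel

end Cfsg.Agent.Helper17.TCD.ONA
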