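import Mathlib
import Cfsg.Agent.Helper17.TCD.ONA_Cert

set_option autoImplicit false

namespace Cfsg.Agent.Helper17.TCD.ONA

open Cfsg.Agent.Helper17.TC

set_option maxHeartbeats 0 in
theorem kT_106725 : chkRangeT cert 106725 1600 = true := by decide +kernel

set_option maxHeartbeats 0 in
theorem kT_108325 : chkRangeT cert 108325 1635 = true := by decide +kernel

set_option maxHeartbeats 0 in
theorem kT_109960 : chkRangeT cert 109960 1610 = true := by decide +kernel

set_option maxHeartbeats 0 in
theorem kT_111570 : chkRangeT cert 111570 1565 = true := by decide +kernel

set_option maxHeartbeats 0 in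
theorem kT_113135 : chkRangeT cert 113135 1602 = true := by decide +kernel

set_option maxHeartbeats 0 in
theorem kT_114737 : chkRangeT cert 114737 1553 = true := by decide +kernel

set_option maxHeartbeats 0 in
theorem kT_116290 : chkRangeT cert 116290 1549 = true := by decide +kernel

set_option maxHeartbeats 0 in
theorem kT_117839 : chkRangeT cert 117839 1550 = true := by decide +kernel

end Cfsg.Agent.Helper17.TCD.ONA
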