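import Mathlib
import Cfsg.Agent.Helper17.TCD.ONA_Cert

set_option autoImplicit false

namespace Cfsg.Agent.Helper17.TCD.ONA

open Cfsg.Agent.Helper17.TC

set_option maxHeartbeats 0 in
theorem kT_119389 : chkRangeT cert 119389 1517 = true := by decide +kernel

set_option maxHeartbeats 0 in
theorem kT_120906 : chkRangeT cert 120906 1490 = true := by decide +kernel

set_option maxHeartbeats 0 in
theorem kT_122396 : chkRangeT cert 122396 2000 = true := by decide +kernel

set_option maxHeartbeats 0 in
theorem kT_124396 : chkRangeT cert 124396 2000 = true := by decide +kernel

set_option maxHeartbeats 0 in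
theorem kT_126396 : chkRangeT cert 126396 2000 = true := by decide +kernel

set_option maxHeartbeats 0 in
theorem kT_128396 : chkRangeT cert 128396 2000 = true := by decide +kernel

set_option maxHeartbeats 0 in
theorem kT_130396 : chkRangeT cert 130396 2000 = true := by decide +kernel

set_option maxHeartbeats 0 in
theorem kT_132396 : chkRangeT cert 132396 2000 = true := by decide +kernel

end Cfsg.Agent.Helper17.TCD.ONA
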