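import Mathlib
import Cfsg.Agent.Helper17.TCD.ONA_Cert

set_option autoImplicit false

namespace Cfsg.Agent.Helper17.TCD.ONA

open Cfsg.Agent.Helper17.TC

set_option maxHeartbeats 0 in
theorem kT_134396 : chkRangeT cert 134396 2000 = true := by decide +kernel

set_option maxHeartbeats 0 in
theorem kT_136396 : chkRangeT cert 136396 2000 = true := by decide +kernel

set_option maxHeartbeats 0 in
theorem kT_138396 : chkRangeT cert 138396 2000 = true := by decide +kernel

set_option maxHeartbeats 0 in
theorem kT_140396 : chkRangeT cert 140396 2000 = true := by decide +kernel

set_option maxHeartbeats 0 in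
theorem kT_142396 : chkRangeT cert 142396 2000 = true := by decide +kernel

set_option maxHeartbeats 0 in
theorem kT_144396 : chkRangeT cert 144396 2000 = true := by decide +kernel

set_option maxHeartbeats 0 in
theorem kT_146396 : chkRangeT cert 146396 2000 = true := by decide +kernel

set_option maxHeartbeats 0 in
theorem kT_148396 : chkRangeT cert 148396 2000 = true := by decide +kernel

end Cfsg.Agent.Helper17.TCD.ONA
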