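import Mathlib
import Cfsg.Prelude.Def_Spor_ON
import Cfsg.Agent.Helper17.TCPres
import Cfsg.Agent.Helper17.TCD.ONA_K0
import Cfsg.Agent.Helper17.TCD.ONA_K1
import Cfsg.Agent.Helper17.TCD.ONA_K2
import Cfsg.Agent.Helper17.TCD.ONA_K3
import Cfsg.Agent.Helper17.TCD.ONA_K4
import Cfsg.Agent.Helper17.TCD.ONA_K5
import Cfsg.Agent.Helper17.TCD.ONA_K6
import Cfsg.Agent.Helper17.TCD.ONA_K7
import Cfsg.Agent.Helper17.TCD.ONA_K8
import Cfsg.Agent.Helper17.TCD.ONA_K9
import Cfsg.Agent.Helper17.TCD.ONA_K10
import Cfsg.Agent.Helper17.TCD.ONA_K11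
import Cfsg.Agent.Helper17.TCD.ONA_K12
import Cfsg.Agent.Helper17.TCD.ONA_K13
import Cfsg.Agent.Helper17.TCD.ONA_K14
import Cfsg.Agent.Helper17.TCD.ONA_K15
import Cfsg.Agent.Helper17.TCD.ONA_K16
import Cfsg.Agent.Helper17.TCD.ONA_K17
import Cfsg.Agent.Helper17.TCD.ONA_K18
import Cfsg.Agent.Helper17.TCD.ONA_K19
import Cfsg.Agent.Helper17.TCD.ONA_K20
import Cfsg.Agent.Helper17.TCD.ONA_K21
import Cfsg.Agent.Helper17.TCD.ONA_K22
import Cfsg.Agent.Helper17.TCD.ONA_K23
import Cfsg.Agent.Helper17.TCD.ONA_K24
import Cfsg.Agent.Helper17.TCD.ONA_K25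
import Cfsg.Agent.Helper17.TCD.ONA_K26
import Cfsg.Agent.Helper17.TCD.ONA_K27
import Cfsg.Agent.Helper17.TCD.ONA_K28
import Cfsg.Agent.Helper17.TCD.ONA_K29
import Cfsg.Agent.Helper17.TCD.ONA_K30
import Cfsg.Agent.Helper17.TCD.ONA_K31
import Cfsg.Agent.Helper17.TCD.ONA_K32
import Cfsg.Agent.Helper17.TCD.ONA_K33
import Cfsg.Agent.Helper17.TCD.ONA_K34
import Cfsg.Agent.Helper17.TCD.ONA_K35
import Cfsg.Agent.Helper17.TCD.ONA_K36
import Cfsg.Agent.Helper17.TCD.ONA_K37
import Cfsg.Agent.Helper17.TCD.ONA_K38
import Cfsg.Agent.Helper17.TCD.ONA_K39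
import Cfsg.Agent.Helper17.TCD.ONA_K40

set_option autoImplicit false

namespace Cfsg.Agent.Helper17.TCD.ONA

open Cfsg.Agent.Helper17.TC Cfsg.Spor

set_option maxHeartbeats 1000000 in
theorem small : chkSmall cert = true := by decide +kernel

theorem allT : ∀ v < 187302, chkRow cert v cert.ncols = true := by
  have h0 : ∀ v < 0, chkRow cert v cert.ncols = true := fun v hv => absurd hv (Nat.not_lt_zero v)
  have h1 : ∀ v < 2000, chkRow cert v cert.ncols = true :=
    cover_step h0 (chkRangeT_spec (c := cert) 0 2000 kT_0) rfl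
  have h2 : ∀ v < 4000, chkRow cert v cert.ncols = true :=
    cover_step h1 (chkRangeT_spec (c := cert) 2000 2000 kT_2000) rfl
  have h3 : ∀ v < 6000, chkRow cert v cert.ncols = true :=
    cover_step h2 (chkRangeT_spec (c := cert) 4000 2000 kT_4000) rfl
  have h4 : ∀ v < 8000, chkRow cert v cert.ncols = true :=
    cover_step h3 (chkRangeT_spec (c := cert) 6000 2000 kT_6000) rfl
  have h5 : ∀ v < 10000, chkRow cert v cert.ncols = true :=
    cover_step h4 (chkRangeT_spec (c := cert) 8000 2000 kT_8000) rfl
  have h6 : ∀ v < 12000, chkRow cert v cert.ncols = true :=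
    cover_step h5 (chkRangeT_spec (c := cert) 10000 2000 kT_10000) rfl
  have h7 : ∀ v < 14000, chkRow cert v cert.ncols = true :=
    cover_step h6 (chkRangeT_spec (c := cert) 12000 2000 kT_12000) rfl
  have h8 : ∀ v < 16000, chkRow cert v cert.ncols = true :=
    cover_step h7 (chkRangeT_spec (c := cert) 14000 2000 kT_14000) rfl
  have h9 : ∀ v < 18000, chkRow cert v cert.ncols = true :=
    cover_step h8 (chkRangeT_spec (c := cert) 16000 2000 kT_16000) rfl
  have h10 : ∀ v < 20000, chkRow cert v cert.ncols = true :=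
    cover_step h9 (chkRangeT_spec (c := cert) 18000 2000 kT_18000) rfl
  have h11 : ∀ v < 22000, chkRow cert v cert.ncols = true :=
    cover_step h10 (chkRangeT_spec (c := cert) 20000 2000 kT_20000) rfl
  have h12 : ∀ v < 24000, chkRow cert v cert.ncols = true :=
    cover_step h11 (chkRangeT_spec (c := cert) 22000 2000 kT_22000) rfl
  have h13 : ∀ v < 26000, chkRow cert v cert.ncols = true :=
    cover_step h12 (chkRangeT_spec (c := cert) 24000 2000 kT_24000) rfl
  have h14 : ∀ v < 28000, chkRow cert v cert.ncols = true :=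
    cover_step h13 (chkRangeT_spec (c := cert) 26000 2000 kT_26000) rfl
  have h15 : ∀ v < 30000, chkRow cert v cert.ncols = true :=
    cover_step h14 (chkRangeT_spec (c := cert) 28000 2000 kT_28000) rfl
  have h16 : ∀ v < 32000, chkRow cert v cert.ncols = true :=
    cover_step h15 (chkRangeT_spec (c := cert) 30000 2000 kT_30000) rfl
  have h17 : ∀ v < 34000, chkRow cert v cert.ncols = true :=
    cover_step h16 (chkRangeT_spec (c := cert) 32000 2000 kT_32000) rfl
  have h18 : ∀ v < 36000, chkRow cert v cert.ncols = true :=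
    cover_step h17 (chkRangeT_spec (c := cert) 34000 2000 kT_34000) rfl
  have h19 : ∀ v < 38000, chkRow cert v cert.ncols = true :=
    cover_step h18 (chkRangeT_spec (c := cert) 36000 2000 kT_36000) rfl
  have h20 : ∀ v < 40000, chkRow cert v cert.ncols = true :=
    cover_step h19 (chkRangeT_spec (c := cert) 38000 2000 kT_38000) rfl
  have h21 : ∀ v < 42000, chkRow cert v cert.ncols = true :=
    cover_step h20 (chkRangeT_spec (c := cert) 40000 2000 kT_40000) rfl
  have h22 : ∀ v < 44000, chkRow cert v cert.ncols = true :=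
    cover_step h21 (chkRangeT_spec (c := cert) 42000 2000 kT_42000) rfl
  have h23 : ∀ v < 46000, chkRow cert v cert.ncols = true :=
    cover_step h22 (chkRangeT_spec (c := cert) 44000 2000 kT_44000) rfl
  have h24 : ∀ v < 48000, chkRow cert v cert.ncols = true :=
    cover_step h23 (chkRangeT_spec (c := cert) 46000 2000 kT_46000) rfl
  have h25 : ∀ v < 50000, chkRow cert v cert.ncols = true :=
    cover_step h24 (chkRangeT_spec (c := cert) 48000 2000 kT_48000) rfl
  have h26 : ∀ v < 52000, chkRow cert v cert.ncols = true :=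
    cover_step h25 (chkRangeT_spec (c := cert) 50000 2000 kT_50000) rfl
  have h27 : ∀ v < 54000, chkRow cert v cert.ncols = true :=
    cover_step h26 (chkRangeT_spec (c := cert) 52000 2000 kT_52000) rfl
  have h28 : ∀ v < 56000, chkRow cert v cert.ncols = true :=
    cover_step h27 (chkRangeT_spec (c := cert) 54000 2000 kT_54000) rfl
  have h29 : ∀ v < 58000, chkRow cert v cert.ncols = true :=
    cover_step h28 (chkRangeT_spec (c := cert) 56000 2000 kT_56000) rfl
  have h30 : ∀ v < 60000, chkRow cert v cert.ncols = true :=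
    cover_step h29 (chkRangeT_spec (c := cert) 58000 2000 kT_58000) rfl
  have h31 : ∀ v < 62000, chkRow cert v cert.ncols = true :=
    cover_step h30 (chkRangeT_spec (c := cert) 60000 2000 kT_60000) rfl
  have h32 : ∀ v < 63976, chkRow cert v cert.ncols = true :=
    cover_step h31 (chkRangeT_spec (c := cert) 62000 1976 kT_62000) rfl
  have h33 : ∀ v < 65939, chkRow cert v cert.ncols = true :=
    cover_step h32 (chkRangeT_spec (c := cert) 63976 1963 kT_63976) rfl
  have h34 : ∀ v < 67877, chkRow cert v cert.ncols = true :=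
    cover_step h33 (chkRangeT_spec (c := cert) 65939 1938 kT_65939) rfl
  have h35 : ∀ v < 69783, chkRow cert v cert.ncols = true :=
    cover_step h34 (chkRangeT_spec (c := cert) 67877 1906 kT_67877) rfl
  have h36 : ∀ v < 71721, chkRow cert v cert.ncols = true :=
    cover_step h35 (chkRangeT_spec (c := cert) 69783 1938 kT_69783) rfl
  have h37 : ∀ v < 73613, chkRow cert v cert.ncols = true :=
    cover_step h36 (chkRangeT_spec (c := cert) 71721 1892 kT_71721) rfl
  have h38 : ∀ v < 75460, chkRow cert v cert.ncols = true :=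
    cover_step h37 (chkRangeT_spec (c := cert) 73613 1847 kT_73613) rfl
  have h39 : ∀ v < 77315, chkRow cert v cert.ncols = true :=
    cover_step h38 (chkRangeT_spec (c := cert) 75460 1855 kT_75460) rfl
  have h40 : ∀ v < 79164, chkRow cert v cert.ncols = true :=
    cover_step h39 (chkRangeT_spec (c := cert) 77315 1849 kT_77315) rfl
  have h41 : ∀ v < 80947, chkRow cert v cert.ncols = true :=
    cover_step h40 (chkRangeT_spec (c := cert) 79164 1783 kT_79164) rfl
  have h42 : ∀ v < 82714, chkRow cert v cert.ncols = true :=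
    cover_step h41 (chkRangeT_spec (c := cert) 80947 1767 kT_80947) rfl
  have h43 : ∀ v < 84558, chkRow cert v cert.ncols = true :=
    cover_step h42 (chkRangeT_spec (c := cert) 82714 1844 kT_82714) rfl
  have h44 : ∀ v < 86374, chkRow cert v cert.ncols = true :=
    cover_step h43 (chkRangeT_spec (c := cert) 84558 1816 kT_84558) rfl
  have h45 : ∀ v < 88136, chkRow cert v cert.ncols = true :=
    cover_step h44 (chkRangeT_spec (c := cert) 86374 1762 kT_86374) rfl
  have h46 : ∀ v < 89860, chkRow cert v cert.ncols = true :=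
    cover_step h45 (chkRangeT_spec (c := cert) 88136 1724 kT_88136) rfl
  have h47 : ∀ v < 91586, chkRow cert v cert.ncols = true :=
    cover_step h46 (chkRangeT_spec (c := cert) 89860 1726 kT_89860) rfl
  have h48 : ∀ v < 93323, chkRow cert v cert.ncols = true :=
    cover_step h47 (chkRangeT_spec (c := cert) 91586 1737 kT_91586) rfl
  have h49 : ∀ v < 95061, chkRow cert v cert.ncols = true :=
    cover_step h48 (chkRangeT_spec (c := cert) 93323 1738 kT_93323) rfl
  have h50 : ∀ v < 96741, chkRow cert v cert.ncols = true :=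
    cover_step h49 (chkRangeT_spec (c := cert) 95061 1680 kT_95061) rfl
  have h51 : ∀ v < 98420, chkRow cert v cert.ncols = true :=
    cover_step h50 (chkRangeT_spec (c := cert) 96741 1679 kT_96741) rfl
  have h52 : ∀ v < 100127, chkRow cert v cert.ncols = true :=
    cover_step h51 (chkRangeT_spec (c := cert) 98420 1707 kT_98420) rfl
  have h53 : ∀ v < 101795, chkRow cert v cert.ncols = true :=
    cover_step h52 (chkRangeT_spec (c := cert) 100127 1668 kT_100127) rfl
  have h54 : ∀ v < 103455, chkRow cert v cert.ncols = true :=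
    cover_step h53 (chkRangeT_spec (c := cert) 101795 1660 kT_101795) rfl
  have h55 : ∀ v < 105091, chkRow cert v cert.ncols = true :=
    cover_step h54 (chkRangeT_spec (c := cert) 103455 1636 kT_103455) rfl
  have h56 : ∀ v < 106725, chkRow cert v cert.ncols = true :=
    cover_step h55 (chkRangeT_spec (c := cert) 105091 1634 kT_105091) rfl
  have h57 : ∀ v < 108325, chkRow cert v cert.ncols = true :=
    cover_step h56 (chkRangeT_spec (c := cert) 106725 1600 kT_106725) rfl
  have h58 : ∀ v < 109960, chkRow cert v cert.ncols = true :=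
    cover_step h57 (chkRangeT_spec (c := cert) 108325 1635 kT_108325) rfl
  have h59 : ∀ v < 111570, chkRow cert v cert.ncols = true :=
    cover_step h58 (chkRangeT_spec (c := cert) 109960 1610 kT_109960) rfl
  have h60 : ∀ v < 113135, chkRow cert v cert.ncols = true :=
    cover_step h59 (chkRangeT_spec (c := cert) 111570 1565 kT_111570) rfl
  have h61 : ∀ v < 114737, chkRow cert v cert.ncols = true :=
    cover_step h60 (chkRangeT_spec (c := cert) 113135 1602 kT_113135) rfl
  have h62 : ∀ v < 116290, chkRow cert v cert.ncols = true :=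
    cover_step h61 (chkRangeT_spec (c := cert) 114737 1553 kT_114737) rfl
  have h63 : ∀ v < 117839, chkRow cert v cert.ncols = true :=
    cover_step h62 (chkRangeT_spec (c := cert) 116290 1549 kT_116290) rfl
  have h64 : ∀ v < 119389, chkRow cert v cert.ncols = true :=
    cover_step h63 (chkRangeT_spec (c := cert) 117839 1550 kT_117839) rfl
  have h65 : ∀ v < 120906, chkRow cert v cert.ncols = true :=
    cover_step h64 (chkRangeT_spec (c := cert) 119389 1517 kT_119389) rfl
  have h66 : ∀ v < 122396, chkRow cert v cert.ncols = true :=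
    cover_step h65 (chkRangeT_spec (c := cert) 120906 1490 kT_120906) rfl
  have h67 : ∀ v < 124396, chkRow cert v cert.ncols = true :=
    cover_step h66 (chkRangeT_spec (c := cert) 122396 2000 kT_122396) rfl
  have h68 : ∀ v < 126396, chkRow cert v cert.ncols = true :=
    cover_step h67 (chkRangeT_spec (c := cert) 124396 2000 kT_124396) rfl
  have h69 : ∀ v < 128396, chkRow cert v cert.ncols = true :=
    cover_step h68 (chkRangeT_spec (c := cert) 126396 2000 kT_126396) rfl
  have h70 : ∀ v < 130396, chkRow cert v cert.ncols = true :=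
    cover_step h69 (chkRangeT_spec (c := cert) 128396 2000 kT_128396) rfl
  have h71 : ∀ v < 132396, chkRow cert v cert.ncols = true :=
    cover_step h70 (chkRangeT_spec (c := cert) 130396 2000 kT_130396) rfl
  have h72 : ∀ v < 134396, chkRow cert v cert.ncols = true :=
    cover_step h71 (chkRangeT_spec (c := cert) 132396 2000 kT_132396) rfl
  have h73 : ∀ v < 136396, chkRow cert v cert.ncols = true :=
    cover_step h72 (chkRangeT_spec (c := cert) 134396 2000 kT_134396) rfl
  have h74 : ∀ v < 138396, chkRow cert v cert.ncols = true :=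
    cover_step h73 (chkRangeT_spec (c := cert) 136396 2000 kT_136396) rfl
  have h75 : ∀ v < 140396, chkRow cert v cert.ncols = true :=
    cover_step h74 (chkRangeT_spec (c := cert) 138396 2000 kT_138396) rfl
  have h76 : ∀ v < 142396, chkRow cert v cert.ncols = true :=
    cover_step h75 (chkRangeT_spec (c := cert) 140396 2000 kT_140396) rfl
  have h77 : ∀ v < 144396, chkRow cert v cert.ncols = true :=
    cover_step h76 (chkRangeT_spec (c := cert) 142396 2000 kT_142396) rfl
  have h78 : ∀ v < 146396, chkRow cert v cert.ncols = true :=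
    cover_step h77 (chkRangeT_spec (c := cert) 144396 2000 kT_144396) rfl
  have h79 : ∀ v < 148396, chkRow cert v cert.ncols = true :=
    cover_step h78 (chkRangeT_spec (c := cert) 146396 2000 kT_146396) rfl
  have h80 : ∀ v < 150396, chkRow cert v cert.ncols = true :=
    cover_step h79 (chkRangeT_spec (c := cert) 148396 2000 kT_148396) rfl
  have h81 : ∀ v < 152396, chkRow cert v cert.ncols = true :=
    cover_step h80 (chkRangeT_spec (c := cert) 150396 2000 kT_150396) rfl
  have h82 : ∀ v < 154396, chkRow cert v cert.ncols = true :=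
    cover_step h81 (chkRangeT_spec (c := cert) 152396 2000 kT_152396) rfl
  have h83 : ∀ v < 156396, chkRow cert v cert.ncols = true :=
    cover_step h82 (chkRangeT_spec (c := cert) 154396 2000 kT_154396) rfl
  have h84 : ∀ v < 158396, chkRow cert v cert.ncols = true :=
    cover_step h83 (chkRangeT_spec (c := cert) 156396 2000 kT_156396) rfl
  have h85 : ∀ v < 160396, chkRow cert v cert.ncols = true :=
    cover_step h84 (chkRangeT_spec (c := cert) 158396 2000 kT_158396) rfl
  have h86 : ∀ v < 162396, chkRow cert v cert.ncols = true :=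
    cover_step h85 (chkRangeT_spec (c := cert) 160396 2000 kT_160396) rfl
  have h87 : ∀ v < 164396, chkRow cert v cert.ncols = true :=
    cover_step h86 (chkRangeT_spec (c := cert) 162396 2000 kT_162396) rfl
  have h88 : ∀ v < 166396, chkRow cert v cert.ncols = true :=
    cover_step h87 (chkRangeT_spec (c := cert) 164396 2000 kT_164396) rfl
  have h89 : ∀ v < 168396, chkRow cert v cert.ncols = true :=
    cover_step h88 (chkRangeT_spec (c := cert) 166396 2000 kT_166396) rfl
  have h90 : ∀ v < 170396, chkRow cert v cert.ncols = true :=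
    cover_step h89 (chkRangeT_spec (c := cert) 168396 2000 kT_168396) rfl
  have h91 : ∀ v < 172396, chkRow cert v cert.ncols = true :=
    cover_step h90 (chkRangeT_spec (c := cert) 170396 2000 kT_170396) rfl
  have h92 : ∀ v < 174396, chkRow cert v cert.ncols = true :=
    cover_step h91 (chkRangeT_spec (c := cert) 172396 2000 kT_172396) rfl
  have h93 : ∀ v < 176396, chkRow cert v cert.ncols = true :=
    cover_step h92 (chkRangeT_spec (c := cert) 174396 2000 kT_174396) rfl
  have h94 : ∀ v < 178396, chkRow cert v cert.ncols = true :=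
    cover_step h93 (chkRangeT_spec (c := cert) 176396 2000 kT_176396) rfl
  have h95 : ∀ v < 180396, chkRow cert v cert.ncols = true :=
    cover_step h94 (chkRangeT_spec (c := cert) 178396 2000 kT_178396) rfl
  have h96 : ∀ v < 182396, chkRow cert v cert.ncols = true :=
    cover_step h95 (chkRangeT_spec (c := cert) 180396 2000 kT_180396) rfl
  have h97 : ∀ v < 184396, chkRow cert v cert.ncols = true :=
    cover_step h96 (chkRangeT_spec (c := cert) 182396 2000 kT_182396) rfl
  have h98 : ∀ v < 186396, chkRow cert v cert.ncols = true :=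
    cover_step h97 (chkRangeT_spec (c := cert) 184396 2000 kT_184396) rfl
  have h99 : ∀ v < 187302, chkRow cert v cert.ncols = true :=
    cover_step h98 (chkRangeT_spec (c := cert) 186396 906 kT_186396) rfl
  exact h99

theorem allF : ∀ v < 122760, chkVF cert v = true := by
  have h0 : ∀ v < 0, chkVF cert v = true := fun v hv => absurd hv (Nat.not_lt_zero v)
  have h1 : ∀ v < 765, chkVF cert v = true :=
    cover_step h0 (chkRangeF_spec (c := cert) 0 765 kF_0) rfl
  have h2 : ∀ v < 1530, chkVF cert v = true :=
    cover_step h1 (chkRangeF_spec (c := cert) 765 765 kF_765) rfl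
  have h3 : ∀ v < 2295, chkVF cert v = true :=
    cover_step h2 (chkRangeF_spec (c := cert) 1530 765 kF_1530) rfl
  have h4 : ∀ v < 3060, chkVF cert v = true :=
    cover_step h3 (chkRangeF_spec (c := cert) 2295 765 kF_2295) rfl
  have h5 : ∀ v < 3825, chkVF cert v = true :=
    cover_step h4 (chkRangeF_spec (c := cert) 3060 765 kF_3060) rfl
  have h6 : ∀ v < 4590, chkVF cert v = true :=
    cover_step h5 (chkRangeF_spec (c := cert) 3825 765 kF_3825) rfl
  have h7 : ∀ v < 5355, chkVF cert v = true :=
    cover_step h6 (chkRangeF_spec (c := cert) 4590 765 kF_4590) rfl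
  have h8 : ∀ v < 6120, chkVF cert v = true :=
    cover_step h7 (chkRangeF_spec (c := cert) 5355 765 kF_5355) rfl
  have h9 : ∀ v < 6885, chkVF cert v = true :=
    cover_step h8 (chkRangeF_spec (c := cert) 6120 765 kF_6120) rfl
  have h10 : ∀ v < 7650, chkVF cert v = true :=
    cover_step h9 (chkRangeF_spec (c := cert) 6885 765 kF_6885) rfl
  have h11 : ∀ v < 8415, chkVF cert v = true :=
    cover_step h10 (chkRangeF_spec (c := cert) 7650 765 kF_7650) rfl
  have h12 : ∀ v < 9180, chkVF cert v = true :=
    cover_step h11 (chkRangeF_spec (c := cert) 8415 765 kF_8415) rfl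
  have h13 : ∀ v < 9945, chkVF cert v = true :=
    cover_step h12 (chkRangeF_spec (c := cert) 9180 765 kF_9180) rfl
  have h14 : ∀ v < 10710, chkVF cert v = true :=
    cover_step h13 (chkRangeF_spec (c := cert) 9945 765 kF_9945) rfl
  have h15 : ∀ v < 11475, chkVF cert v = true :=
    cover_step h14 (chkRangeF_spec (c := cert) 10710 765 kF_10710) rfl
  have h16 : ∀ v < 12240, chkVF cert v = true :=
    cover_step h15 (chkRangeF_spec (c := cert) 11475 765 kF_11475) rfl
  have h17 : ∀ v < 13005, chkVF cert v = true :=
    cover_step h16 (chkRangeF_spec (c := cert) 12240 765 kF_12240) rfl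
  have h18 : ∀ v < 13770, chkVF cert v = true :=
    cover_step h17 (chkRangeF_spec (c := cert) 13005 765 kF_13005) rfl
  have h19 : ∀ v < 14535, chkVF cert v = true :=
    cover_step h18 (chkRangeF_spec (c := cert) 13770 765 kF_13770) rfl
  have h20 : ∀ v < 15300, chkVF cert v = true :=
    cover_step h19 (chkRangeF_spec (c := cert) 14535 765 kF_14535) rfl
  have h21 : ∀ v < 16065, chkVF cert v = true :=
    cover_step h20 (chkRangeF_spec (c := cert) 15300 765 kF_15300) rfl
  have h22 : ∀ v < 16830, chkVF cert v = true :=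
    cover_step h21 (chkRangeF_spec (c := cert) 16065 765 kF_16065) rfl
  have h23 : ∀ v < 17595, chkVF cert v = true :=
    cover_step h22 (chkRangeF_spec (c := cert) 16830 765 kF_16830) rfl
  have h24 : ∀ v < 18360, chkVF cert v = true :=
    cover_step h23 (chkRangeF_spec (c := cert) 17595 765 kF_17595) rfl
  have h25 : ∀ v < 19125, chkVF cert v = true :=
    cover_step h24 (chkRangeF_spec (c := cert) 18360 765 kF_18360) rfl
  have h26 : ∀ v < 19890, chkVF cert v = true :=
    cover_step h25 (chkRangeF_spec (c := cert) 19125 765 kF_19125) rfl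
  have h27 : ∀ v < 20655, chkVF cert v = true :=
    cover_step h26 (chkRangeF_spec (c := cert) 19890 765 kF_19890) rfl
  have h28 : ∀ v < 21420, chkVF cert v = true :=
    cover_step h27 (chkRangeF_spec (c := cert) 20655 765 kF_20655) rfl
  have h29 : ∀ v < 22185, chkVF cert v = true :=
    cover_step h28 (chkRangeF_spec (c := cert) 21420 765 kF_21420) rfl
  have h30 : ∀ v < 22950, chkVF cert v = true :=
    cover_step h29 (chkRangeF_spec (c := cert) 22185 765 kF_22185) rfl
  have h31 : ∀ v < 23715, chkVF cert v = true :=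
    cover_step h30 (chkRangeF_spec (c := cert) 22950 765 kF_22950) rfl
  have h32 : ∀ v < 24480, chkVF cert v = true :=
    cover_step h31 (chkRangeF_spec (c := cert) 23715 765 kF_23715) rfl
  have h33 : ∀ v < 25245, chkVF cert v = true :=
    cover_step h32 (chkRangeF_spec (c := cert) 24480 765 kF_24480) rfl
  have h34 : ∀ v < 26010, chkVF cert v = true :=
    cover_step h33 (chkRangeF_spec (c := cert) 25245 765 kF_25245) rfl
  have h35 : ∀ v < 26775, chkVF cert v = true :=
    cover_step h34 (chkRangeF_spec (c := cert) 26010 765 kF_26010) rfl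
  have h36 : ∀ v < 27540, chkVF cert v = true :=
    cover_step h35 (chkRangeF_spec (c := cert) 26775 765 kF_26775) rfl
  have h37 : ∀ v < 28305, chkVF cert v = true :=
    cover_step h36 (chkRangeF_spec (c := cert) 27540 765 kF_27540) rfl
  have h38 : ∀ v < 29070, chkVF cert v = true :=
    cover_step h37 (chkRangeF_spec (c := cert) 28305 765 kF_28305) rfl
  have h39 : ∀ v < 29835, chkVF cert v = true :=
    cover_step h38 (chkRangeF_spec (c := cert) 29070 765 kF_29070) rfl
  have h40 : ∀ v < 30600, chkVF cert v = true :=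
    cover_step h39 (chkRangeF_spec (c := cert) 29835 765 kF_29835) rfl
  have h41 : ∀ v < 31365, chkVF cert v = true :=
    cover_step h40 (chkRangeF_spec (c := cert) 30600 765 kF_30600) rfl
  have h42 : ∀ v < 32130, chkVF cert v = true :=
    cover_step h41 (chkRangeF_spec (c := cert) 31365 765 kF_31365) rfl
  have h43 : ∀ v < 32895, chkVF cert v = true :=
    cover_step h42 (chkRangeF_spec (c := cert) 32130 765 kF_32130) rfl
  have h44 : ∀ v < 33660, chkVF cert v = true :=
    cover_step h43 (chkRangeF_spec (c := cert) 32895 765 kF_32895) rfl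
  have h45 : ∀ v < 34425, chkVF cert v = true :=
    cover_step h44 (chkRangeF_spec (c := cert) 33660 765 kF_33660) rfl
  have h46 : ∀ v < 35190, chkVF cert v = true :=
    cover_step h45 (chkRangeF_spec (c := cert) 34425 765 kF_34425) rfl
  have h47 : ∀ v < 35955, chkVF cert v = true :=
    cover_step h46 (chkRangeF_spec (c := cert) 35190 765 kF_35190) rfl
  have h48 : ∀ v < 36720, chkVF cert v = true :=
    cover_step h47 (chkRangeF_spec (c := cert) 35955 765 kF_35955) rfl
  have h49 : ∀ v < 37485, chkVF cert v = true :=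
    cover_step h48 (chkRangeF_spec (c := cert) 36720 765 kF_36720) rfl
  have h50 : ∀ v < 38250, chkVF cert v = true :=
    cover_step h49 (chkRangeF_spec (c := cert) 37485 765 kF_37485) rfl
  have h51 : ∀ v < 39015, chkVF cert v = true :=
    cover_step h50 (chkRangeF_spec (c := cert) 38250 765 kF_38250) rfl
  have h52 : ∀ v < 39780, chkVF cert v = true :=
    cover_step h51 (chkRangeF_spec (c := cert) 39015 765 kF_39015) rfl
  have h53 : ∀ v < 40545, chkVF cert v = true :=
    cover_step h52 (chkRangeF_spec (c := cert) 39780 765 kF_39780) rfl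
  have h54 : ∀ v < 41310, chkVF cert v = true :=
    cover_step h53 (chkRangeF_spec (c := cert) 40545 765 kF_40545) rfl
  have h55 : ∀ v < 42075, chkVF cert v = true :=
    cover_step h54 (chkRangeF_spec (c := cert) 41310 765 kF_41310) rfl
  have h56 : ∀ v < 42840, chkVF cert v = true :=
    cover_step h55 (chkRangeF_spec (c := cert) 42075 765 kF_42075) rfl
  have h57 : ∀ v < 43605, chkVF cert v = true :=
    cover_step h56 (chkRangeF_spec (c := cert) 42840 765 kF_42840) rfl
  have h58 : ∀ v < 44370, chkVF cert v = true :=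
    cover_step h57 (chkRangeF_spec (c := cert) 43605 765 kF_43605) rfl
  have h59 : ∀ v < 45135, chkVF cert v = true :=
    cover_step h58 (chkRangeF_spec (c := cert) 44370 765 kF_44370) rfl
  have h60 : ∀ v < 45900, chkVF cert v = true :=
    cover_step h59 (chkRangeF_spec (c := cert) 45135 765 kF_45135) rfl
  have h61 : ∀ v < 46665, chkVF cert v = true :=
    cover_step h60 (chkRangeF_spec (c := cert) 45900 765 kF_45900) rfl
  have h62 : ∀ v < 47430, chkVF cert v = true :=
    cover_step h61 (chkRangeF_spec (c := cert) 46665 765 kF_46665) rfl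
  have h63 : ∀ v < 48195, chkVF cert v = true :=
    cover_step h62 (chkRangeF_spec (c := cert) 47430 765 kF_47430) rfl
  have h64 : ∀ v < 48960, chkVF cert v = true :=
    cover_step h63 (chkRangeF_spec (c := cert) 48195 765 kF_48195) rfl
  have h65 : ∀ v < 49725, chkVF cert v = true :=
    cover_step h64 (chkRangeF_spec (c := cert) 48960 765 kF_48960) rfl
  have h66 : ∀ v < 50490, chkVF cert v = true :=
    cover_step h65 (chkRangeF_spec (c := cert) 49725 765 kF_49725) rfl
  have h67 : ∀ v < 51255, chkVF cert v = true :=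
    cover_step h66 (chkRangeF_spec (c := cert) 50490 765 kF_50490) rfl
  have h68 : ∀ v < 52020, chkVF cert v = true :=
    cover_step h67 (chkRangeF_spec (c := cert) 51255 765 kF_51255) rfl
  have h69 : ∀ v < 52785, chkVF cert v = true :=
    cover_step h68 (chkRangeF_spec (c := cert) 52020 765 kF_52020) rfl
  have h70 : ∀ v < 53550, chkVF cert v = true :=
    cover_step h69 (chkRangeF_spec (c := cert) 52785 765 kF_52785) rfl
  have h71 : ∀ v < 54315, chkVF cert v = true :=
    cover_step h70 (chkRangeF_spec (c := cert) 53550 765 kF_53550) rfl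
  have h72 : ∀ v < 55080, chkVF cert v = true :=
    cover_step h71 (chkRangeF_spec (c := cert) 54315 765 kF_54315) rfl
  have h73 : ∀ v < 55845, chkVF cert v = true :=
    cover_step h72 (chkRangeF_spec (c := cert) 55080 765 kF_55080) rfl
  have h74 : ∀ v < 56610, chkVF cert v = true :=
    cover_step h73 (chkRangeF_spec (c := cert) 55845 765 kF_55845) rfl
  have h75 : ∀ v < 57375, chkVF cert v = true :=
    cover_step h74 (chkRangeF_spec (c := cert) 56610 765 kF_56610) rfl
  have h76 : ∀ v < 58140, chkVF cert v = true :=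
    cover_step h75 (chkRangeF_spec (c := cert) 57375 765 kF_57375) rfl
  have h77 : ∀ v < 58905, chkVF cert v = true :=
    cover_step h76 (chkRangeF_spec (c := cert) 58140 765 kF_58140) rfl
  have h78 : ∀ v < 59670, chkVF cert v = true :=
    cover_step h77 (chkRangeF_spec (c := cert) 58905 765 kF_58905) rfl
  have h79 : ∀ v < 60435, chkVF cert v = true :=
    cover_step h78 (chkRangeF_spec (c := cert) 59670 765 kF_59670) rfl
  have h80 : ∀ v < 61200, chkVF cert v = true :=
    cover_step h79 (chkRangeF_spec (c := cert) 60435 765 kF_60435) rfl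
  have h81 : ∀ v < 61965, chkVF cert v = true :=
    cover_step h80 (chkRangeF_spec (c := cert) 61200 765 kF_61200) rfl
  have h82 : ∀ v < 62730, chkVF cert v = true :=
    cover_step h81 (chkRangeF_spec (c := cert) 61965 765 kF_61965) rfl
  have h83 : ∀ v < 63495, chkVF cert v = true :=
    cover_step h82 (chkRangeF_spec (c := cert) 62730 765 kF_62730) rfl
  have h84 : ∀ v < 64260, chkVF cert v = true :=
    cover_step h83 (chkRangeF_spec (c := cert) 63495 765 kF_63495) rfl
  have h85 : ∀ v < 65025, chkVF cert v = true :=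
    cover_step h84 (chkRangeF_spec (c := cert) 64260 765 kF_64260) rfl
  have h86 : ∀ v < 65790, chkVF cert v = true :=
    cover_step h85 (chkRangeF_spec (c := cert) 65025 765 kF_65025) rfl
  have h87 : ∀ v < 66555, chkVF cert v = true :=
    cover_step h86 (chkRangeF_spec (c := cert) 65790 765 kF_65790) rfl
  have h88 : ∀ v < 67320, chkVF cert v = true :=
    cover_step h87 (chkRangeF_spec (c := cert) 66555 765 kF_66555) rfl
  have h89 : ∀ v < 68085, chkVF cert v = true :=
    cover_step h88 (chkRangeF_spec (c := cert) 67320 765 kF_67320) rfl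
  have h90 : ∀ v < 68850, chkVF cert v = true :=
    cover_step h89 (chkRangeF_spec (c := cert) 68085 765 kF_68085) rfl
  have h91 : ∀ v < 69615, chkVF cert v = true :=
    cover_step h90 (chkRangeF_spec (c := cert) 68850 765 kF_68850) rfl
  have h92 : ∀ v < 70380, chkVF cert v = true :=
    cover_step h91 (chkRangeF_spec (c := cert) 69615 765 kF_69615) rfl
  have h93 : ∀ v < 71145, chkVF cert v = true :=
    cover_step h92 (chkRangeF_spec (c := cert) 70380 765 kF_70380) rfl
  have h94 : ∀ v < 71910, chkVF cert v = true :=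
    cover_step h93 (chkRangeF_spec (c := cert) 71145 765 kF_71145) rfl
  have h95 : ∀ v < 72675, chkVF cert v = true :=
    cover_step h94 (chkRangeF_spec (c := cert) 71910 765 kF_71910) rfl
  have h96 : ∀ v < 73440, chkVF cert v = true :=
    cover_step h95 (chkRangeF_spec (c := cert) 72675 765 kF_72675) rfl
  have h97 : ∀ v < 74205, chkVF cert v = true :=
    cover_step h96 (chkRangeF_spec (c := cert) 73440 765 kF_73440) rfl
  have h98 : ∀ v < 74970, chkVF cert v = true :=
    cover_step h97 (chkRangeF_spec (c := cert) 74205 765 kF_74205) rfl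
  have h99 : ∀ v < 75735, chkVF cert v = true :=
    cover_step h98 (chkRangeF_spec (c := cert) 74970 765 kF_74970) rfl
  have h100 : ∀ v < 76500, chkVF cert v = true :=
    cover_step h99 (chkRangeF_spec (c := cert) 75735 765 kF_75735) rfl
  have h101 : ∀ v < 77265, chkVF cert v = true :=
    cover_step h100 (chkRangeF_spec (c := cert) 76500 765 kF_76500) rfl
  have h102 : ∀ v < 78030, chkVF cert v = true :=
    cover_step h101 (chkRangeF_spec (c := cert) 77265 765 kF_77265) rfl
  have h103 : ∀ v < 78795, chkVF cert v = true :=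
    cover_step h102 (chkRangeF_spec (c := cert) 78030 765 kF_78030) rfl
  have h104 : ∀ v < 79560, chkVF cert v = true :=
    cover_step h103 (chkRangeF_spec (c := cert) 78795 765 kF_78795) rfl
  have h105 : ∀ v < 80325, chkVF cert v = true :=
    cover_step h104 (chkRangeF_spec (c := cert) 79560 765 kF_79560) rfl
  have h106 : ∀ v < 81090, chkVF cert v = true :=
    cover_step h105 (chkRangeF_spec (c := cert) 80325 765 kF_80325) rfl
  have h107 : ∀ v < 81855, chkVF cert v = true :=
    cover_step h106 (chkRangeF_spec (c := cert) 81090 765 kF_81090) rfl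
  have h108 : ∀ v < 82620, chkVF cert v = true :=
    cover_step h107 (chkRangeF_spec (c := cert) 81855 765 kF_81855) rfl
  have h109 : ∀ v < 83385, chkVF cert v = true :=
    cover_step h108 (chkRangeF_spec (c := cert) 82620 765 kF_82620) rfl
  have h110 : ∀ v < 84150, chkVF cert v = true :=
    cover_step h109 (chkRangeF_spec (c := cert) 83385 765 kF_83385) rfl
  have h111 : ∀ v < 84915, chkVF cert v = true :=
    cover_step h110 (chkRangeF_spec (c := cert) 84150 765 kF_84150) rfl
  have h112 : ∀ v < 85680, chkVF cert v = true :=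
    cover_step h111 (chkRangeF_spec (c := cert) 84915 765 kF_84915) rfl
  have h113 : ∀ v < 86445, chkVF cert v = true :=
    cover_step h112 (chkRangeF_spec (c := cert) 85680 765 kF_85680) rfl
  have h114 : ∀ v < 87210, chkVF cert v = true :=
    cover_step h113 (chkRangeF_spec (c := cert) 86445 765 kF_86445) rfl
  have h115 : ∀ v < 87975, chkVF cert v = true :=
    cover_step h114 (chkRangeF_spec (c := cert) 87210 765 kF_87210) rfl
  have h116 : ∀ v < 88740, chkVF cert v = true :=
    cover_step h115 (chkRangeF_spec (c := cert) 87975 765 kF_87975) rfl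
  have h117 : ∀ v < 89505, chkVF cert v = true :=
    cover_step h116 (chkRangeF_spec (c := cert) 88740 765 kF_88740) rfl
  have h118 : ∀ v < 90270, chkVF cert v = true :=
    cover_step h117 (chkRangeF_spec (c := cert) 89505 765 kF_89505) rfl
  have h119 : ∀ v < 91035, chkVF cert v = true :=
    cover_step h118 (chkRangeF_spec (c := cert) 90270 765 kF_90270) rfl
  have h120 : ∀ v < 91800, chkVF cert v = true :=
    cover_step h119 (chkRangeF_spec (c := cert) 91035 765 kF_91035) rfl
  have h121 : ∀ v < 92565, chkVF cert v = true :=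
    cover_step h120 (chkRangeF_spec (c := cert) 91800 765 kF_91800) rfl
  have h122 : ∀ v < 93330, chkVF cert v = true :=
    cover_step h121 (chkRangeF_spec (c := cert) 92565 765 kF_92565) rfl
  have h123 : ∀ v < 94095, chkVF cert v = true :=
    cover_step h122 (chkRangeF_spec (c := cert) 93330 765 kF_93330) rfl
  have h124 : ∀ v < 94860, chkVF cert v = true :=
    cover_step h123 (chkRangeF_spec (c := cert) 94095 765 kF_94095) rfl
  have h125 : ∀ v < 95625, chkVF cert v = true :=
    cover_step h124 (chkRangeF_spec (c := cert) 94860 765 kF_94860) rfl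
  have h126 : ∀ v < 96390, chkVF cert v = true :=
    cover_step h125 (chkRangeF_spec (c := cert) 95625 765 kF_95625) rfl
  have h127 : ∀ v < 97155, chkVF cert v = true :=
    cover_step h126 (chkRangeF_spec (c := cert) 96390 765 kF_96390) rfl
  have h128 : ∀ v < 97920, chkVF cert v = true :=
    cover_step h127 (chkRangeF_spec (c := cert) 97155 765 kF_97155) rfl
  have h129 : ∀ v < 98685, chkVF cert v = true :=
    cover_step h128 (chkRangeF_spec (c := cert) 97920 765 kF_97920) rfl
  have h130 : ∀ v < 99450, chkVF cert v = true :=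
    cover_step h129 (chkRangeF_spec (c := cert) 98685 765 kF_98685) rfl
  have h131 : ∀ v < 100215, chkVF cert v = true :=
    cover_step h130 (chkRangeF_spec (c := cert) 99450 765 kF_99450) rfl
  have h132 : ∀ v < 100980, chkVF cert v = true :=
    cover_step h131 (chkRangeF_spec (c := cert) 100215 765 kF_100215) rfl
  have h133 : ∀ v < 101745, chkVF cert v = true :=
    cover_step h132 (chkRangeF_spec (c := cert) 100980 765 kF_100980) rfl
  have h134 : ∀ v < 102510, chkVF cert v = true :=
    cover_step h133 (chkRangeF_spec (c := cert) 101745 765 kF_101745) rfl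
  have h135 : ∀ v < 103275, chkVF cert v = true :=
    cover_step h134 (chkRangeF_spec (c := cert) 102510 765 kF_102510) rfl
  have h136 : ∀ v < 104040, chkVF cert v = true :=
    cover_step h135 (chkRangeF_spec (c := cert) 103275 765 kF_103275) rfl
  have h137 : ∀ v < 104805, chkVF cert v = true :=
    cover_step h136 (chkRangeF_spec (c := cert) 104040 765 kF_104040) rfl
  have h138 : ∀ v < 105570, chkVF cert v = true :=
    cover_step h137 (chkRangeF_spec (c := cert) 104805 765 kF_104805) rfl
  have h139 : ∀ v < 106335, chkVF cert v = true :=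
    cover_step h138 (chkRangeF_spec (c := cert) 105570 765 kF_105570) rfl
  have h140 : ∀ v < 107100, chkVF cert v = true :=
    cover_step h139 (chkRangeF_spec (c := cert) 106335 765 kF_106335) rfl
  have h141 : ∀ v < 107865, chkVF cert v = true :=
    cover_step h140 (chkRangeF_spec (c := cert) 107100 765 kF_107100) rfl
  have h142 : ∀ v < 108630, chkVF cert v = true :=
    cover_step h141 (chkRangeF_spec (c := cert) 107865 765 kF_107865) rfl
  have h143 : ∀ v < 109395, chkVF cert v = true :=
    cover_step h142 (chkRangeF_spec (c := cert) 108630 765 kF_108630) rfl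
  have h144 : ∀ v < 110160, chkVF cert v = true :=
    cover_step h143 (chkRangeF_spec (c := cert) 109395 765 kF_109395) rfl
  have h145 : ∀ v < 110925, chkVF cert v = true :=
    cover_step h144 (chkRangeF_spec (c := cert) 110160 765 kF_110160) rfl
  have h146 : ∀ v < 111690, chkVF cert v = true :=
    cover_step h145 (chkRangeF_spec (c := cert) 110925 765 kF_110925) rfl
  have h147 : ∀ v < 112455, chkVF cert v = true :=
    cover_step h146 (chkRangeF_spec (c := cert) 111690 765 kF_111690) rfl
  have h148 : ∀ v < 113220, chkVF cert v = true :=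
    cover_step h147 (chkRangeF_spec (c := cert) 112455 765 kF_112455) rfl
  have h149 : ∀ v < 113985, chkVF cert v = true :=
    cover_step h148 (chkRangeF_spec (c := cert) 113220 765 kF_113220) rfl
  have h150 : ∀ v < 114750, chkVF cert v = true :=
    cover_step h149 (chkRangeF_spec (c := cert) 113985 765 kF_113985) rfl
  have h151 : ∀ v < 115515, chkVF cert v = true :=
    cover_step h150 (chkRangeF_spec (c := cert) 114750 765 kF_114750) rfl
  have h152 : ∀ v < 116280, chkVF cert v = true :=
    cover_step h151 (chkRangeF_spec (c := cert) 115515 765 kF_115515) rfl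
  have h153 : ∀ v < 117045, chkVF cert v = true :=
    cover_step h152 (chkRangeF_spec (c := cert) 116280 765 kF_116280) rfl
  have h154 : ∀ v < 117810, chkVF cert v = true :=
    cover_step h153 (chkRangeF_spec (c := cert) 117045 765 kF_117045) rfl
  have h155 : ∀ v < 118575, chkVF cert v = true :=
    cover_step h154 (chkRangeF_spec (c := cert) 117810 765 kF_117810) rfl
  have h156 : ∀ v < 119340, chkVF cert v = true :=
    cover_step h155 (chkRangeF_spec (c := cert) 118575 765 kF_118575) rfl
  have h157 : ∀ v < 120105, chkVF cert v = true :=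
    cover_step h156 (chkRangeF_spec (c := cert) 119340 765 kF_119340) rfl
  have h158 : ∀ v < 120870, chkVF cert v = true :=
    cover_step h157 (chkRangeF_spec (c := cert) 120105 765 kF_120105) rfl
  have h159 : ∀ v < 121635, chkVF cert v = true :=
    cover_step h158 (chkRangeF_spec (c := cert) 120870 765 kF_120870) rfl
  have h160 : ∀ v < 122400, chkVF cert v = true :=
    cover_step h159 (chkRangeF_spec (c := cert) 121635 765 kF_121635) rfl
  have h161 : ∀ v < 122760, chkVF cert v = true :=
    cover_step h160 (chkRangeF_spec (c := cert) 122400 360 kF_122400) rfl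
  exact h161

theorem allFin : ∀ v < 122760, finAt cert v cert.ncols = true := by
  have h0 : ∀ v < 0, finAt cert v cert.ncols = true := fun v hv => absurd hv (Nat.not_lt_zero v)
  have h1 : ∀ v < 2000, finAt cert v cert.ncols = true :=
    cover_step h0 (chkRangeFin_spec (c := cert) 0 2000 kFin_0) rfl
  have h2 : ∀ v < 4000, finAt cert v cert.ncols = true :=
    cover_step h1 (chkRangeFin_spec (c := cert) 2000 2000 kFin_2000) rfl
  have h3 : ∀ v < 6000, finAt cert v cert.ncols = true :=
    cover_step h2 (chkRangeFin_spec (c := cert) 4000 2000 kFin_4000) rfl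
  have h4 : ∀ v < 8000, finAt cert v cert.ncols = true :=
    cover_step h3 (chkRangeFin_spec (c := cert) 6000 2000 kFin_6000) rfl
  have h5 : ∀ v < 10000, finAt cert v cert.ncols = true :=
    cover_step h4 (chkRangeFin_spec (c := cert) 8000 2000 kFin_8000) rfl
  have h6 : ∀ v < 12000, finAt cert v cert.ncols = true :=
    cover_step h5 (chkRangeFin_spec (c := cert) 10000 2000 kFin_10000) rfl
  have h7 : ∀ v < 14000, finAt cert v cert.ncols = true :=
    cover_step h6 (chkRangeFin_spec (c := cert) 12000 2000 kFin_12000) rfl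
  have h8 : ∀ v < 16000, finAt cert v cert.ncols = true :=
    cover_step h7 (chkRangeFin_spec (c := cert) 14000 2000 kFin_14000) rfl
  have h9 : ∀ v < 18000, finAt cert v cert.ncols = true :=
    cover_step h8 (chkRangeFin_spec (c := cert) 16000 2000 kFin_16000) rfl
  have h10 : ∀ v < 20000, finAt cert v cert.ncols = true :=
    cover_step h9 (chkRangeFin_spec (c := cert) 18000 2000 kFin_18000) rfl
  have h11 : ∀ v < 22000, finAt cert v cert.ncols = true :=
    cover_step h10 (chkRangeFin_spec (c := cert) 20000 2000 kFin_20000) rfl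
  have h12 : ∀ v < 24000, finAt cert v cert.ncols = true :=
    cover_step h11 (chkRangeFin_spec (c := cert) 22000 2000 kFin_22000) rfl
  have h13 : ∀ v < 26000, finAt cert v cert.ncols = true :=
    cover_step h12 (chkRangeFin_spec (c := cert) 24000 2000 kFin_24000) rfl
  have h14 : ∀ v < 28000, finAt cert v cert.ncols = true :=
    cover_step h13 (chkRangeFin_spec (c := cert) 26000 2000 kFin_26000) rfl
  have h15 : ∀ v < 30000, finAt cert v cert.ncols = true :=
    cover_step h14 (chkRangeFin_spec (c := cert) 28000 2000 kFin_28000) rfl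
  have h16 : ∀ v < 32000, finAt cert v cert.ncols = true :=
    cover_step h15 (chkRangeFin_spec (c := cert) 30000 2000 kFin_30000) rfl
  have h17 : ∀ v < 34000, finAt cert v cert.ncols = true :=
    cover_step h16 (chkRangeFin_spec (c := cert) 32000 2000 kFin_32000) rfl
  have h18 : ∀ v < 36000, finAt cert v cert.ncols = true :=
    cover_step h17 (chkRangeFin_spec (c := cert) 34000 2000 kFin_34000) rfl
  have h19 : ∀ v < 38000, finAt cert v cert.ncols = true :=
    cover_step h18 (chkRangeFin_spec (c := cert) 36000 2000 kFin_36000) rfl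
  have h20 : ∀ v < 40000, finAt cert v cert.ncols = true :=
    cover_step h19 (chkRangeFin_spec (c := cert) 38000 2000 kFin_38000) rfl
  have h21 : ∀ v < 42000, finAt cert v cert.ncols = true :=
    cover_step h20 (chkRangeFin_spec (c := cert) 40000 2000 kFin_40000) rfl
  have h22 : ∀ v < 44000, finAt cert v cert.ncols = true :=
    cover_step h21 (chkRangeFin_spec (c := cert) 42000 2000 kFin_42000) rfl
  have h23 : ∀ v < 46000, finAt cert v cert.ncols = true :=
    cover_step h22 (chkRangeFin_spec (c := cert) 44000 2000 kFin_44000) rfl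
  have h24 : ∀ v < 48000, finAt cert v cert.ncols = true :=
    cover_step h23 (chkRangeFin_spec (c := cert) 46000 2000 kFin_46000) rfl
  have h25 : ∀ v < 50000, finAt cert v cert.ncols = true :=
    cover_step h24 (chkRangeFin_spec (c := cert) 48000 2000 kFin_48000) rfl
  have h26 : ∀ v < 52000, finAt cert v cert.ncols = true :=
    cover_step h25 (chkRangeFin_spec (c := cert) 50000 2000 kFin_50000) rfl
  have h27 : ∀ v < 54000, finAt cert v cert.ncols = true :=
    cover_step h26 (chkRangeFin_spec (c := cert) 52000 2000 kFin_52000) rfl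
  have h28 : ∀ v < 56000, finAt cert v cert.ncols = true :=
    cover_step h27 (chkRangeFin_spec (c := cert) 54000 2000 kFin_54000) rfl
  have h29 : ∀ v < 58000, finAt cert v cert.ncols = true :=
    cover_step h28 (chkRangeFin_spec (c := cert) 56000 2000 kFin_56000) rfl
  have h30 : ∀ v < 60000, finAt cert v cert.ncols = true :=
    cover_step h29 (chkRangeFin_spec (c := cert) 58000 2000 kFin_58000) rfl
  have h31 : ∀ v < 62000, finAt cert v cert.ncols = true :=
    cover_step h30 (chkRangeFin_spec (c := cert) 60000 2000 kFin_60000) rfl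
  have h32 : ∀ v < 64000, finAt cert v cert.ncols = true :=
    cover_step h31 (chkRangeFin_spec (c := cert) 62000 2000 kFin_62000) rfl
  have h33 : ∀ v < 66000, finAt cert v cert.ncols = true :=
    cover_step h32 (chkRangeFin_spec (c := cert) 64000 2000 kFin_64000) rfl
  have h34 : ∀ v < 68000, finAt cert v cert.ncols = true :=
    cover_step h33 (chkRangeFin_spec (c := cert) 66000 2000 kFin_66000) rfl
  have h35 : ∀ v < 70000, finAt cert v cert.ncols = true :=
    cover_step h34 (chkRangeFin_spec (c := cert) 68000 2000 kFin_68000) rfl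
  have h36 : ∀ v < 72000, finAt cert v cert.ncols = true :=
    cover_step h35 (chkRangeFin_spec (c := cert) 70000 2000 kFin_70000) rfl
  have h37 : ∀ v < 74000, finAt cert v cert.ncols = true :=
    cover_step h36 (chkRangeFin_spec (c := cert) 72000 2000 kFin_72000) rfl
  have h38 : ∀ v < 76000, finAt cert v cert.ncols = true :=
    cover_step h37 (chkRangeFin_spec (c := cert) 74000 2000 kFin_74000) rfl
  have h39 : ∀ v < 78000, finAt cert v cert.ncols = true :=
    cover_step h38 (chkRangeFin_spec (c := cert) 76000 2000 kFin_76000) rfl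
  have h40 : ∀ v < 80000, finAt cert v cert.ncols = true :=
    cover_step h39 (chkRangeFin_spec (c := cert) 78000 2000 kFin_78000) rfl
  have h41 : ∀ v < 82000, finAt cert v cert.ncols = true :=
    cover_step h40 (chkRangeFin_spec (c := cert) 80000 2000 kFin_80000) rfl
  have h42 : ∀ v < 84000, finAt cert v cert.ncols = true :=
    cover_step h41 (chkRangeFin_spec (c := cert) 82000 2000 kFin_82000) rfl
  have h43 : ∀ v < 86000, finAt cert v cert.ncols = true :=
    cover_step h42 (chkRangeFin_spec (c := cert) 84000 2000 kFin_84000) rfl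
  have h44 : ∀ v < 88000, finAt cert v cert.ncols = true :=
    cover_step h43 (chkRangeFin_spec (c := cert) 86000 2000 kFin_86000) rfl
  have h45 : ∀ v < 90000, finAt cert v cert.ncols = true :=
    cover_step h44 (chkRangeFin_spec (c := cert) 88000 2000 kFin_88000) rfl
  have h46 : ∀ v < 92000, finAt cert v cert.ncols = true :=
    cover_step h45 (chkRangeFin_spec (c := cert) 90000 2000 kFin_90000) rfl
  have h47 : ∀ v < 94000, finAt cert v cert.ncols = true :=
    cover_step h46 (chkRangeFin_spec (c := cert) 92000 2000 kFin_92000) rfl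
  have h48 : ∀ v < 96000, finAt cert v cert.ncols = true :=
    cover_step h47 (chkRangeFin_spec (c := cert) 94000 2000 kFin_94000) rfl
  have h49 : ∀ v < 98000, finAt cert v cert.ncols = true :=
    cover_step h48 (chkRangeFin_spec (c := cert) 96000 2000 kFin_96000) rfl
  have h50 : ∀ v < 100000, finAt cert v cert.ncols = true :=
    cover_step h49 (chkRangeFin_spec (c := cert) 98000 2000 kFin_98000) rfl
  have h51 : ∀ v < 102000, finAt cert v cert.ncols = true :=
    cover_step h50 (chkRangeFin_spec (c := cert) 100000 2000 kFin_100000) rfl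
  have h52 : ∀ v < 104000, finAt cert v cert.ncols = true :=
    cover_step h51 (chkRangeFin_spec (c := cert) 102000 2000 kFin_102000) rfl
  have h53 : ∀ v < 106000, finAt cert v cert.ncols = true :=
    cover_step h52 (chkRangeFin_spec (c := cert) 104000 2000 kFin_104000) rfl
  have h54 : ∀ v < 108000, finAt cert v cert.ncols = true :=
    cover_step h53 (chkRangeFin_spec (c := cert) 106000 2000 kFin_106000) rfl
  have h55 : ∀ v < 110000, finAt cert v cert.ncols = true :=
    cover_step h54 (chkRangeFin_spec (c := cert) 108000 2000 kFin_108000) rfl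
  have h56 : ∀ v < 112000, finAt cert v cert.ncols = true :=
    cover_step h55 (chkRangeFin_spec (c := cert) 110000 2000 kFin_110000) rfl
  have h57 : ∀ v < 114000, finAt cert v cert.ncols = true :=
    cover_step h56 (chkRangeFin_spec (c := cert) 112000 2000 kFin_112000) rfl
  have h58 : ∀ v < 116000, finAt cert v cert.ncols = true :=
    cover_step h57 (chkRangeFin_spec (c := cert) 114000 2000 kFin_114000) rfl
  have h59 : ∀ v < 118000, finAt cert v cert.ncols = true :=
    cover_step h58 (chkRangeFin_spec (c := cert) 116000 2000 kFin_116000) rfl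
  have h60 : ∀ v < 120000, finAt cert v cert.ncols = true :=
    cover_step h59 (chkRangeFin_spec (c := cert) 118000 2000 kFin_118000) rfl
  have h61 : ∀ v < 122000, finAt cert v cert.ncols = true :=
    cover_step h60 (chkRangeFin_spec (c := cert) 120000 2000 kFin_120000) rfl
  have h62 : ∀ v < 122760, finAt cert v cert.ncols = true :=
    cover_step h61 (chkRangeFin_spec (c := cert) 122000 760 kFin_122000) rfl
  exact h62

theorem checked : Checked cert := ⟨small, allT, allF, allFin⟩

def colOf : Cfsg.Spor.ON.Gen → ℕ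
  | .g => 0
  | .a => 2
  | .b => 3
  | .c => 4
  | .d => 5
  | .e => 6
  | .f => 7

def colGen : ℕ → Cfsg.Spor.ON.Gen × Bool
  | 0 => (.g, true)
  | 1 => (.g, false)
  | 2 => (.a, true)
  | 3 => (.b, true)
  | 4 => (.c, true)
  | 5 => (.d, true)
  | 6 => (.e, true)
  | 7 => (.f, true)
  | _ => (.g, true)

def nodes : List Cfsg.Spor.ON.Gen := [.a, .b, .c, .d, .e, .f]

def extraEs : List WE := [(.mul (.mul (.g 2) (.g 7)) (.inv (.pow (.g 0) 2))), (.mul (.mul (.g 2) (.g 7)) (.inv (.pow (.mul (.g 4) (.g 5)) 4))), (.mul (.g 4) (.mul (.mul (.inv (.mul (.mul (.mul (.g 5) (.g 0)) (.g 5)) (.g 0))) (.g 4)) (.mul (.mul (.mul (.g 5) (.g 0)) (.g 5)) (.g 0)))), (.mul (.g 5) (.mul (.mul (.inv (.mul (.mul (.mul (.g 4) (.g 0)) (.g 4)) (.g 0))) (.g 5)) (.mul (.mul (.mul (.g 4) (.g 0)) (.g 4)) (.g 0)))), (.pow (.mul (.mul (.mul (.g 3) (.g 4)) (.g 5)) (.g 0)) 5), (.mul (.mul (.mul (.mul (.g 0) (.g 3)) (.mul (.mul (.inv (.g 4)) (.g 0)) (.g 4))) (.mul (.mul (.inv (.g 3)) (.g 0)) (.g 3))) (.mul (.mul (.inv (.g 4)) (.g 0)) (.g 4))), (.mul (.mul (.mul (.mul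 (.g 0) (.g 6)) (.mul (.mul (.inv (.g 5)) (.g 0)) (.g 5))) (.mul (.mul (.inv (.g 6)) (.g 0)) (.g 6))) (.mul (.mul (.inv (.g 5)) (.g 0)) (.g 5)))]

def subEs : List WE := [(.g 2), (.g 3), (.g 4), (.g 5), (.g 6), (.g 7)]

set_option maxHeartbeats 1000000 in
theorem link : Link Cfsg.Spor.ON.edges Cfsg.Spor.ON.extra ({Cfsg.Spor.ON.a, Cfsg.Spor.ON.b, Cfsg.Spor.ON.c, Cfsg.Spor.ON.d, Cfsg.Spor.ON.e, Cfsg.Spor.ON.f} : Set (FreeGroup Cfsg.Spor.ON.Gen)) cert colOf colGen nodes extraEs subEs where
  hall := by intro x; cases x <;> exact ⟨by decide, rfl⟩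
  hcols := by decide +kernel
  hinvs := by decide +kernel
  hn1 := by decide +kernel
  hn2 := by decide +kernel
  hsym := by decide +kernel
  hrels := by decide +kernel
  hextra := rfl
  hok := by decide +kernel
  hsubs := by decide +kernel
  hS1 := by
    intro s hs
    simp only [Set.mem_insert_iff, Set.mem_singleton_iff] at hs
    rcases hs with rfl | rfl | rfl | rfl | rfl | rfl
    · exact ⟨(.g 2), List.mem_cons_self, rfl⟩
    · exact ⟨(.g 3), List.mem_cons_of_mem _ (List.mem_cons_self), rfl⟩
    · exact ⟨(.g 4), List.mem_cons_of_mem _ (List.mem_cons_of_mem _ (List.mem_cons_self)), rfl⟩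
    · exact ⟨(.g 5), List.mem_cons_of_mem _ (List.mem_cons_of_mem _ (List.mem_cons_of_mem _ (List.mem_cons_self))), rfl⟩
    · exact ⟨(.g 6), List.mem_cons_of_mem _ (List.mem_cons_of_mem _ (List.mem_cons_of_mem _ (List.mem_cons_of_mem _ (List.mem_cons_self)))), rfl⟩
    · exact ⟨(.g 7), List.mem_cons_of_mem _ (List.mem_cons_of_mem _ (List.mem_cons_of_mem _ (List.mem_cons_of_mem _ (List.mem_cons_of_mem _ (List.mem_cons_self))))), rfl⟩
  hS2 := by
    intro e he
    simp only [subEs, List.mem_cons, List.not_mem_nil, or_false] at he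
    rcases he with rfl | rfl | rfl | rfl | rfl | rfl
    · exact (Or.inl rfl)
    · exact (Or.inr (Or.inl rfl))
    · exact (Or.inr (Or.inr (Or.inl rfl)))
    · exact (Or.inr (Or.inr (Or.inr (Or.inl rfl))))
    · exact (Or.inr (Or.inr (Or.inr (Or.inr (Or.inl rfl)))))
    · exact (Or.inr (Or.inr (Or.inr (Or.inr (Or.inr rfl)))))

theorem index_eq : (((Subgroup.closure ({Cfsg.Spor.ON.a, Cfsg.Spor.ON.b, Cfsg.Spor.ON.c, Cfsg.Spor.ON.d, Cfsg.Spor.ON.e, Cfsg.Spor.ON.f} : Set (FreeGroup Cfsg.Spor.ON.Gen))).map (PresentedGroup.mk (coxRelators Cfsg.Spor.ON.edges ∪ {r | r ∈ Cfsg.Spor.ON.extra})))).index = 122760 := by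
  obtain ⟨ρ, e, -, -, -⟩ := link.main checked
  exact (Nat.card_congr e).trans (Nat.card_fin _)

end Cfsg.Agent.Helper17.TCD.ONA
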