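import Mathlib
import Cfsg.Agent.Helper17.TC
import Cfsg.Agent.Helper17.TCD.SuzA_A0

set_option autoImplicit false

namespace Cfsg.Agent.Helper17.TCD.SuzA

open Cfsg.Agent.Helper17.TC

def relsL : List (List ℕ) := [[0, 0], [0, 1, 0, 1, 0, 1, 0, 1, 0, 1], [0, 2, 0, 2], [0, 3, 0, 3], [0, 5, 0, 5], [0, 6, 0, 6], [0, 4, 0, 4], [1, 1], [1, 2, 1, 2, 1, 2], [1, 3, 1, 3], [1, 5, 1, 5, 1, 5], [1, 6, 1, 6, 1, 6], [1, 4, 1, 4], [2, 2], [2, 3, 2, 3, 2, 3, 2, 3, 2, 3, 2, 3, 2, 3, 2, 3], [2, 5, 2, 5], [2, 6, 2, 6], [2, 4, 2, 4], [3, 3], [3, 5, 3, 5], [3, 6, 3, 6], [3, 4, 3, 4, 3, 4], [5, 5], [5, 6, 5, 6, 5, 6, 5, 6], [6, 6], [4, 5, 4, 5], [4, 6, 4, 6], [4, 4], [0, 3, 2, 3, 2, 3, 2, 3, 2], [0, 6, 5, 6, 5], [0, 1, 2, 5, 0, 1, 2, 5, 0, 1, 2, 5, 0, 1, 2, 5, 0, 1, 2, 5], [1, 5, 6, 1, 5,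 6, 1, 5, 6, 1, 5, 6, 1, 5, 6], [1, 2, 3, 2, 3, 1, 2, 3, 2, 3, 1, 2, 3, 2, 3, 1, 2, 3, 2, 3, 1, 2, 3, 2, 3, 4, 1, 2, 3, 2, 3, 1, 2, 3, 2, 3, 1, 2, 3, 2, 3, 1, 2, 3, 2, 3, 1, 2, 3, 2, 3, 4, 1, 2, 3, 2, 3, 1, 2, 3, 2, 3, 1, 2, 3, 2, 3, 1, 2, 3, 2, 3, 1, 2, 3, 2, 3, 4]]

def subsL : List (List ℕ) := [[0], [1], [2], [3], [4], [5]]

noncomputable def cert : Cert :=
  { ncols := 7, M := 8150, N := 1782, bt := 13, mt := 8191, W := 29, mW := 536870911,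
    WJ := 50, mJ := 1125899906842623, bn := 11, mn := 2047, fuel := 64, ck := 8, cm := 255,
    invc := [0, 1, 2, 3, 4, 5, 6], rels := relsL, subs := subsL,
    T := [T0, T1, T2, T3, T4, T5, T6, T7], J := [J0, J1, J2, J3, J4, J5, J6, J7], P := Pa,
    F := [F0, F1, F2, F3, F4, F5, F6] }

end Cfsg.Agent.Helper17.TCD.SuzA
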