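import Mathlib
import Cfsg.Agent.Helper17.TCD.SuzA_O

set_option autoImplicit false

namespace Cfsg.Agent.Helper17.TCD.SuzA

open Cfsg.Agent.Helper17.TC

set_option maxHeartbeats 0 in
theorem kO_0 : chkRangeO cert orb 0 1782 = true := by decide +kernel

set_option maxHeartbeats 0 in
theorem root_1 : rootOK cert orb 1 = true := by decide +kernel

set_option maxHeartbeats 0 in
theorem cnt_1 : cntB cert orb 1 11 0 = 1365 := by decide +kernel

set_option maxHeartbeats 0 in
theorem root_2 : rootOK cert orb 2 = true := by decide +kernel

set_option maxHeartbeats 0 in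
theorem cnt_2 : cntB cert orb 2 11 0 = 416 := by decide +kernel

end Cfsg.Agent.Helper17.TCD.SuzA
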