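import Mathlib
import Cfsg.Agent.Helper17.TCD.SuzB_Cert

set_option autoImplicit false

namespace Cfsg.Agent.Helper17.TCD.SuzB

open Cfsg.Agent.Helper17.TC

set_option maxHeartbeats 0 in
theorem kT_16000 : chkRangeT cert 16000 1912 = true := by decide +kernel

set_option maxHeartbeats 0 in
theorem kT_17912 : chkRangeT cert 17912 1574 = true := by decide +kernel

set_option maxHeartbeats 0 in
theorem kT_19486 : chkRangeT cert 19486 1422 = true := by decide +kernel

set_option maxHeartbeats 0 in
theorem kT_20908 : chkRangeT cert 20908 1144 = true := by decide +kernel

set_option maxHeartbeats 0 in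
theorem kT_22052 : chkRangeT cert 22052 1500 = true := by decide +kernel

set_option maxHeartbeats 0 in
theorem kT_23552 : chkRangeT cert 23552 2000 = true := by decide +kernel

set_option maxHeartbeats 0 in
theorem kT_25552 : chkRangeT cert 25552 2000 = true := by decide +kernel

set_option maxHeartbeats 0 in
theorem kT_27552 : chkRangeT cert 27552 2000 = true := by decide +kernel

end Cfsg.Agent.Helper17.TCD.SuzB
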