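import Mathlib
import Cfsg.Agent.Helper17.TCD.SuzB_Cert

set_option autoImplicit false

namespace Cfsg.Agent.Helper17.TCD.SuzB

open Cfsg.Agent.Helper17.TC

set_option maxHeartbeats 0 in
theorem kFin_16000 : chkRangeFin cert 16000 2000 = true := by decide +kernel

set_option maxHeartbeats 0 in
theorem kFin_18000 : chkRangeFin cert 18000 2000 = true := by decide +kernel

set_option maxHeartbeats 0 in
theorem kFin_20000 : chkRangeFin cert 20000 2000 = true := by decide +kernel

set_option maxHeartbeats 0 in
theorem kFin_22000 : chkRangeFin cert 22000 880 = true := by decide +kernel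

end Cfsg.Agent.Helper17.TCD.SuzB
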