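import Mathlib
import Cfsg.Agent.Helper17.TCD.SuzB_Cert

set_option autoImplicit false

namespace Cfsg.Agent.Helper17.TCD.SuzB

open Cfsg.Agent.Helper17.TC

set_option maxHeartbeats 0 in
theorem kT_29552 : chkRangeT cert 29552 2000 = true := by decide +kernel

set_option maxHeartbeats 0 in
theorem kT_31552 : chkRangeT cert 31552 2000 = true := by decide +kernel

set_option maxHeartbeats 0 in
theorem kT_33552 : chkRangeT cert 33552 2000 = true := by decide +kernel

set_option maxHeartbeats 0 in
theorem kT_35552 : chkRangeT cert 35552 2000 = true := by decide +kernel

set_option maxHeartbeats 0 in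
theorem kT_37552 : chkRangeT cert 37552 2000 = true := by decide +kernel

set_option maxHeartbeats 0 in
theorem kT_39552 : chkRangeT cert 39552 2000 = true := by decide +kernel

set_option maxHeartbeats 0 in
theorem kT_41552 : chkRangeT cert 41552 2000 = true := by decide +kernel

set_option maxHeartbeats 0 in
theorem kT_43552 : chkRangeT cert 43552 2000 = true := by decide +kernel

end Cfsg.Agent.Helper17.TCD.SuzB
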