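import Mathlib
import Cfsg.Agent.Helper17.TCD.SuzB_Cert

set_option autoImplicit false

namespace Cfsg.Agent.Helper17.TCD.SuzB

open Cfsg.Agent.Helper17.TC

set_option maxHeartbeats 0 in
theorem kT_45552 : chkRangeT cert 45552 2000 = true := by decide +kernel

set_option maxHeartbeats 0 in
theorem kT_47552 : chkRangeT cert 47552 2000 = true := by decide +kernel

set_option maxHeartbeats 0 in
theorem kT_49552 : chkRangeT cert 49552 2000 = true := by decide +kernel

set_option maxHeartbeats 0 in
theorem kT_51552 : chkRangeT cert 51552 2000 = true := by decide +kernel

set_option maxHeartbeats 0 in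
theorem kT_53552 : chkRangeT cert 53552 2000 = true := by decide +kernel

set_option maxHeartbeats 0 in
theorem kT_55552 : chkRangeT cert 55552 2000 = true := by decide +kernel

set_option maxHeartbeats 0 in
theorem kT_57552 : chkRangeT cert 57552 2000 = true := by decide +kernel

set_option maxHeartbeats 0 in
theorem kT_59552 : chkRangeT cert 59552 2000 = true := by decide +kernel

end Cfsg.Agent.Helper17.TCD.SuzB
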