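import Mathlib
import Cfsg.Agent.Helper17.TCD.SuzB_Cert

set_option autoImplicit false

namespace Cfsg.Agent.Helper17.TCD.SuzB

open Cfsg.Agent.Helper17.TC

set_option maxHeartbeats 0 in
theorem kT_61552 : chkRangeT cert 61552 2000 = true := by decide +kernel

set_option maxHeartbeats 0 in
theorem kT_63552 : chkRangeT cert 63552 2000 = true := by decide +kernel

set_option maxHeartbeats 0 in
theorem kT_65552 : chkRangeT cert 65552 2000 = true := by decide +kernel

set_option maxHeartbeats 0 in
theorem kT_67552 : chkRangeT cert 67552 2000 = true := by decide +kernel

set_option maxHeartbeats 0 in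
theorem kT_69552 : chkRangeT cert 69552 1724 = true := by decide +kernel

set_option maxHeartbeats 0 in
theorem kF_0 : chkRangeF cert 0 535 = true := by decide +kernel

set_option maxHeartbeats 0 in
theorem kF_535 : chkRangeF cert 535 535 = true := by decide +kernel

set_option maxHeartbeats 0 in
theorem kF_1070 : chkRangeF cert 1070 535 = true := by decide +kernel

end Cfsg.Agent.Helper17.TCD.SuzB
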