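import Mathlib
import Cfsg.Agent.Helper17.TCD.SuzB_Cert

set_option autoImplicit false

namespace Cfsg.Agent.Helper17.TCD.SuzB

open Cfsg.Agent.Helper17.TC

set_option maxHeartbeats 0 in
theorem kF_1605 : chkRangeF cert 1605 535 = true := by decide +kernel

set_option maxHeartbeats 0 in
theorem kF_2140 : chkRangeF cert 2140 535 = true := by decide +kernel

set_option maxHeartbeats 0 in
theorem kF_2675 : chkRangeF cert 2675 535 = true := by decide +kernel

set_option maxHeartbeats 0 in
theorem kF_3210 : chkRangeF cert 3210 535 = true := by decide +kernel

set_option maxHeartbeats 0 in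
theorem kF_3745 : chkRangeF cert 3745 535 = true := by decide +kernel

set_option maxHeartbeats 0 in
theorem kF_4280 : chkRangeF cert 4280 535 = true := by decide +kernel

set_option maxHeartbeats 0 in
theorem kF_4815 : chkRangeF cert 4815 535 = true := by decide +kernel

set_option maxHeartbeats 0 in
theorem kF_5350 : chkRangeF cert 5350 535 = true := by decide +kernel

end Cfsg.Agent.Helper17.TCD.SuzB
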