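import Mathlib
import Cfsg.Agent.Helper17.TCD.SuzB_Cert

set_option autoImplicit false

namespace Cfsg.Agent.Helper17.TCD.SuzB

open Cfsg.Agent.Helper17.TC

set_option maxHeartbeats 0 in
theorem kF_5885 : chkRangeF cert 5885 535 = true := by decide +kernel

set_option maxHeartbeats 0 in
theorem kF_6420 : chkRangeF cert 6420 535 = true := by decide +kernel

set_option maxHeartbeats 0 in
theorem kF_6955 : chkRangeF cert 6955 535 = true := by decide +kernel

set_option maxHeartbeats 0 in
theorem kF_7490 : chkRangeF cert 7490 535 = true := by decide +kernel

set_option maxHeartbeats 0 in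
theorem kF_8025 : chkRangeF cert 8025 535 = true := by decide +kernel

set_option maxHeartbeats 0 in
theorem kF_8560 : chkRangeF cert 8560 535 = true := by decide +kernel

set_option maxHeartbeats 0 in
theorem kF_9095 : chkRangeF cert 9095 535 = true := by decide +kernel

set_option maxHeartbeats 0 in
theorem kF_9630 : chkRangeF cert 9630 535 = true := by decide +kernel

end Cfsg.Agent.Helper17.TCD.SuzB
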