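import Mathlib
import Cfsg.Agent.Helper17.TCD.SuzB_Cert

set_option autoImplicit false

namespace Cfsg.Agent.Helper17.TCD.SuzB

open Cfsg.Agent.Helper17.TC

set_option maxHeartbeats 0 in
theorem kF_10165 : chkRangeF cert 10165 535 = true := by decide +kernel

set_option maxHeartbeats 0 in
theorem kF_10700 : chkRangeF cert 10700 535 = true := by decide +kernel

set_option maxHeartbeats 0 in
theorem kF_11235 : chkRangeF cert 11235 535 = true := by decide +kernel

set_option maxHeartbeats 0 in
theorem kF_11770 : chkRangeF cert 11770 535 = true := by decide +kernel

set_option maxHeartbeats 0 in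
theorem kF_12305 : chkRangeF cert 12305 535 = true := by decide +kernel

set_option maxHeartbeats 0 in
theorem kF_12840 : chkRangeF cert 12840 535 = true := by decide +kernel

set_option maxHeartbeats 0 in
theorem kF_13375 : chkRangeF cert 13375 535 = true := by decide +kernel

set_option maxHeartbeats 0 in
theorem kF_13910 : chkRangeF cert 13910 535 = true := by decide +kernel

end Cfsg.Agent.Helper17.TCD.SuzB
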