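import Mathlib
import Cfsg.Agent.Helper17.TCD.SuzB_Cert

set_option autoImplicit false

namespace Cfsg.Agent.Helper17.TCD.SuzB

open Cfsg.Agent.Helper17.TC

set_option maxHeartbeats 0 in
theorem kF_14445 : chkRangeF cert 14445 535 = true := by decide +kernel

set_option maxHeartbeats 0 in
theorem kF_14980 : chkRangeF cert 14980 535 = true := by decide +kernel

set_option maxHeartbeats 0 in
theorem kF_15515 : chkRangeF cert 15515 535 = true := by decide +kernel

set_option maxHeartbeats 0 in
theorem kF_16050 : chkRangeF cert 16050 535 = true := by decide +kernel

set_option maxHeartbeats 0 in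
theorem kF_16585 : chkRangeF cert 16585 535 = true := by decide +kernel

set_option maxHeartbeats 0 in
theorem kF_17120 : chkRangeF cert 17120 535 = true := by decide +kernel

set_option maxHeartbeats 0 in
theorem kF_17655 : chkRangeF cert 17655 535 = true := by decide +kernel

set_option maxHeartbeats 0 in
theorem kF_18190 : chkRangeF cert 18190 535 = true := by decide +kernel

end Cfsg.Agent.Helper17.TCD.SuzB
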