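import Mathlib
import Cfsg.Agent.Helper17.TCD.SuzB_Cert

set_option autoImplicit false

namespace Cfsg.Agent.Helper17.TCD.SuzB

open Cfsg.Agent.Helper17.TC

set_option maxHeartbeats 0 in
theorem kF_18725 : chkRangeF cert 18725 535 = true := by decide +kernel

set_option maxHeartbeats 0 in
theorem kF_19260 : chkRangeF cert 19260 535 = true := by decide +kernel

set_option maxHeartbeats 0 in
theorem kF_19795 : chkRangeF cert 19795 535 = true := by decide +kernel

set_option maxHeartbeats 0 in
theorem kF_20330 : chkRangeF cert 20330 535 = true := by decide +kernel

set_option maxHeartbeats 0 in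
theorem kF_20865 : chkRangeF cert 20865 535 = true := by decide +kernel

set_option maxHeartbeats 0 in
theorem kF_21400 : chkRangeF cert 21400 535 = true := by decide +kernel

set_option maxHeartbeats 0 in
theorem kF_21935 : chkRangeF cert 21935 535 = true := by decide +kernel

set_option maxHeartbeats 0 in
theorem kF_22470 : chkRangeF cert 22470 410 = true := by decide +kernel

end Cfsg.Agent.Helper17.TCD.SuzB
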