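import Mathlib
import Cfsg.Prelude.Def_Spor_Suz
import Cfsg.Agent.Helper17.TCPres
import Cfsg.Agent.Helper17.TCD.SuzB_K0
import Cfsg.Agent.Helper17.TCD.SuzB_K1
import Cfsg.Agent.Helper17.TCD.SuzB_K2
import Cfsg.Agent.Helper17.TCD.SuzB_K3
import Cfsg.Agent.Helper17.TCD.SuzB_K4
import Cfsg.Agent.Helper17.TCD.SuzB_K5
import Cfsg.Agent.Helper17.TCD.SuzB_K6
import Cfsg.Agent.Helper17.TCD.SuzB_K7
import Cfsg.Agent.Helper17.TCD.SuzB_K8
import Cfsg.Agent.Helper17.TCD.SuzB_K9
import Cfsg.Agent.Helper17.TCD.SuzB_K10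
import Cfsg.Agent.Helper17.TCD.SuzB_K11

set_option autoImplicit false

namespace Cfsg.Agent.Helper17.TCD.SuzB

open Cfsg.Agent.Helper17.TC Cfsg.Spor

set_option maxHeartbeats 1000000 in
theorem small : chkSmall cert = true := by decide +kernel

theorem allT : ∀ v < 71276, chkRow cert v cert.ncols = true := by
  have h0 : ∀ v < 0, chkRow cert v cert.ncols = true := fun v hv => absurd hv (Nat.not_lt_zero v)
  have h1 : ∀ v < 2000, chkRow cert v cert.ncols = true :=
    cover_step h0 (chkRangeT_spec (c := cert) 0 2000 kT_0) rfl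
  have h2 : ∀ v < 4000, chkRow cert v cert.ncols = true :=
    cover_step h1 (chkRangeT_spec (c := cert) 2000 2000 kT_2000) rfl
  have h3 : ∀ v < 6000, chkRow cert v cert.ncols = true :=
    cover_step h2 (chkRangeT_spec (c := cert) 4000 2000 kT_4000) rfl
  have h4 : ∀ v < 8000, chkRow cert v cert.ncols = true :=
    cover_step h3 (chkRangeT_spec (c := cert) 6000 2000 kT_6000) rfl
  have h5 : ∀ v < 10000, chkRow cert v cert.ncols = true :=
    cover_step h4 (chkRangeT_spec (c := cert) 8000 2000 kT_8000) rfl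
  have h6 : ∀ v < 12000, chkRow cert v cert.ncols = true :=
    cover_step h5 (chkRangeT_spec (c := cert) 10000 2000 kT_10000) rfl
  have h7 : ∀ v < 14000, chkRow cert v cert.ncols = true :=
    cover_step h6 (chkRangeT_spec (c := cert) 12000 2000 kT_12000) rfl
  have h8 : ∀ v < 16000, chkRow cert v cert.ncols = true :=
    cover_step h7 (chkRangeT_spec (c := cert) 14000 2000 kT_14000) rfl
  have h9 : ∀ v < 17912, chkRow cert v cert.ncols = true :=
    cover_step h8 (chkRangeT_spec (c := cert) 16000 1912 kT_16000) rfl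
  have h10 : ∀ v < 19486, chkRow cert v cert.ncols = true :=
    cover_step h9 (chkRangeT_spec (c := cert) 17912 1574 kT_17912) rfl
  have h11 : ∀ v < 20908, chkRow cert v cert.ncols = true :=
    cover_step h10 (chkRangeT_spec (c := cert) 19486 1422 kT_19486) rfl
  have h12 : ∀ v < 22052, chkRow cert v cert.ncols = true :=
    cover_step h11 (chkRangeT_spec (c := cert) 20908 1144 kT_20908) rfl
  have h13 : ∀ v < 23552, chkRow cert v cert.ncols = true :=
    cover_step h12 (chkRangeT_spec (c := cert) 22052 1500 kT_22052) rfl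
  have h14 : ∀ v < 25552, chkRow cert v cert.ncols = true :=
    cover_step h13 (chkRangeT_spec (c := cert) 23552 2000 kT_23552) rfl
  have h15 : ∀ v < 27552, chkRow cert v cert.ncols = true :=
    cover_step h14 (chkRangeT_spec (c := cert) 25552 2000 kT_25552) rfl
  have h16 : ∀ v < 29552, chkRow cert v cert.ncols = true :=
    cover_step h15 (chkRangeT_spec (c := cert) 27552 2000 kT_27552) rfl
  have h17 : ∀ v < 31552, chkRow cert v cert.ncols = true :=
    cover_step h16 (chkRangeT_spec (c := cert) 29552 2000 kT_29552) rfl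
  have h18 : ∀ v < 33552, chkRow cert v cert.ncols = true :=
    cover_step h17 (chkRangeT_spec (c := cert) 31552 2000 kT_31552) rfl
  have h19 : ∀ v < 35552, chkRow cert v cert.ncols = true :=
    cover_step h18 (chkRangeT_spec (c := cert) 33552 2000 kT_33552) rfl
  have h20 : ∀ v < 37552, chkRow cert v cert.ncols = true :=
    cover_step h19 (chkRangeT_spec (c := cert) 35552 2000 kT_35552) rfl
  have h21 : ∀ v < 39552, chkRow cert v cert.ncols = true :=
    cover_step h20 (chkRangeT_spec (c := cert) 37552 2000 kT_37552) rfl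
  have h22 : ∀ v < 41552, chkRow cert v cert.ncols = true :=
    cover_step h21 (chkRangeT_spec (c := cert) 39552 2000 kT_39552) rfl
  have h23 : ∀ v < 43552, chkRow cert v cert.ncols = true :=
    cover_step h22 (chkRangeT_spec (c := cert) 41552 2000 kT_41552) rfl
  have h24 : ∀ v < 45552, chkRow cert v cert.ncols = true :=
    cover_step h23 (chkRangeT_spec (c := cert) 43552 2000 kT_43552) rfl
  have h25 : ∀ v < 47552, chkRow cert v cert.ncols = true :=
    cover_step h24 (chkRangeT_spec (c := cert) 45552 2000 kT_45552) rfl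
  have h26 : ∀ v < 49552, chkRow cert v cert.ncols = true :=
    cover_step h25 (chkRangeT_spec (c := cert) 47552 2000 kT_47552) rfl
  have h27 : ∀ v < 51552, chkRow cert v cert.ncols = true :=
    cover_step h26 (chkRangeT_spec (c := cert) 49552 2000 kT_49552) rfl
  have h28 : ∀ v < 53552, chkRow cert v cert.ncols = true :=
    cover_step h27 (chkRangeT_spec (c := cert) 51552 2000 kT_51552) rfl
  have h29 : ∀ v < 55552, chkRow cert v cert.ncols = true :=
    cover_step h28 (chkRangeT_spec (c := cert) 53552 2000 kT_53552) rfl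
  have h30 : ∀ v < 57552, chkRow cert v cert.ncols = true :=
    cover_step h29 (chkRangeT_spec (c := cert) 55552 2000 kT_55552) rfl
  have h31 : ∀ v < 59552, chkRow cert v cert.ncols = true :=
    cover_step h30 (chkRangeT_spec (c := cert) 57552 2000 kT_57552) rfl
  have h32 : ∀ v < 61552, chkRow cert v cert.ncols = true :=
    cover_step h31 (chkRangeT_spec (c := cert) 59552 2000 kT_59552) rfl
  have h33 : ∀ v < 63552, chkRow cert v cert.ncols = true :=
    cover_step h32 (chkRangeT_spec (c := cert) 61552 2000 kT_61552) rfl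
  have h34 : ∀ v < 65552, chkRow cert v cert.ncols = true :=
    cover_step h33 (chkRangeT_spec (c := cert) 63552 2000 kT_63552) rfl
  have h35 : ∀ v < 67552, chkRow cert v cert.ncols = true :=
    cover_step h34 (chkRangeT_spec (c := cert) 65552 2000 kT_65552) rfl
  have h36 : ∀ v < 69552, chkRow cert v cert.ncols = true :=
    cover_step h35 (chkRangeT_spec (c := cert) 67552 2000 kT_67552) rfl
  have h37 : ∀ v < 71276, chkRow cert v cert.ncols = true :=
    cover_step h36 (chkRangeT_spec (c := cert) 69552 1724 kT_69552) rfl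
  exact h37

theorem allF : ∀ v < 22880, chkVF cert v = true := by
  have h0 : ∀ v < 0, chkVF cert v = true := fun v hv => absurd hv (Nat.not_lt_zero v)
  have h1 : ∀ v < 535, chkVF cert v = true :=
    cover_step h0 (chkRangeF_spec (c := cert) 0 535 kF_0) rfl
  have h2 : ∀ v < 1070, chkVF cert v = true :=
    cover_step h1 (chkRangeF_spec (c := cert) 535 535 kF_535) rfl
  have h3 : ∀ v < 1605, chkVF cert v = true :=
    cover_step h2 (chkRangeF_spec (c := cert) 1070 535 kF_1070) rfl
  have h4 : ∀ v < 2140, chkVF cert v = true :=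
    cover_step h3 (chkRangeF_spec (c := cert) 1605 535 kF_1605) rfl
  have h5 : ∀ v < 2675, chkVF cert v = true :=
    cover_step h4 (chkRangeF_spec (c := cert) 2140 535 kF_2140) rfl
  have h6 : ∀ v < 3210, chkVF cert v = true :=
    cover_step h5 (chkRangeF_spec (c := cert) 2675 535 kF_2675) rfl
  have h7 : ∀ v < 3745, chkVF cert v = true :=
    cover_step h6 (chkRangeF_spec (c := cert) 3210 535 kF_3210) rfl
  have h8 : ∀ v < 4280, chkVF cert v = true :=
    cover_step h7 (chkRangeF_spec (c := cert) 3745 535 kF_3745) rfl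
  have h9 : ∀ v < 4815, chkVF cert v = true :=
    cover_step h8 (chkRangeF_spec (c := cert) 4280 535 kF_4280) rfl
  have h10 : ∀ v < 5350, chkVF cert v = true :=
    cover_step h9 (chkRangeF_spec (c := cert) 4815 535 kF_4815) rfl
  have h11 : ∀ v < 5885, chkVF cert v = true :=
    cover_step h10 (chkRangeF_spec (c := cert) 5350 535 kF_5350) rfl
  have h12 : ∀ v < 6420, chkVF cert v = true :=
    cover_step h11 (chkRangeF_spec (c := cert) 5885 535 kF_5885) rfl
  have h13 : ∀ v < 6955, chkVF cert v = true :=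
    cover_step h12 (chkRangeF_spec (c := cert) 6420 535 kF_6420) rfl
  have h14 : ∀ v < 7490, chkVF cert v = true :=
    cover_step h13 (chkRangeF_spec (c := cert) 6955 535 kF_6955) rfl
  have h15 : ∀ v < 8025, chkVF cert v = true :=
    cover_step h14 (chkRangeF_spec (c := cert) 7490 535 kF_7490) rfl
  have h16 : ∀ v < 8560, chkVF cert v = true :=
    cover_step h15 (chkRangeF_spec (c := cert) 8025 535 kF_8025) rfl
  have h17 : ∀ v < 9095, chkVF cert v = true :=
    cover_step h16 (chkRangeF_spec (c := cert) 8560 535 kF_8560) rfl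
  have h18 : ∀ v < 9630, chkVF cert v = true :=
    cover_step h17 (chkRangeF_spec (c := cert) 9095 535 kF_9095) rfl
  have h19 : ∀ v < 10165, chkVF cert v = true :=
    cover_step h18 (chkRangeF_spec (c := cert) 9630 535 kF_9630) rfl
  have h20 : ∀ v < 10700, chkVF cert v = true :=
    cover_step h19 (chkRangeF_spec (c := cert) 10165 535 kF_10165) rfl
  have h21 : ∀ v < 11235, chkVF cert v = true :=
    cover_step h20 (chkRangeF_spec (c := cert) 10700 535 kF_10700) rfl
  have h22 : ∀ v < 11770, chkVF cert v = true :=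
    cover_step h21 (chkRangeF_spec (c := cert) 11235 535 kF_11235) rfl
  have h23 : ∀ v < 12305, chkVF cert v = true :=
    cover_step h22 (chkRangeF_spec (c := cert) 11770 535 kF_11770) rfl
  have h24 : ∀ v < 12840, chkVF cert v = true :=
    cover_step h23 (chkRangeF_spec (c := cert) 12305 535 kF_12305) rfl
  have h25 : ∀ v < 13375, chkVF cert v = true :=
    cover_step h24 (chkRangeF_spec (c := cert) 12840 535 kF_12840) rfl
  have h26 : ∀ v < 13910, chkVF cert v = true :=
    cover_step h25 (chkRangeF_spec (c := cert) 13375 535 kF_13375) rfl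
  have h27 : ∀ v < 14445, chkVF cert v = true :=
    cover_step h26 (chkRangeF_spec (c := cert) 13910 535 kF_13910) rfl
  have h28 : ∀ v < 14980, chkVF cert v = true :=
    cover_step h27 (chkRangeF_spec (c := cert) 14445 535 kF_14445) rfl
  have h29 : ∀ v < 15515, chkVF cert v = true :=
    cover_step h28 (chkRangeF_spec (c := cert) 14980 535 kF_14980) rfl
  have h30 : ∀ v < 16050, chkVF cert v = true :=
    cover_step h29 (chkRangeF_spec (c := cert) 15515 535 kF_15515) rfl
  have h31 : ∀ v < 16585, chkVF cert v = true :=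
    cover_step h30 (chkRangeF_spec (c := cert) 16050 535 kF_16050) rfl
  have h32 : ∀ v < 17120, chkVF cert v = true :=
    cover_step h31 (chkRangeF_spec (c := cert) 16585 535 kF_16585) rfl
  have h33 : ∀ v < 17655, chkVF cert v = true :=
    cover_step h32 (chkRangeF_spec (c := cert) 17120 535 kF_17120) rfl
  have h34 : ∀ v < 18190, chkVF cert v = true :=
    cover_step h33 (chkRangeF_spec (c := cert) 17655 535 kF_17655) rfl
  have h35 : ∀ v < 18725, chkVF cert v = true :=
    cover_step h34 (chkRangeF_spec (c := cert) 18190 535 kF_18190) rfl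
  have h36 : ∀ v < 19260, chkVF cert v = true :=
    cover_step h35 (chkRangeF_spec (c := cert) 18725 535 kF_18725) rfl
  have h37 : ∀ v < 19795, chkVF cert v = true :=
    cover_step h36 (chkRangeF_spec (c := cert) 19260 535 kF_19260) rfl
  have h38 : ∀ v < 20330, chkVF cert v = true :=
    cover_step h37 (chkRangeF_spec (c := cert) 19795 535 kF_19795) rfl
  have h39 : ∀ v < 20865, chkVF cert v = true :=
    cover_step h38 (chkRangeF_spec (c := cert) 20330 535 kF_20330) rfl
  have h40 : ∀ v < 21400, chkVF cert v = true :=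
    cover_step h39 (chkRangeF_spec (c := cert) 20865 535 kF_20865) rfl
  have h41 : ∀ v < 21935, chkVF cert v = true :=
    cover_step h40 (chkRangeF_spec (c := cert) 21400 535 kF_21400) rfl
  have h42 : ∀ v < 22470, chkVF cert v = true :=
    cover_step h41 (chkRangeF_spec (c := cert) 21935 535 kF_21935) rfl
  have h43 : ∀ v < 22880, chkVF cert v = true :=
    cover_step h42 (chkRangeF_spec (c := cert) 22470 410 kF_22470) rfl
  exact h43

theorem allFin : ∀ v < 22880, finAt cert v cert.ncols = true := by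
  have h0 : ∀ v < 0, finAt cert v cert.ncols = true := fun v hv => absurd hv (Nat.not_lt_zero v)
  have h1 : ∀ v < 2000, finAt cert v cert.ncols = true :=
    cover_step h0 (chkRangeFin_spec (c := cert) 0 2000 kFin_0) rfl
  have h2 : ∀ v < 4000, finAt cert v cert.ncols = true :=
    cover_step h1 (chkRangeFin_spec (c := cert) 2000 2000 kFin_2000) rfl
  have h3 : ∀ v < 6000, finAt cert v cert.ncols = true :=
    cover_step h2 (chkRangeFin_spec (c := cert) 4000 2000 kFin_4000) rfl
  have h4 : ∀ v < 8000, finAt cert v cert.ncols = true :=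
    cover_step h3 (chkRangeFin_spec (c := cert) 6000 2000 kFin_6000) rfl
  have h5 : ∀ v < 10000, finAt cert v cert.ncols = true :=
    cover_step h4 (chkRangeFin_spec (c := cert) 8000 2000 kFin_8000) rfl
  have h6 : ∀ v < 12000, finAt cert v cert.ncols = true :=
    cover_step h5 (chkRangeFin_spec (c := cert) 10000 2000 kFin_10000) rfl
  have h7 : ∀ v < 14000, finAt cert v cert.ncols = true :=
    cover_step h6 (chkRangeFin_spec (c := cert) 12000 2000 kFin_12000) rfl
  have h8 : ∀ v < 16000, finAt cert v cert.ncols = true :=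
    cover_step h7 (chkRangeFin_spec (c := cert) 14000 2000 kFin_14000) rfl
  have h9 : ∀ v < 18000, finAt cert v cert.ncols = true :=
    cover_step h8 (chkRangeFin_spec (c := cert) 16000 2000 kFin_16000) rfl
  have h10 : ∀ v < 20000, finAt cert v cert.ncols = true :=
    cover_step h9 (chkRangeFin_spec (c := cert) 18000 2000 kFin_18000) rfl
  have h11 : ∀ v < 22000, finAt cert v cert.ncols = true :=
    cover_step h10 (chkRangeFin_spec (c := cert) 20000 2000 kFin_20000) rfl
  have h12 : ∀ v < 22880, finAt cert v cert.ncols = true :=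
    cover_step h11 (chkRangeFin_spec (c := cert) 22000 880 kFin_22000) rfl
  exact h12

theorem checked : Checked cert := ⟨small, allT, allF, allFin⟩

def colOf : Cfsg.Spor.Suz.Gen → ℕ
  | .a => 0
  | .b => 1
  | .c => 2
  | .d => 3
  | .e => 4
  | .f => 5
  | .g => 6

def colGen : ℕ → Cfsg.Spor.Suz.Gen × Bool
  | 0 => (.a, true)
  | 1 => (.b, true)
  | 2 => (.c, true)
  | 3 => (.d, true)
  | 4 => (.e, true)
  | 5 => (.f, true)
  | 6 => (.g, true)
  | _ => (.a, true)

def nodes : List Cfsg.Spor.Suz.Gen := [.a, .b, .c, .d, .f, .g, .e]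

def extraEs : List WE := [(.mul (.g 0) (.inv (.pow (.mul (.g 2) (.g 3)) 4))), (.mul (.g 0) (.inv (.pow (.mul (.g 5) (.g 6)) 2))), (.pow (.mul (.mul (.mul (.g 0) (.g 1)) (.g 2)) (.g 5)) 5), (.pow (.mul (.mul (.g 1) (.g 5)) (.g 6)) 5), (.pow (.mul (.pow (.mul (.mul (.mul (.mul (.g 1) (.g 2)) (.g 3)) (.g 2)) (.g 3)) 5) (.g 4)) 3)]

def subEs : List WE := [(.g 0), (.g 1), (.g 2), (.g 3), (.g 5), (.g 6)]

set_option maxHeartbeats 1000000 in
theorem link : Link Cfsg.Spor.Suz.edges Cfsg.Spor.Suz.extra ({Cfsg.Spor.Suz.a, Cfsg.Spor.Suz.b, Cfsg.Spor.Suz.c, Cfsg.Spor.Suz.d, Cfsg.Spor.Suz.f, Cfsg.Spor.Suz.g} : Set (FreeGroup Cfsg.Spor.Suz.Gen)) cert colOf colGen nodes extraEs subEs where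
  hall := by intro x; cases x <;> exact ⟨by decide, rfl⟩
  hcols := by decide +kernel
  hinvs := by decide +kernel
  hn1 := by decide +kernel
  hn2 := by decide +kernel
  hsym := by decide +kernel
  hrels := by decide +kernel
  hextra := rfl
  hok := by decide +kernel
  hsubs := by decide +kernel
  hS1 := by
    intro s hs
    simp only [Set.mem_insert_iff, Set.mem_singleton_iff] at hs
    rcases hs with rfl | rfl | rfl | rfl | rfl | rfl
    · exact ⟨(.g 0), List.mem_cons_self, rfl⟩
    · exact ⟨(.g 1), List.mem_cons_of_mem _ (List.mem_cons_self), rfl⟩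
    · exact ⟨(.g 2), List.mem_cons_of_mem _ (List.mem_cons_of_mem _ (List.mem_cons_self)), rfl⟩
    · exact ⟨(.g 3), List.mem_cons_of_mem _ (List.mem_cons_of_mem _ (List.mem_cons_of_mem _ (List.mem_cons_self))), rfl⟩
    · exact ⟨(.g 5), List.mem_cons_of_mem _ (List.mem_cons_of_mem _ (List.mem_cons_of_mem _ (List.mem_cons_of_mem _ (List.mem_cons_self)))), rfl⟩
    · exact ⟨(.g 6), List.mem_cons_of_mem _ (List.mem_cons_of_mem _ (List.mem_cons_of_mem _ (List.mem_cons_of_mem _ (List.mem_cons_of_mem _ (List.mem_cons_self))))), rfl⟩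
  hS2 := by
    intro e he
    simp only [subEs, List.mem_cons, List.not_mem_nil, or_false] at he
    rcases he with rfl | rfl | rfl | rfl | rfl | rfl
    · exact (Or.inl rfl)
    · exact (Or.inr (Or.inl rfl))
    · exact (Or.inr (Or.inr (Or.inl rfl)))
    · exact (Or.inr (Or.inr (Or.inr (Or.inl rfl))))
    · exact (Or.inr (Or.inr (Or.inr (Or.inr (Or.inl rfl)))))
    · exact (Or.inr (Or.inr (Or.inr (Or.inr (Or.inr rfl)))))

theorem index_eq : (((Subgroup.closure ({Cfsg.Spor.Suz.a, Cfsg.Spor.Suz.b, Cfsg.Spor.Suz.c, Cfsg.Spor.Suz.d, Cfsg.Spor.Suz.f, Cfsg.Spor.Suz.g} : Set (FreeGroup Cfsg.Spor.Suz.Gen))).map (PresentedGroup.mk (coxRelators Cfsg.Spor.Suz.edges ∪ {r | r ∈ Cfsg.Spor.Suz.extra})))).index = 22880 := by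
  obtain ⟨ρ, e, -, -, -⟩ := link.main checked
  exact (Nat.card_congr e).trans (Nat.card_fin _)

end Cfsg.Agent.Helper17.TCD.SuzB
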