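import Mathlib
import Cfsg.Agent.Helper17.TC
import Cfsg.Agent.Helper17.TCD.U42_A0

set_option autoImplicit false

namespace Cfsg.Agent.Helper17.TCD.U42

open Cfsg.Agent.Helper17.TC

def relsL : List (List ℕ) := [[0, 0], [2, 2, 2, 2, 2], [0, 2, 0, 2, 0, 2, 0, 2, 0, 2, 0, 2, 0, 2, 0, 2, 0, 2], [0, 3, 0, 2, 0, 3, 0, 2, 0, 3, 0, 2], [0, 3, 0, 3, 0, 2, 0, 2, 0, 3, 0, 3, 0, 2, 0, 2]]

def subsL : List (List ℕ) := [[2]]

noncomputable def cert : Cert :=
  { ncols := 4, M := 5184, N := 5184, bt := 13, mt := 8191, W := 28, mW := 268435455,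
    WJ := 50, mJ := 1125899906842623, bn := 13, mn := 8191, fuel := 64, ck := 8, cm := 255,
    invc := [1, 0, 3, 2], rels := relsL, subs := subsL,
    T := [T0, T1, T2, T3, T4], J := [J0, J1, J2, J3, J4], P := Pa,
    F := [F0, F1, F2, F3] }

end Cfsg.Agent.Helper17.TCD.U42
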