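import Mathlib
import Cfsg.Agent.Helper17.TCD.U42_Cert

set_option autoImplicit false

namespace Cfsg.Agent.Helper17.TCD.U42

open Cfsg.Agent.Helper17.TC

set_option maxHeartbeats 0 in
theorem kT_0 : chkRangeT cert 0 2000 = true := by decide +kernel

set_option maxHeartbeats 0 in
theorem kT_2000 : chkRangeT cert 2000 2000 = true := by decide +kernel

set_option maxHeartbeats 0 in
theorem kT_4000 : chkRangeT cert 4000 1184 = true := by decide +kernel

set_option maxHeartbeats 0 in
theorem kF_0 : chkRangeF cert 0 2000 = true := by decide +kernel

set_option maxHeartbeats 0 in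
theorem kF_2000 : chkRangeF cert 2000 2000 = true := by decide +kernel

set_option maxHeartbeats 0 in
theorem kF_4000 : chkRangeF cert 4000 1184 = true := by decide +kernel

set_option maxHeartbeats 0 in
theorem kFin_0 : chkRangeFin cert 0 2000 = true := by decide +kernel

set_option maxHeartbeats 0 in
theorem kFin_2000 : chkRangeFin cert 2000 2000 = true := by decide +kernel

end Cfsg.Agent.Helper17.TCD.U42
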