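import Mathlib
import Cfsg.Agent.Helper17.TCIndex
import Cfsg.Agent.Helper17.TCD.U42_K0
import Cfsg.Agent.Helper17.TCD.U42_K1

set_option autoImplicit false

namespace Cfsg.Agent.Helper17.TCD.U42

open Cfsg.Agent.Helper17.TC

set_option maxHeartbeats 1000000 in
theorem small : chkSmall cert = true := by decide +kernel

theorem allT : ∀ v < 5184, chkRow cert v cert.ncols = true := by
  have h0 : ∀ v < 0, chkRow cert v cert.ncols = true := fun v hv => absurd hv (Nat.not_lt_zero v)
  have h1 : ∀ v < 2000, chkRow cert v cert.ncols = true :=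
    cover_step h0 (chkRangeT_spec (c := cert) 0 2000 kT_0) rfl
  have h2 : ∀ v < 4000, chkRow cert v cert.ncols = true :=
    cover_step h1 (chkRangeT_spec (c := cert) 2000 2000 kT_2000) rfl
  have h3 : ∀ v < 5184, chkRow cert v cert.ncols = true :=
    cover_step h2 (chkRangeT_spec (c := cert) 4000 1184 kT_4000) rfl
  exact h3

theorem allF : ∀ v < 5184, chkVF cert v = true := by
  have h0 : ∀ v < 0, chkVF cert v = true := fun v hv => absurd hv (Nat.not_lt_zero v)
  have h1 : ∀ v < 2000, chkVF cert v = true :=
    cover_step h0 (chkRangeF_spec (c := cert) 0 2000 kF_0) rfl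
  have h2 : ∀ v < 4000, chkVF cert v = true :=
    cover_step h1 (chkRangeF_spec (c := cert) 2000 2000 kF_2000) rfl
  have h3 : ∀ v < 5184, chkVF cert v = true :=
    cover_step h2 (chkRangeF_spec (c := cert) 4000 1184 kF_4000) rfl
  exact h3

theorem allFin : ∀ v < 5184, finAt cert v cert.ncols = true := by
  have h0 : ∀ v < 0, finAt cert v cert.ncols = true := fun v hv => absurd hv (Nat.not_lt_zero v)
  have h1 : ∀ v < 2000, finAt cert v cert.ncols = true :=
    cover_step h0 (chkRangeFin_spec (c := cert) 0 2000 kFin_0) rfl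
  have h2 : ∀ v < 4000, finAt cert v cert.ncols = true :=
    cover_step h1 (chkRangeFin_spec (c := cert) 2000 2000 kFin_2000) rfl
  have h3 : ∀ v < 5184, finAt cert v cert.ncols = true :=
    cover_step h2 (chkRangeFin_spec (c := cert) 4000 1184 kFin_4000) rfl
  exact h3

theorem checked : Checked cert := ⟨small, allT, allF, allFin⟩

end Cfsg.Agent.Helper17.TCD.U42
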